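/-
The 275 minimal vectors attached to a triangle of type 2-2-3.
-/
import Cfsg.Agent.Sporadic.LeechHS
import Cfsg.Agent.Sporadic.LeechMcLData

set_option autoImplicit false

namespace Cfsg.Agent.LeechMcL

open scoped Pointwise
open Cfsg Cfsg.Agent.Leech Cfsg.Agent.LeechWord Cfsg.Agent.LeechPair
open Cfsg.Agent.LeechHS (X0 listX dot_smul)
open Cfsg.Agent.M24Geo (idx pt ofMask trans_tuple)

/-- The 275 vectors of a triangle. -/
abbrev pts (u v : leechLattice) : Set leechLattice :=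
  {x : leechLattice | sqNorm (x : GolayPt → ℤ) = 32 ∧
    sqNorm ((u - x) : GolayPt → ℤ) = 32 ∧
    dotInt (v : GolayPt → ℤ) (x : GolayPt → ℤ) = 16}

theorem sqNorm_sub' (a b : GolayPt → ℤ) :
    sqNorm (a - b) = sqNorm a - 2 * dotInt a b + sqNorm b := by
  simp only [sqNorm, dotInt, Pi.sub_apply, Finset.mul_sum, ← Finset.sum_sub_distrib,
    ← Finset.sum_add_distrib]
  exact Finset.sum_congr rfl fun p _ => by ring

theorem sub_smul_norm (g : Co0) (u x : leechLattice) :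
    sqNorm ((g • u : leechLattice).1 - (g • x : leechLattice).1) = sqNorm (u.1 - x.1) := by
  rw [sqNorm_sub', sqNorm_sub', dot_smul,
    show sqNorm ((g • u : leechLattice) : GolayPt → ℤ) = sqNorm (u : GolayPt → ℤ) from g.2.2 u,
    show sqNorm ((g • x : leechLattice) : GolayPt → ℤ) = sqNorm (x : GolayPt → ℤ) from g.2.2 x]

theorem mem_pts_smul (g : Co0) {u v x : leechLattice} :
    g • x ∈ pts (g • u) (g • v) ↔ x ∈ pts u v := by
  simp only [pts, Set.mem_ofPred_eq, dot_smul, sub_smul_norm,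
    show sqNorm ((g • x : leechLattice) : GolayPt → ℤ) = sqNorm (x : GolayPt → ℤ) from g.2.2 x]

/-- Two fours, one of them at the special point. -/
def fourForm (q : GolayPt) : GolayPt → ℤ := fun p => if p = none ∨ p = q then 4 else 0

theorem fourForm_comp {σ : Equiv.Perm GolayPt} (h0 : σ none = none) (q : GolayPt) :
    fourForm (σ q) ∘ σ = fourForm q := by
  funext p
  have : σ p = none ↔ p = none :=
    ⟨fun e => σ.injective (e.trans h0.symm), fun e => e ▸ h0⟩
  simp [fourForm, this]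

theorem norm_dot_U5 {x : leechLattice} :
    (sqNorm (x : GolayPt → ℤ) = 32 ∧ sqNorm ((U5 : GolayPt → ℤ) - (x : GolayPt → ℤ)) = 32) ↔
      sqNorm (x : GolayPt → ℤ) = 32 ∧ 4 * x.1 none + ∑ p, x.1 p = 24 := by
  have hU : sqNorm vecU5 = 48 := by decide +kernel
  refine and_congr_right fun h => ?_
  rw [sqNorm_sub', show (U5 : GolayPt → ℤ) = vecU5 from rfl, hU, dotInt_vecU5, h]
  omega

/-- The forms of the minimal vectors at squared distance 32 from `(5, 1²³)`. -/
theorem near_cases {x : leechLattice} (hN : sqNorm (x : GolayPt → ℤ) = 32)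
    (hd : 4 * x.1 none + ∑ p, x.1 p = 24) :
    (∃ q, q ≠ none ∧ x.1 = fourForm q) ∨
    (∃ o ∈ octads, none ∈ o ∧ x.1 = evenForm o ∅) ∨
    (∃ T ∈ octads, none ∈ T ∧ x.1 = oddForm T none) ∨
    ∃ j, j ≠ none ∧ x.1 = oddForm ∅ j := by
  classical
  rcases minimal_cases x.2 hN with
    ⟨p, q, hpq, hxp, hxq, hrest⟩ | ⟨o, ho, M, hM, he⟩ | ⟨T, hT, j, hTc, he⟩
  · left
    have hs : ∑ r, x.1 r = x.1 p + x.1 q := by
      rw [← Finset.sum_pair hpq]
      refine (Finset.sum_subset (Finset.subset_univ _) fun r _ hr => ?_).symm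
      simp only [Finset.mem_insert, Finset.mem_singleton, not_or] at hr
      exact hrest r hr.1 hr.2
    rw [hs] at hd
    have key : ∀ p q, p = none → p ≠ q → x.1 p = 4 → x.1 q = 4 →
        (∀ r, r ≠ p → r ≠ q → x.1 r = 0) → ∃ q, q ≠ none ∧ x.1 = fourForm q := by
      rintro p q rfl hne h4 hq4 hr
      refine ⟨q, hne.symm, funext fun r => ?_⟩
      by_cases hr0 : r = none
      · subst hr0; simp [fourForm, h4]
      by_cases hrq : r = q
      · subst hrq; simp [fourForm, hq4]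
      simp [fourForm, hr0, hrq, hr r hr0 hrq]
    by_cases hp : p = none
    · subst hp
      exact key none q rfl hpq (by omega) (by omega) hrest
    by_cases hq : q = none
    · subst hq
      exact key none p rfl (Ne.symm hpq) (by omega) (by omega) fun r h h' => hrest r h' h
    have := hrest none (Ne.symm hp) (Ne.symm hq)
    omega
  · right; left
    rw [he, sum_evenForm hM, ho.2] at hd
    by_cases hnM : (none : GolayPt) ∈ M
    · simp only [evenForm, hnM, if_true] at hd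
      omega
    by_cases hn : (none : GolayPt) ∈ o
    · simp only [evenForm, hnM, hn, if_true, if_false] at hd
      obtain rfl : M = ∅ := Finset.card_eq_zero.mp (by omega)
      exact ⟨o, ho, hn, he⟩
    · simp only [evenForm, hnM, hn, if_false] at hd
      omega
  · right; right
    rw [he, sum_oddForm] at hd
    by_cases hn : (none : GolayPt) ∈ T <;> by_cases hj : j = none
    · subst hj
      simp only [oddForm, hn, if_true] at hd
      exact Or.inl ⟨T, ⟨hT, by omega⟩, hn, he⟩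
    · simp only [oddForm, hn, if_true, Ne.symm hj, if_false] at hd
      have : T.card ≠ 0 := Finset.card_ne_zero.mpr ⟨none, hn⟩
      split_ifs at hd <;> omega
    · subst hj
      simp only [oddForm, hn, if_false, if_true] at hd
      omega
    · simp only [oddForm, hn, Ne.symm hj, if_false] at hd
      by_cases hjT : j ∈ T
      · simp only [hjT, if_true] at hd
        omega
      simp only [hjT, if_false] at hd
      obtain rfl : T = ∅ := Finset.card_eq_zero.mp (by omega)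
      exact Or.inr ⟨j, hj, he⟩

theorem tri_words : (wordTriB.all St.ok && wordTriC.all St.ok && wordTriD.all St.ok) = true ∧
    ([(listU, listU), (listX, toL (evenForm (ofMask triB) ∅))].all
      fun e => actW wordTriB e.1 == e.2) = true ∧
    ([(listU, listU), (listX, toL (oddForm (ofMask triC) none))].all
      fun e => actW wordTriC e.1 == e.2) = true ∧
    ([(listU, listU), (listX, toL (oddForm ∅ (pt triD)))].all
      fun e => actW wordTriD e.1 == e.2) = true ∧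
    M24Geo.isWord 8 triB = true ∧ (none : GolayPt) ∈ ofMask triB ∧
    M24Geo.isWord 8 triC = true ∧ (none : GolayPt) ∈ ofMask triC ∧ pt triD ≠ none := by
  decide +kernel

theorem listX_eq : ofL listX = fourForm (pt 1) := by
  funext p; revert p; decide +kernel

/-- Every minimal vector at squared distance 32 from `(5, 1²³)` is the image of `(4, 4, 0²²)`. -/
theorem tri_reach {a : leechLattice} (hN : sqNorm (a : GolayPt → ℤ) = 32)
    (hd : 4 * a.1 none + ∑ p, a.1 p = 24) : ∃ g : Co0, g • U5 = U5 ∧ g • X0 = a := by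
  obtain ⟨hw, lB, lC, lD, cB, cBn, cC, cCn, cDn⟩ := tri_words
  simp only [Bool.and_eq_true] at hw
  have fin : ∀ {W : List St} {l : List ℤ}, W.all St.ok = true →
      ([(listU, listU), (listX, l)].all fun e => actW W e.1 == e.2) = true →
      ∀ {σ : Equiv.Perm GolayPt}, σ ∈ M24 → σ none = none →
      ofL l ∘ σ = a.1 → ∃ g : Co0, g • U5 = U5 ∧ g • X0 = a := by
    intro W l hW hl σ hσ h0 he
    obtain ⟨g, hg⟩ := exists_of_certs hW hl
    have hU : g • U5 = U5 := Subtype.ext (by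
      rw [hg (listU, listU) (by simp) U5 listU_eq]; exact listU_eq.symm)
    refine ⟨permEl hσ * g, ?_, Subtype.ext ?_⟩
    · rw [mul_smul, hU]; exact Subtype.ext (vecU5_comp h0)
    · rw [mul_smul, permEl_smul, hg (listX, l) (by simp) X0 rfl, he]
  rcases near_cases hN hd with ⟨q, hq, he⟩ | ⟨o, ho, hn, he⟩ | ⟨T, hT, hn, he⟩ | ⟨j, hj, he⟩
  · obtain ⟨σ, hσ, hσf⟩ := trans_tuple 2 (by norm_num) (fun i => if i = 0 then none else q) (by
      intro i hi j hj hij
      interval_cases i <;> interval_cases j <;> simp_all)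
    have h0 : σ none = none := hσf 0 (by norm_num)
    have h0' : σ⁻¹ none = none := by
      conv_lhs => rw [← h0]
      rw [Equiv.Perm.coe_inv, Equiv.symm_apply_apply]
    refine ⟨permEl (inv_mem hσ), Subtype.ext (vecU5_comp h0'), Subtype.ext ?_⟩
    rw [permEl_smul, show X0.1 = ofL listX from rfl, listX_eq, he, ← fourForm_comp h0' q,
      show σ⁻¹ q = pt 1 from by
        rw [← show σ (pt 1) = q from hσf 1 (by norm_num), Equiv.Perm.coe_inv,
          Equiv.symm_apply_apply]]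
  · obtain ⟨g, hg, hgo, hg0⟩ := OctadSub.exists_one_in ho hn
    obtain ⟨g', hg', hgo', hg0'⟩ := OctadSub.exists_one_in (mem_octads_of cB) cBn
    refine fin hw.1.1 lB (mul_mem hg' (inv_mem hg)) (map_pt hg0' hg0) ?_
    rw [ofL_toL, he]
    have e := evenForm_comp o ∅ (g' * g⁻¹)
    rwa [map_set hgo' hgo, Finset.smul_finset_empty] at e
  · obtain ⟨g, hg, hgo, hg0⟩ := OctadSub.exists_one_in hT hn
    obtain ⟨g', hg', hgo', hg0'⟩ := OctadSub.exists_one_in (mem_octads_of cC) cCn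
    refine fin hw.1.2 lC (mul_mem hg' (inv_mem hg)) (map_pt hg0' hg0) ?_
    rw [ofL_toL, he]
    have e := oddForm_comp T none (g' * g⁻¹)
    rwa [map_set hgo' hgo, map_pt hg0' hg0] at e
  · obtain ⟨σ, hσ, hσf⟩ := trans_tuple 2 (by norm_num) (fun i => if i = 0 then none else j) (by
      intro i hi j' hj hij
      interval_cases i <;> interval_cases j' <;> simp_all)
    obtain ⟨τ, hτ, hτf⟩ := trans_tuple 2 (by norm_num)
      (fun i => if i = 0 then none else pt triD) (by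
      intro i hi j' hj hij
      interval_cases i <;> interval_cases j' <;> simp_all)
    have e1 : σ (pt 1) = j := hσf 1 (by norm_num)
    have e1' : τ (pt 1) = pt triD := hτf 1 (by norm_num)
    refine fin hw.2 lD (mul_mem hτ (inv_mem hσ))
      (map_pt (b := pt 0) (hτf 0 (by norm_num)) (hσf 0 (by norm_num))) ?_
    rw [ofL_toL, he]
    have e := oddForm_comp ∅ j (τ * σ⁻¹)
    rwa [Finset.smul_finset_empty, map_pt e1' e1] at e

theorem exists_to_std {u v : leechLattice} (hu : sqNorm (u : GolayPt → ℤ) = 48)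
    (hv : sqNorm (v : GolayPt → ℤ) = 32 ∧ sqNorm ((u - v) : GolayPt → ℤ) = 32) :
    ∃ g : Co0, g • u = U5 ∧ g • v = X0 := by
  obtain ⟨g, hg⟩ := exists_to_U5 u hu
  have h := (norm_dot_U5 (x := g • v)).1
    ⟨by rw [show sqNorm ((g • v : leechLattice) : GolayPt → ℤ) =
        sqNorm (v : GolayPt → ℤ) from g.2.2 v]; exact hv.1,
      by rw [← hg, sub_smul_norm]; exact hv.2⟩
  obtain ⟨k, k1, k2⟩ := tri_reach h.1 h.2
  exact ⟨k⁻¹ * g, by rw [mul_smul, hg, inv_smul_eq_iff, k1],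
    by rw [mul_smul, inv_smul_eq_iff, k2]⟩

/-! ### The 275 points of the standard triangle -/

theorem mem_pts0 {x : leechLattice} : x ∈ pts U5 X0 ↔ sqNorm (x : GolayPt → ℤ) = 32 ∧
    4 * x.1 none + ∑ p, x.1 p = 24 ∧ x.1 none + x.1 (pt 1) = 4 := by
  simp only [pts, Set.mem_ofPred_eq, show (X0 : GolayPt → ℤ) = ofL listX from rfl,
    LeechHS.dotInt_X0]
  constructor
  · rintro ⟨h1, h2, h3⟩
    exact ⟨h1, ((norm_dot_U5 (x := x)).1 ⟨h1, h2⟩).2, by omega⟩
  · rintro ⟨h1, h2, h3⟩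
    exact ⟨h1, ((norm_dot_U5 (x := x)).2 ⟨h1, h2⟩).2, by omega⟩

/-- The forms of the 275 vectors. -/
inductive Form (f : GolayPt → ℤ) : Prop
  | four (q : GolayPt) (hq : q ≠ none) (hq1 : q ≠ pt 1) (h : f = fourForm q)
  | even (o : Finset GolayPt) (ho : o ∈ octads) (hn : none ∈ o) (h1 : pt 1 ∈ o)
      (h : f = evenForm o ∅)
  | odd (T : Finset GolayPt) (hT : T ∈ octads) (hn : none ∈ T) (h1 : pt 1 ∉ T)
      (h : f = oddForm T none)

theorem pts0_form {x : leechLattice} (hx : x ∈ pts U5 X0) : Form x.1 := by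
  obtain ⟨hN, hd, hv⟩ := mem_pts0.mp hx
  have h01 : pt 1 ≠ (none : GolayPt) := by decide +kernel
  rcases near_cases hN hd with ⟨q, hq, he⟩ | ⟨o, ho, hn, he⟩ | ⟨T, hT, hn, he⟩ | ⟨j, hj, he⟩
  · refine .four q hq ?_ he
    rintro rfl
    simp [he, fourForm] at hv
  · refine .even o ho hn ?_ he
    by_contra h
    simp [he, evenForm, hn, h] at hv
  · refine .odd T hT hn ?_ he
    intro h
    simp [he, oddForm, hn, h, h01] at hv
  · exfalso
    by_cases h : pt 1 = j <;> simp [he, oddForm, Ne.symm hj, h] at hv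

/-- The coordinates of `(4, 0, 4, 0²¹)`. -/
def listX1 : List ℤ := 4 :: 0 :: 4 :: List.replicate 21 0

theorem listX1_mem : ofL listX1 ∈ leechLattice := by
  refine Cfsg.Agent.Leech.mem_of_inLeechB ?_
  decide +kernel

/-- The vector `(4, 0, 4, 0²¹)`. -/
def X1 : leechLattice := ⟨ofL listX1, listX1_mem⟩

theorem listX1_eq : ofL listX1 = fourForm (pt 2) := by
  funext p; revert p; decide +kernel

theorem pt_ne : (none : GolayPt) ≠ pt 1 ∧ (none : GolayPt) ≠ pt 2 ∧ pt 1 ≠ pt 2 := by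
  decide +kernel

theorem X1_mem : X1 ∈ pts U5 X0 := by
  rw [mem_pts0]
  show sqNorm (ofL listX1) = 32 ∧ 4 * ofL listX1 none + ∑ p, ofL listX1 p = 24 ∧
    ofL listX1 none + ofL listX1 (pt 1) = 4
  decide +kernel

theorem perm_el {σ : Equiv.Perm GolayPt} (hσ : σ ∈ M24) (h0 : σ none = none)
    (h1 : σ (pt 1) = pt 1) :
    permEl hσ • U5 = U5 ∧ permEl hσ • X0 = X0 ∧
      (σ (pt 2) = pt 2 → permEl hσ • X1 = X1) := by
  refine ⟨Subtype.ext (vecU5_comp h0), Subtype.ext ?_, fun h2 => Subtype.ext ?_⟩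
  · rw [permEl_smul, show X0.1 = ofL listX from rfl, listX_eq]
    nth_rewrite 1 [← h1]
    exact fourForm_comp h0 _
  · rw [permEl_smul, show X1.1 = ofL listX1 from rfl, listX1_eq]
    nth_rewrite 1 [← h2]
    exact fourForm_comp h0 _

theorem pt_words : (wordPtB.all St.ok && wordPtC.all St.ok) = true ∧
    ([(listU, listU), (listX, listX), (listX1, toL (evenForm (ofMask ptB) ∅))].all
      fun e => actW wordPtB e.1 == e.2) = true ∧
    ([(listU, listU), (listX, listX), (listX1, toL (oddForm (ofMask ptC) none))].all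
      fun e => actW wordPtC e.1 == e.2) = true ∧
    M24Geo.isWord 8 ptB = true ∧ (none : GolayPt) ∈ ofMask ptB ∧ pt 1 ∈ ofMask ptB ∧
    M24Geo.isWord 8 ptC = true ∧ (none : GolayPt) ∈ ofMask ptC ∧ pt 1 ∉ ofMask ptC := by
  decide +kernel

/-- Every form occurs, as the image of the base point. -/
theorem form_image {f : GolayPt → ℤ} (hf : Form f) :
    ∃ g : Co0, g • U5 = U5 ∧ g • X0 = X0 ∧ (g • X1).1 = f := by
  obtain ⟨hw, lB, lC, cB, cBn, cB1, cC, cCn, cC1⟩ := pt_words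
  rw [Bool.and_eq_true] at hw
  obtain ⟨n01, n02, n12⟩ := pt_ne
  have fin : ∀ {W : List St} {l : List ℤ}, W.all St.ok = true →
      ([(listU, listU), (listX, listX), (listX1, l)].all fun e => actW W e.1 == e.2) = true →
      ∀ {σ : Equiv.Perm GolayPt}, σ ∈ M24 → σ none = none → σ (pt 1) = pt 1 →
      ofL l ∘ σ = f → ∃ g : Co0, g • U5 = U5 ∧ g • X0 = X0 ∧ (g • X1).1 = f := by
    intro W l hW hl σ hσ h0 h1 he
    obtain ⟨g, hg⟩ := exists_of_certs hW hl
    have hU : g • U5 = U5 := Subtype.ext (by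
      rw [hg (listU, listU) (by simp) U5 listU_eq]; exact listU_eq.symm)
    have hX : g • X0 = X0 := Subtype.ext (hg (listX, listX) (by simp) X0 rfl)
    obtain ⟨pU, pX, -⟩ := perm_el hσ h0 h1
    refine ⟨permEl hσ * g, by rw [mul_smul, hU, pU], by rw [mul_smul, hX, pX], ?_⟩
    rw [mul_smul, permEl_smul, hg (listX1, l) (by simp) X1 rfl, he]
  cases hf with
  | four q hq hq1 he =>
    obtain ⟨σ, hσ, hσf⟩ := trans_tuple 3 (by norm_num) (fun i => [none, pt 1, q].getD i none) (by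
      intro a ha b hb hab
      have hnd : [none, pt 1, q].Nodup := by simp [n01, Ne.symm hq, Ne.symm hq1]
      rw [List.getD_eq_getElem _ _ (by simpa using ha),
        List.getD_eq_getElem _ _ (by simpa using hb)] at hab
      exact (List.Nodup.getElem_inj_iff hnd).mp hab)
    have h0 : σ none = none := hσf 0 (by norm_num)
    have h1 : σ (pt 1) = pt 1 := hσf 1 (by norm_num)
    have h0' : σ⁻¹ none = none := by
      conv_lhs => rw [← h0]
      rw [Equiv.Perm.coe_inv, Equiv.symm_apply_apply]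
    have h1' : σ⁻¹ (pt 1) = pt 1 := by
      conv_lhs => rw [← h1]
      rw [Equiv.Perm.coe_inv, Equiv.symm_apply_apply]
    obtain ⟨pU, pX, -⟩ := perm_el (inv_mem hσ) h0' h1'
    refine ⟨permEl (inv_mem hσ), pU, pX, ?_⟩
    rw [permEl_smul, show X1.1 = ofL listX1 from rfl, listX1_eq, he, ← fourForm_comp h0' q,
      show σ⁻¹ q = pt 2 from by
        rw [← show σ (pt 2) = q from hσf 2 (by norm_num), Equiv.Perm.coe_inv,
          Equiv.symm_apply_apply]]
  | even o ho hn h1 he =>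
    obtain ⟨g, hg, hgo, hg0, hg1⟩ := OctadSub.exists_two_in ho hn h1 n01
    obtain ⟨g', hg', hgo', hg0', hg1'⟩ :=
      OctadSub.exists_two_in (mem_octads_of cB) cBn cB1 n01
    refine fin hw.1 lB (mul_mem hg' (inv_mem hg)) (map_pt hg0' hg0) (map_pt hg1' hg1) ?_
    rw [ofL_toL, he]
    have e := evenForm_comp o ∅ (g' * g⁻¹)
    rwa [map_set hgo' hgo, Finset.smul_finset_empty] at e
  | odd T hT hn h1 he =>
    obtain ⟨g, hg, hgo, hg0, hg1⟩ := OctadSub.exists_in_out hT hn h1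
    obtain ⟨g', hg', hgo', hg0', hg1'⟩ :=
      OctadSub.exists_in_out (mem_octads_of cC) cCn cC1
    refine fin hw.2 lC (mul_mem hg' (inv_mem hg)) (map_pt hg0' hg0) (map_pt hg1' hg1) ?_
    rw [ofL_toL, he]
    have e := oddForm_comp T none (g' * g⁻¹)
    rwa [map_set hgo' hgo, map_pt hg0' hg0] at e

theorem form_pt {f : GolayPt → ℤ} (hf : Form f) :
    ∃ y : leechLattice, y ∈ pts U5 X0 ∧ y.1 = f := by
  obtain ⟨g, gU, gX, gf⟩ := form_image hf
  refine ⟨g • X1, ?_, gf⟩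
  have := (mem_pts_smul g).mpr X1_mem
  rwa [gU, gX] at this

theorem exists_to_X1 {u v x : leechLattice} (hu : sqNorm (u : GolayPt → ℤ) = 48)
    (hv : sqNorm (v : GolayPt → ℤ) = 32 ∧ sqNorm ((u - v) : GolayPt → ℤ) = 32)
    (hx : x ∈ pts u v) : ∃ g : Co0, g • u = U5 ∧ g • v = X0 ∧ g • x = X1 := by
  obtain ⟨g, g1, g2⟩ := exists_to_std hu hv
  have hx' : g • x ∈ pts U5 X0 := by rw [← g1, ← g2, mem_pts_smul]; exact hx
  obtain ⟨k, k1, k2, k3⟩ := form_image (pts0_form hx')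
  exact ⟨k⁻¹ * g, by rw [mul_smul, g1, inv_smul_eq_iff, k1],
    by rw [mul_smul, g2, inv_smul_eq_iff, k2],
    by rw [mul_smul, inv_smul_eq_iff]; exact (Subtype.ext k3).symm⟩

/-! ### The orbits of the stabiliser of a point -/

set_option maxRecDepth 20000 in
theorem three_cert : threeTree.check M24Geo.stepMask threeGens threeRoots = true ∧
    threeGens.all M24Geo.autL = true ∧ threeGens.all (M24Geo.fixL 3) = true ∧
    (threeRoots.map fun k => (k.testBit 1, k.testBit 2)).Nodup ∧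
    M24Geo.sortedB threeTree.keys = true ∧
    (threeTree.keys.all fun k => M24Geo.isWord 8 k && k.testBit 0) = true ∧
    (((M24Geo.wordList 8).filter fun k => k.testBit 0).all
      fun k => (threeTree.find k).isSome) = true ∧
    (threeTree.keys.filter fun k => k.testBit 1 == true && k.testBit 2 == false).length = 56 ∧
    (threeTree.keys.filter fun k => k.testBit 1 == false && k.testBit 2 == true).length = 56 ∧
    (threeTree.keys.filter fun k => k.testBit 1 == true && k.testBit 2 == true).length = 21 ∧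
    (threeTree.keys.filter fun k => k.testBit 1 == false && k.testBit 2 == false).length = 120 := by
  decide +kernel

theorem three_key {o : Finset GolayPt} (ho : o ∈ octads) (hn : none ∈ o) :
    ∃ k ∈ threeTree.keys, ofMask k = o := by
  obtain ⟨m, hm, rfl⟩ := M24Geo.mem_wordsOfWeight_iff.mp ho
  refine ⟨m, M24Geo.OT.mem_keys_of_isSome (List.all_eq_true.mp three_cert.2.2.2.2.2.2.1 m
    (List.mem_filter.mpr ⟨M24Geo.mem_wordList hm, ?_⟩)), rfl⟩
  simpa [none_eq, M24Geo.idx_pt 0 (by norm_num)] using hn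

theorem bit_iff {k i : ℕ} (hi : i < 24) : pt i ∈ ofMask k ↔ k.testBit i = true := by
  simp [M24Geo.idx_pt i hi]

theorem three_move {o o' : Finset GolayPt} (ho : o ∈ octads) (hn : none ∈ o) (ho' : o' ∈ octads)
    (hn' : none ∈ o') (h1 : pt 1 ∈ o ↔ pt 1 ∈ o') (h2 : pt 2 ∈ o ↔ pt 2 ∈ o') :
    ∃ σ ∈ M24, σ none = none ∧ σ (pt 1) = pt 1 ∧ σ (pt 2) = pt 2 ∧ σ • o = o' := by
  obtain ⟨hT, hA, hF, hsep, -⟩ := three_cert
  obtain ⟨k, hk, rfl⟩ := three_key ho hn
  obtain ⟨k', hk', rfl⟩ := three_key ho' hn'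
  have hK := M24Geo.permOf_mem_fixPts hA hF
  obtain ⟨r, hr, g, hg, hge⟩ := M24Geo.orbit_cert M24Geo.stepMask_sound hT hA _ hK k hk
  obtain ⟨r', hr', g', hg', hge'⟩ := M24Geo.orbit_cert M24Geo.stepMask_sound hT hA _ hK k' hk'
  rw [M24Geo.mem_fixPts] at hg hg'
  have fx : ∀ (g : Equiv.Perm GolayPt) (r : ℕ), (∀ i < 3, i < 24 → g (pt i) = pt i) →
      ∀ i < 3, pt i ∈ g • ofMask r ↔ r.testBit i = true := fun g r hg i hi => by
    conv_lhs => rw [← hg i hi (by omega), ← Equiv.Perm.smul_def, Finset.smul_mem_smul_finset_iff]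
    exact bit_iff (by omega)
  have hb : (r.testBit 1, r.testBit 2) = (r'.testBit 1, r'.testBit 2) := by
    refine Prod.ext (Bool.eq_iff_iff.mpr ?_) (Bool.eq_iff_iff.mpr ?_)
    · rw [← fx g r hg.2 1 (by norm_num), ← fx g' r' hg'.2 1 (by norm_num), hge, hge']; exact h1
    · rw [← fx g r hg.2 2 (by norm_num), ← fx g' r' hg'.2 2 (by norm_num), hge, hge']; exact h2
  obtain rfl : r = r' := List.inj_on_of_nodup_map hsep hr hr' hb
  exact ⟨g' * g⁻¹, mul_mem hg'.1 (inv_mem hg.1),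
    map_pt (b := pt 0) (hg'.2 0 (by norm_num) (by norm_num)) (hg.2 0 (by norm_num) (by norm_num)),
    map_pt (hg'.2 1 (by norm_num) (by norm_num)) (hg.2 1 (by norm_num) (by norm_num)),
    map_pt (hg'.2 2 (by norm_num) (by norm_num)) (hg.2 2 (by norm_num) (by norm_num)),
    map_set hge' hge⟩

theorem idx12 : idx (pt 1) = 1 ∧ idx (pt 2) = 2 :=
  ⟨M24Geo.idx_pt 1 (by norm_num), M24Geo.idx_pt 2 (by norm_num)⟩

theorem three_count (b1 b2 : Bool) :
    {o : Finset GolayPt | o ∈ octads ∧ none ∈ o ∧ (pt 1 ∈ o ↔ b1 = true) ∧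
      (pt 2 ∈ o ↔ b2 = true)}.ncard =
      (threeTree.keys.filter fun k => k.testBit 1 == b1 && k.testBit 2 == b2).length := by
  obtain ⟨-, -, -, -, hs, hkeys, -⟩ := three_cert
  rw [← List.toFinset_card_of_nodup ((M24Geo.sortedB_nodup hs).filter _), ← Set.ncard_coe_finset,
    ← Set.InjOn.ncard_image (f := ofMask)
      (s := ↑((threeTree.keys.filter fun k => k.testBit 1 == b1 && k.testBit 2 == b2).toFinset))
      (fun a ha b hb h => by
        simp only [List.coe_toFinset, Set.mem_ofPred_eq, List.mem_filter] at ha hb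
        have hlt : ∀ k ∈ threeTree.keys, k < 2 ^ 24 := fun k hk => by
          have h := List.all_eq_true.mp hkeys k hk
          simp only [M24Geo.isWord, Bool.and_eq_true] at h
          exact M24Geo.inCode_lt h.1.1
        exact M24Geo.ofMask_inj (hlt a ha.1) (hlt b hb.1) h)]
  refine congrArg Set.ncard ?_
  ext o
  simp only [Set.mem_ofPred_eq, List.coe_toFinset, Set.mem_image, List.mem_filter,
    Bool.and_eq_true, beq_iff_eq]
  constructor
  · rintro ⟨ho, hn, h1, h2⟩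
    obtain ⟨k, hk, rfl⟩ := three_key ho hn
    rw [bit_iff (by norm_num)] at h1 h2
    exact ⟨k, ⟨hk, Bool.eq_iff_iff.mpr h1, Bool.eq_iff_iff.mpr h2⟩, rfl⟩
  · rintro ⟨k, ⟨hk, h1, h2⟩, rfl⟩
    have h := List.all_eq_true.mp hkeys k hk
    rw [Bool.and_eq_true] at h
    refine ⟨mem_octads_of h.1, ?_, ?_, ?_⟩
    · rw [none_eq, bit_iff (by norm_num)]; exact h.2
    · rw [bit_iff (by norm_num), h1]
    · rw [bit_iff (by norm_num), h2]

theorem dot_X1 (x : GolayPt → ℤ) :
    dotInt (ofL listX1) x = 4 * x none + 4 * x (pt 2) := by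
  have h : ∀ p : GolayPt, ofL listX1 p =
      (if p = none then 4 else 0) + (if p = pt 2 then 4 else 0) := by decide +kernel
  simp [dotInt, h, add_mul, Finset.sum_add_distrib, ite_mul]

/-- The points with inner product 8 with the base point. -/
abbrev near : Set leechLattice :=
  {y | y ∈ pts U5 X0 ∧ dotInt (X1 : GolayPt → ℤ) (y : GolayPt → ℤ) = 8}

/-- The other points with inner product 16 with the base point. -/
abbrev far : Set leechLattice :=
  {y | y ∈ pts U5 X0 ∧ y ≠ X1 ∧ dotInt (X1 : GolayPt → ℤ) (y : GolayPt → ℤ) = 16}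

theorem near_iff {y : leechLattice} : y ∈ near ↔
    (∃ o, (o ∈ octads ∧ none ∈ o ∧ pt 1 ∈ o ∧ pt 2 ∉ o) ∧ y.1 = evenForm o ∅) ∨
    ∃ T, (T ∈ octads ∧ none ∈ T ∧ pt 1 ∉ T ∧ pt 2 ∈ T) ∧ y.1 = oddForm T none := by
  obtain ⟨n01, n02, n12⟩ := pt_ne
  show y ∈ pts U5 X0 ∧ dotInt (ofL listX1) y.1 = 8 ↔ _
  rw [dot_X1]
  constructor
  · rintro ⟨hy, hd⟩
    rcases pts0_form hy with ⟨q, hq, hq1, he⟩ | ⟨o, ho, hn, h1, he⟩ | ⟨T, hT, hn, h1, he⟩
    · exfalso
      by_cases h : pt 2 = q <;> simp [he, fourForm, Ne.symm n02, h] at hd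
    · refine .inl ⟨o, ⟨ho, hn, h1, fun h => ?_⟩, he⟩
      simp [he, evenForm, hn, h] at hd
    · refine .inr ⟨T, ⟨hT, hn, h1, ?_⟩, he⟩
      by_contra h
      simp [he, oddForm, hn, h, Ne.symm n02] at hd
  · rintro (⟨o, ⟨ho, hn, h1, h2⟩, he⟩ | ⟨T, ⟨hT, hn, h1, h2⟩, he⟩)
    · obtain ⟨z, hz, hze⟩ := form_pt (.even o ho hn h1 he)
      obtain rfl : z = y := Subtype.ext (hze)
      exact ⟨hz, by simp [he, evenForm, hn, h2]⟩
    · obtain ⟨z, hz, hze⟩ := form_pt (.odd T hT hn h1 he)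
      obtain rfl : z = y := Subtype.ext (hze)
      exact ⟨hz, by simp [he, oddForm, hn, h2, Ne.symm n02]⟩

theorem far_iff {y : leechLattice} : y ∈ far ↔
    (∃ q, (q ≠ none ∧ q ≠ pt 1 ∧ q ≠ pt 2) ∧ y.1 = fourForm q) ∨
    (∃ o, (o ∈ octads ∧ none ∈ o ∧ pt 1 ∈ o ∧ pt 2 ∈ o) ∧ y.1 = evenForm o ∅) ∨
    ∃ T, (T ∈ octads ∧ none ∈ T ∧ pt 1 ∉ T ∧ pt 2 ∉ T) ∧ y.1 = oddForm T none := by
  obtain ⟨n01, n02, n12⟩ := pt_ne
  show y ∈ pts U5 X0 ∧ y ≠ X1 ∧ dotInt (ofL listX1) y.1 = 16 ↔ _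
  rw [dot_X1]
  constructor
  · rintro ⟨hy, hne, hd⟩
    rcases pts0_form hy with ⟨q, hq, hq1, he⟩ | ⟨o, ho, hn, h1, he⟩ | ⟨T, hT, hn, h1, he⟩
    · refine .inl ⟨q, ⟨hq, hq1, ?_⟩, he⟩
      rintro rfl
      exact hne (Subtype.ext (he.trans listX1_eq.symm))
    · refine .inr (.inl ⟨o, ⟨ho, hn, h1, ?_⟩, he⟩)
      by_contra h
      simp [he, evenForm, hn, h] at hd
    · refine .inr (.inr ⟨T, ⟨hT, hn, h1, fun h => ?_⟩, he⟩)
      simp [he, oddForm, hn, h, Ne.symm n02] at hd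
  · rintro (⟨q, ⟨hq, hq1, hq2⟩, he⟩ | ⟨o, ⟨ho, hn, h1, h2⟩, he⟩ | ⟨T, ⟨hT, hn, h1, h2⟩, he⟩)
    · obtain ⟨z, hz, hze⟩ := form_pt (.four q hq hq1 he)
      obtain rfl : z = y := Subtype.ext (hze)
      refine ⟨hz, fun e => ?_, by simp [he, fourForm, Ne.symm n02, Ne.symm hq2]⟩
      have := congrArg (fun w : leechLattice => w.1 q) e
      simp only [show X1.1 = ofL listX1 from rfl, listX1_eq, he] at this
      simp [fourForm, hq, hq2] at this
    · obtain ⟨z, hz, hze⟩ := form_pt (.even o ho hn h1 he)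
      obtain rfl : z = y := Subtype.ext (hze)
      refine ⟨hz, fun e => ?_, by simp [he, evenForm, hn, h2]⟩
      have := congrArg (fun w : leechLattice => w.1 none) e
      simp [show X1.1 = ofL listX1 from rfl, listX1_eq, he, fourForm, evenForm, hn] at this
    · obtain ⟨z, hz, hze⟩ := form_pt (.odd T hT hn h1 he)
      obtain rfl : z = y := Subtype.ext (hze)
      refine ⟨hz, fun e => ?_, by simp [he, oddForm, hn, h2, Ne.symm n02]⟩
      have := congrArg (fun w : leechLattice => w.1 none) e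
      simp [show X1.1 = ofL listX1 from rfl, listX1_eq, he, fourForm, oddForm, hn] at this

theorem evenForm_inj : Function.Injective fun o : Finset GolayPt => evenForm o ∅ := fun o o' e => by
  ext p
  have := congrFun e p
  by_cases hp : p ∈ o <;> by_cases hp' : p ∈ o' <;> simp_all [evenForm]

theorem oddForm_inj : Function.Injective fun T : Finset GolayPt => oddForm T none := fun o o' e => by
  ext p
  have := congrFun e p
  by_cases hp : p ∈ o <;> by_cases hp' : p ∈ o' <;> by_cases h0 : p = none <;> simp_all [oddForm]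

theorem fourForm_injOn : Set.InjOn fourForm {q | q ≠ none} := fun q hq q' _ e => by
  have := congrFun e q
  simp [fourForm] at this
  exact this hq

theorem ncard_even (b : Bool) :
    ((fun o => evenForm o ∅) '' {o : Finset GolayPt | o ∈ octads ∧ none ∈ o ∧ (pt 1 ∈ o) ∧
      (pt 2 ∈ o ↔ b = true)}).ncard =
      (threeTree.keys.filter fun k => k.testBit 1 == true && k.testBit 2 == b).length := by
  rw [Set.ncard_image_of_injective _ evenForm_inj, ← three_count]
  simp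

theorem ncard_odd (b : Bool) :
    ((fun T => oddForm T none) '' {o : Finset GolayPt | o ∈ octads ∧ none ∈ o ∧ (pt 1 ∉ o) ∧
      (pt 2 ∈ o ↔ b = true)}).ncard =
      (threeTree.keys.filter fun k => k.testBit 1 == false && k.testBit 2 == b).length := by
  rw [Set.ncard_image_of_injective _ oddForm_inj, ← three_count]
  simp

theorem even_odd_disjoint (A B : Set (Finset GolayPt)) (hA : ∀ o ∈ A, none ∈ o)
    (hB : ∀ o ∈ B, none ∈ o) :
    Disjoint ((fun o => evenForm o ∅) '' A) ((fun T => oddForm T none) '' B) := by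
  rw [Set.disjoint_left]
  rintro _ ⟨o, ho, rfl⟩ ⟨T, hT, e⟩
  have := congrFun e none
  simp [evenForm, oddForm, hA o ho, hB T hT] at this

theorem count1 : near.ncard = 112 ∧ far.ncard = 162 := by
  obtain ⟨-, -, -, -, -, -, -, c10, c01, c11, c00⟩ := three_cert
  constructor
  · rw [← Set.ncard_image_of_injective near Subtype.val_injective,
      show (fun y : leechLattice => y.1) '' near =
        (fun o => evenForm o ∅) '' {o : Finset GolayPt | o ∈ octads ∧ none ∈ o ∧ (pt 1 ∈ o) ∧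
          (pt 2 ∈ o ↔ false = true)} ∪
        (fun T => oddForm T none) '' {o : Finset GolayPt | o ∈ octads ∧ none ∈ o ∧ (pt 1 ∉ o) ∧
          (pt 2 ∈ o ↔ true = true)} from ?_,
      Set.ncard_union_eq (even_odd_disjoint _ _ (fun _ h => h.2.1) fun _ h => h.2.1)
        ((Set.toFinite _).image _) ((Set.toFinite _).image _),
      ncard_even, ncard_odd]
    · rw [c10, c01]
    ext f
    simp only [Set.mem_image, Set.mem_union, Set.mem_ofPred_eq, Bool.false_eq_true, iff_false,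
      iff_true]
    constructor
    · rintro ⟨y, hy, rfl⟩
      rcases near_iff.mp hy with ⟨o, ho, he⟩ | ⟨o, ho, he⟩
      exacts [.inl ⟨o, ho, he.symm⟩, .inr ⟨o, ho, he.symm⟩]
    · rintro (⟨o, ⟨ho, hn, h1, h2⟩, rfl⟩ | ⟨o, ⟨ho, hn, h1, h2⟩, rfl⟩)
      · obtain ⟨y, -, he⟩ := form_pt (.even o ho hn h1 rfl)
        exact ⟨y, near_iff.mpr (.inl ⟨o, ⟨ho, hn, h1, h2⟩, he⟩), he⟩
      · obtain ⟨y, -, he⟩ := form_pt (.odd o ho hn h1 rfl)
        exact ⟨y, near_iff.mpr (.inr ⟨o, ⟨ho, hn, h1, h2⟩, he⟩), he⟩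
  · rw [← Set.ncard_image_of_injective far Subtype.val_injective,
      show (fun y : leechLattice => y.1) '' far =
        ((fun o => evenForm o ∅) '' {o : Finset GolayPt | o ∈ octads ∧ none ∈ o ∧ (pt 1 ∈ o) ∧
          (pt 2 ∈ o ↔ true = true)} ∪
        (fun T => oddForm T none) '' {o : Finset GolayPt | o ∈ octads ∧ none ∈ o ∧ (pt 1 ∉ o) ∧
          (pt 2 ∈ o ↔ false = true)}) ∪
        fourForm '' {q | q ≠ none ∧ q ≠ pt 1 ∧ q ≠ pt 2} from ?_,
      Set.ncard_union_eq ?_ (((Set.toFinite _).image _).union ((Set.toFinite _).image _))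
        ((Set.toFinite _).image _),
      Set.ncard_union_eq (even_odd_disjoint _ _ (fun _ h => h.2.1) fun _ h => h.2.1)
        ((Set.toFinite _).image _) ((Set.toFinite _).image _),
      ncard_even, ncard_odd, (fourForm_injOn.mono fun _ h => h.1).ncard_image,
      show {q : GolayPt | q ≠ none ∧ q ≠ pt 1 ∧ q ≠ pt 2} =
        ↑(Finset.univ.filter fun q : GolayPt => q ≠ none ∧ q ≠ pt 1 ∧ q ≠ pt 2) from by ext; simp,
      Set.ncard_coe_finset]
    · rw [c11, c00]
      decide +kernel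
    · rw [Set.disjoint_left]
      rintro _ (⟨o, ho, rfl⟩ | ⟨o, ho, rfl⟩) ⟨q, hq, e⟩ <;> have := congrFun e none <;>
        simp [evenForm, oddForm, fourForm, ho.2.1] at this
    ext f
    simp only [Set.mem_image, Set.mem_union, Set.mem_ofPred_eq, Bool.false_eq_true, iff_false,
      iff_true]
    constructor
    · rintro ⟨y, hy, rfl⟩
      rcases far_iff.mp hy with ⟨o, ho, he⟩ | ⟨o, ho, he⟩ | ⟨o, ho, he⟩
      exacts [.inr ⟨o, ho, he.symm⟩, .inl (.inl ⟨o, ho, he.symm⟩), .inl (.inr ⟨o, ho, he.symm⟩)]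
    · rintro ((⟨o, ⟨ho, hn, h1, h2⟩, rfl⟩ | ⟨o, ⟨ho, hn, h1, h2⟩, rfl⟩) | ⟨q, hq, rfl⟩)
      · obtain ⟨y, -, he⟩ := form_pt (.even o ho hn h1 rfl)
        exact ⟨y, far_iff.mpr (.inr (.inl ⟨o, ⟨ho, hn, h1, h2⟩, he⟩)), he⟩
      · obtain ⟨y, -, he⟩ := form_pt (.odd o ho hn h1 rfl)
        exact ⟨y, far_iff.mpr (.inr (.inr ⟨o, ⟨ho, hn, h1, h2⟩, he⟩)), he⟩
      · obtain ⟨y, -, he⟩ := form_pt (.four q hq.1 hq.2.1 rfl)
        exact ⟨y, far_iff.mpr (.inl ⟨q, hq, he⟩), he⟩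

theorem mix_words : (mixX.all St.ok && mixY.all St.ok && mixZ.all St.ok) = true ∧
    ([(listU, listU), (listX, listX), (listX1, listX1), (toL (evenForm (ofMask srcX) ∅),
      toL (oddForm (ofMask tgtX) none))].all fun e => actW mixX e.1 == e.2) = true ∧
    ([(listU, listU), (listX, listX), (listX1, listX1), (toL (fourForm (pt srcY)),
      toL (evenForm (ofMask tgtY) ∅))].all fun e => actW mixY e.1 == e.2) = true ∧
    ([(listU, listU), (listX, listX), (listX1, listX1), (toL (fourForm (pt srcZ)),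
      toL (oddForm (ofMask tgtZ) none))].all fun e => actW mixZ e.1 == e.2) = true ∧
    (M24Geo.isWord 8 srcX && srcX.testBit 0 && srcX.testBit 1 && !srcX.testBit 2) = true ∧
    (M24Geo.isWord 8 tgtX && tgtX.testBit 0 && !tgtX.testBit 1 && tgtX.testBit 2) = true ∧
    (M24Geo.isWord 8 tgtY && tgtY.testBit 0 && tgtY.testBit 1 && tgtY.testBit 2) = true ∧
    (M24Geo.isWord 8 tgtZ && tgtZ.testBit 0 && !tgtZ.testBit 1 && !tgtZ.testBit 2) = true ∧
    (Nat.blt 2 srcY && Nat.blt srcY 24 && Nat.blt 2 srcZ && Nat.blt srcZ 24) = true := by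
  decide +kernel

/-- Conjugacy under the automorphisms fixing the standard triangle and its base point. -/
def Rel (f f' : GolayPt → ℤ) : Prop :=
  ∃ g : Co0, g • U5 = U5 ∧ g • X0 = X0 ∧ g • X1 = X1 ∧
    ∀ y : leechLattice, y.1 = f → (g • y).1 = f'

theorem Rel.trans {f f' f'' : GolayPt → ℤ} (h : Rel f f') (h' : Rel f' f'') : Rel f f'' := by
  obtain ⟨g, a, b, c, d⟩ := h
  obtain ⟨g', a', b', c', d'⟩ := h'
  exact ⟨g' * g, by rw [mul_smul, a, a'], by rw [mul_smul, b, b'], by rw [mul_smul, c, c'],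
    fun y hy => by rw [mul_smul]; exact d' _ (d y hy)⟩

theorem rel_word {W : List St} (hW : W.all St.ok = true) {l l' : List ℤ}
    (hl : ([(listU, listU), (listX, listX), (listX1, listX1), (l, l')].all
      fun e => actW W e.1 == e.2) = true) : Rel (ofL l) (ofL l') := by
  obtain ⟨g, hg⟩ := exists_of_certs hW hl
  exact ⟨g, Subtype.ext (by rw [hg (listU, listU) (by simp) U5 listU_eq]; exact listU_eq.symm),
    Subtype.ext (hg (listX, listX) (by simp) X0 rfl),
    Subtype.ext (hg (listX1, listX1) (by simp) X1 rfl),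
    fun y hy => hg (l, l') (by simp) y hy⟩

theorem rel_perm {σ : Equiv.Perm GolayPt} (hσ : σ ∈ M24) (h0 : σ none = none)
    (h1 : σ (pt 1) = pt 1) (h2 : σ (pt 2) = pt 2) {f f' : GolayPt → ℤ} (h : f ∘ σ = f') :
    Rel f f' := by
  obtain ⟨a, b, c⟩ := perm_el hσ h0 h1
  exact ⟨permEl hσ, a, b, c h2, fun y hy => by rw [permEl_smul, hy, h]⟩

theorem rel_even {o o' : Finset GolayPt} (ho : o ∈ octads) (hn : none ∈ o) (ho' : o' ∈ octads)
    (hn' : none ∈ o') (h1 : pt 1 ∈ o ↔ pt 1 ∈ o') (h2 : pt 2 ∈ o ↔ pt 2 ∈ o') :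
    Rel (evenForm o ∅) (evenForm o' ∅) := by
  obtain ⟨σ, hσ, s0, s1, s2, hs⟩ := three_move ho' hn' ho hn h1.symm h2.symm
  refine rel_perm hσ s0 s1 s2 ?_
  have e := evenForm_comp o' ∅ σ
  rwa [hs, Finset.smul_finset_empty] at e

theorem rel_odd {o o' : Finset GolayPt} (ho : o ∈ octads) (hn : none ∈ o) (ho' : o' ∈ octads)
    (hn' : none ∈ o') (h1 : pt 1 ∈ o ↔ pt 1 ∈ o') (h2 : pt 2 ∈ o ↔ pt 2 ∈ o') :
    Rel (oddForm o none) (oddForm o' none) := by
  obtain ⟨σ, hσ, s0, s1, s2, hs⟩ := three_move ho' hn' ho hn h1.symm h2.symm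
  refine rel_perm hσ s0 s1 s2 ?_
  have e := oddForm_comp o' none σ
  rwa [hs, s0] at e

theorem rel_four {q q' : GolayPt} (hq : q ≠ none ∧ q ≠ pt 1 ∧ q ≠ pt 2)
    (hq' : q' ≠ none ∧ q' ≠ pt 1 ∧ q' ≠ pt 2) : Rel (fourForm q) (fourForm q') := by
  obtain ⟨n01, n02, n12⟩ := pt_ne
  have key : ∀ r, r ≠ none ∧ r ≠ pt 1 ∧ r ≠ pt 2 → ∃ σ ∈ M24, σ none = none ∧ σ (pt 1) = pt 1 ∧
      σ (pt 2) = pt 2 ∧ σ (pt 3) = r := by
    intro r hr
    obtain ⟨σ, hσ, hσf⟩ := trans_tuple 4 (by norm_num)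
      (fun i => [none, pt 1, pt 2, r].getD i none) (by
      intro a ha b hb hab
      have hnd : [none, pt 1, pt 2, r].Nodup := by
        simp [n01, n02, n12, Ne.symm hr.1, Ne.symm hr.2.1, Ne.symm hr.2.2]
      rw [List.getD_eq_getElem _ _ (by simpa using ha),
        List.getD_eq_getElem _ _ (by simpa using hb)] at hab
      exact (List.Nodup.getElem_inj_iff hnd).mp hab)
    exact ⟨σ, hσ, hσf 0 (by norm_num), hσf 1 (by norm_num), hσf 2 (by norm_num),
      hσf 3 (by norm_num)⟩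
  obtain ⟨g, hg, g0, g1, g2, g3⟩ := key q hq
  obtain ⟨g', hg', g0', g1', g2', g3'⟩ := key q' hq'
  have h0 : (g * g'⁻¹) none = none := map_pt (b := none) g0 g0'
  refine rel_perm (mul_mem hg (inv_mem hg')) h0 (map_pt g1 g1') (map_pt g2 g2') ?_
  rw [← fourForm_comp h0 q', map_pt g3 g3']

theorem near_rel {y : leechLattice} (hy : y ∈ near) :
    Rel y.1 (oddForm (ofMask tgtX) none) := by
  obtain ⟨hw, lX, -, -, cS, cT, -⟩ := mix_words
  simp only [Bool.and_eq_true, Bool.not_eq_true'] at hw cS cT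
  obtain ⟨⟨⟨a, b⟩, c⟩, d⟩ := cS
  obtain ⟨⟨⟨a', b'⟩, c'⟩, d'⟩ := cT
  rcases near_iff.mp hy with ⟨o, ⟨ho, hn, h1, h2⟩, he⟩ | ⟨T, ⟨hT, hn, h1, h2⟩, he⟩
  · rw [he]
    refine (rel_even ho hn (mem_octads_of a) (by rw [none_eq, bit_iff (by norm_num)]; exact b)
      ?_ ?_).trans ?_
    · simp [h1, idx12, c]
    · simp [h2, idx12, d]
    · have := rel_word hw.1.1 lX
      rwa [ofL_toL, ofL_toL] at this
  · rw [he]
    refine rel_odd hT hn (mem_octads_of a') (by rw [none_eq, bit_iff (by norm_num)]; exact b') ?_ ?_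
    · simp [h1, idx12, c']
    · simp [h2, idx12, d']

theorem far_rel {y : leechLattice} (hy : y ∈ far) : ∀ q, q ≠ none ∧ q ≠ pt 1 ∧ q ≠ pt 2 →
    Rel y.1 (fourForm q) ∧ Rel (fourForm q) y.1 := by
  intro q hq
  obtain ⟨hw, -, lY, lZ, -, -, cY, cZ, cs⟩ := mix_words
  simp only [Bool.and_eq_true, Bool.not_eq_true', Nat.blt_eq] at hw cY cZ cs
  have hpt : ∀ i, 2 < i → i < 24 → pt i ≠ none ∧ pt i ≠ pt 1 ∧ pt i ≠ pt 2 := by
    intro i h2 h24
    have : ∀ i < 24, 2 < i → pt i ≠ none ∧ pt i ≠ pt 1 ∧ pt i ≠ pt 2 := by decide +kernel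
    exact this i h24 h2
  have symm : ∀ {f f' : GolayPt → ℤ}, (∃ w : leechLattice, w.1 = f) → Rel f f' → Rel f' f := by
    rintro f f' ⟨w, hw⟩ ⟨g, a, b, c, d⟩
    refine ⟨g⁻¹, inv_smul_eq_iff.mpr a.symm, inv_smul_eq_iff.mpr b.symm,
      inv_smul_eq_iff.mpr c.symm, fun z hz => ?_⟩
    rw [show z = g • w from Subtype.ext (hz.trans (d w hw).symm), inv_smul_smul, hw]
  have hex : ∀ r, r ≠ none ∧ r ≠ pt 1 ∧ r ≠ pt 2 → ∃ w : leechLattice, w.1 = fourForm r :=
    fun r hr => by obtain ⟨w, -, hw⟩ := form_pt (.four r hr.1 hr.2.1 rfl); exact ⟨w, hw⟩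
  obtain ⟨⟨⟨sY, sY'⟩, sZ⟩, sZ'⟩ := cs
  have hback : Rel (fourForm q) y.1 := by
    rcases far_iff.mp hy with ⟨r, hr, he⟩ | ⟨o, ⟨ho, hn, h1, h2⟩, he⟩ | ⟨T, ⟨hT, hn, h1, h2⟩, he⟩
    · rw [he]; exact rel_four hq hr
    · obtain ⟨⟨⟨a, b⟩, c⟩, d⟩ := cY
      rw [he]
      refine ((rel_four hq (hpt srcY sY sY')).trans ?_).trans (rel_even (mem_octads_of a)
        (by rw [none_eq, bit_iff (by norm_num)]; exact b) ho hn ?_ ?_)
      · have := rel_word hw.1.2 lY
        rwa [ofL_toL, ofL_toL] at this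
      · simp [h1, idx12, c]
      · simp [h2, idx12, d]
    · obtain ⟨⟨⟨a, b⟩, c⟩, d⟩ := cZ
      rw [he]
      refine ((rel_four hq (hpt srcZ sZ sZ')).trans ?_).trans (rel_odd (mem_octads_of a)
        (by rw [none_eq, bit_iff (by norm_num)]; exact b) hT hn ?_ ?_)
      · have := rel_word hw.2 lZ
        rwa [ofL_toL, ofL_toL] at this
      · simp [h1, idx12, c]
      · simp [h2, idx12, d]
  exact ⟨symm (hex q hq) hback, hback⟩

/-- The suborbits of a point among the 275. -/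
theorem suborbits {u v x : leechLattice} (hu : sqNorm (u : GolayPt → ℤ) = 48)
    (hv : sqNorm (v : GolayPt → ℤ) = 32 ∧ sqNorm ((u - v) : GolayPt → ℤ) = 32)
    (hx : x ∈ pts u v) :
    {y : leechLattice | y ∈ pts u v ∧
      dotInt (x : GolayPt → ℤ) (y : GolayPt → ℤ) = 8}.ncard = 112 ∧
    {y : leechLattice | y ∈ pts u v ∧ y ≠ x ∧
      dotInt (x : GolayPt → ℤ) (y : GolayPt → ℤ) = 16}.ncard = 162 := by
  obtain ⟨g, g1, g2, g3⟩ := exists_to_X1 hu hv hx
  refine ⟨(LeechHS.transfer g fun y => ?_).trans count1.1,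
    (LeechHS.transfer g fun y => ?_).trans count1.2⟩
  · show g • y ∈ pts U5 X0 ∧ _ ↔ y ∈ pts u v ∧ _
    rw [← g1, ← g2, ← g3, mem_pts_smul, dot_smul]
  · show g • y ∈ pts U5 X0 ∧ _ ↔ y ∈ pts u v ∧ _
    rw [← g1, ← g2, ← g3, mem_pts_smul, dot_smul, (MulAction.injective g).ne_iff]

theorem dot_values {y : leechLattice} (hy : y ∈ pts U5 X0) (hne : y ≠ X1) :
    y ∈ near ∨ y ∈ far := by
  obtain ⟨n01, n02, n12⟩ := pt_ne
  rcases pts0_form hy with ⟨q, hq, hq1, he⟩ | ⟨o, ho, hn, h1, he⟩ | ⟨T, hT, hn, h1, he⟩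
  · refine .inr (far_iff.mpr (.inl ⟨q, ⟨hq, hq1, ?_⟩, he⟩))
    rintro rfl
    exact hne (Subtype.ext (he.trans listX1_eq.symm))
  · by_cases h2 : pt 2 ∈ o
    · exact .inr (far_iff.mpr (.inr (.inl ⟨o, ⟨ho, hn, h1, h2⟩, he⟩)))
    · exact .inl (near_iff.mpr (.inl ⟨o, ⟨ho, hn, h1, h2⟩, he⟩))
  · by_cases h2 : pt 2 ∈ T
    · exact .inl (near_iff.mpr (.inr ⟨T, ⟨hT, hn, h1, h2⟩, he⟩))
    · exact .inr (far_iff.mpr (.inr (.inr ⟨T, ⟨hT, hn, h1, h2⟩, he⟩)))

/-- The stabiliser of a point is transitive on each suborbit. -/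
theorem suborbit_trans {u v x : leechLattice} (hu : sqNorm (u : GolayPt → ℤ) = 48)
    (hv : sqNorm (v : GolayPt → ℤ) = 32 ∧ sqNorm ((u - v) : GolayPt → ℤ) = 32)
    (hx : x ∈ pts u v) {y y' : leechLattice} (hy : y ∈ pts u v) (hy' : y' ∈ pts u v)
    (hne : y ≠ x) (hne' : y' ≠ x)
    (h : dotInt (x : GolayPt → ℤ) (y : GolayPt → ℤ) = dotInt (x : GolayPt → ℤ) (y' : GolayPt → ℤ)) :
    ∃ g : Co0, g • u = u ∧ g • v = v ∧ g • x = x ∧ g • y = y' := by
  obtain ⟨g, g1, g2, g3⟩ := exists_to_X1 hu hv hx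
  have hyy : ∀ z, z ∈ pts u v → z ≠ x → (g • z ∈ pts U5 X0 ∧ g • z ≠ X1 ∧
      dotInt (X1 : GolayPt → ℤ) ((g • z : leechLattice) : GolayPt → ℤ) =
        dotInt (x : GolayPt → ℤ) (z : GolayPt → ℤ)) := fun z hz hzx =>
    ⟨by rw [← g1, ← g2, mem_pts_smul]; exact hz,
      by rw [← g3]; exact fun e => hzx ((MulAction.injective g) e), by rw [← g3, dot_smul]⟩
  obtain ⟨a1, a2, a3⟩ := hyy y hy hne
  obtain ⟨b1, b2, b3⟩ := hyy y' hy' hne'
  rw [← a3, ← b3] at h
  have fin : Rel (g • y).1 (g • y').1 → ∃ k : Co0, k • u = u ∧ k • v = v ∧ k • x = x ∧ k • y = y' := by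
    rintro ⟨k, k1, k2, k3, k4⟩
    have k5 : k • g • y = g • y' := Subtype.ext (k4 _ rfl)
    exact ⟨g⁻¹ * k * g, by rw [mul_smul, mul_smul, g1, k1, ← g1, inv_smul_smul],
      by rw [mul_smul, mul_smul, g2, k2, ← g2, inv_smul_smul],
      by rw [mul_smul, mul_smul, g3, k3, ← g3, inv_smul_smul],
      by rw [mul_smul, mul_smul, k5, inv_smul_smul]⟩
  apply fin
  rcases dot_values a1 a2 with ha | ha <;> rcases dot_values b1 b2 with hb | hb
  · obtain ⟨k, k1, k2, k3, k4⟩ := near_rel ha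
    obtain ⟨l, l1, l2, l3, l4⟩ := near_rel hb
    refine ⟨l⁻¹ * k, by rw [mul_smul, k1, inv_smul_eq_iff, l1],
      by rw [mul_smul, k2, inv_smul_eq_iff, l2], by rw [mul_smul, k3, inv_smul_eq_iff, l3],
      fun z hz => ?_⟩
    rw [mul_smul, show k • z = l • g • y' from Subtype.ext ((k4 z hz).trans (l4 _ rfl).symm),
      inv_smul_smul]
  · rw [ha.2, hb.2.2] at h; omega
  · rw [ha.2.2, hb.2] at h; omega
  · have h3 : pt 3 ≠ none ∧ pt 3 ≠ pt 1 ∧ pt 3 ≠ pt 2 := by decide +kernel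
    exact (far_rel ha _ h3).1.trans (far_rel hb _ h3).2

end Cfsg.Agent.LeechMcL
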