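/-
The stabiliser of a point among the 275 vectors is a projective special unitary group, by its
action on the 112 vectors and the isotropic lines of a Hermitian space of dimension four.
-/
import Cfsg.Agent.Sporadic.LeechMcL
import Cfsg.Agent.Sporadic.McLUnitaryData
import Cfsg.Agent.Classical.USimple
import Cfsg.Agent.Leech.Orbit552

set_option autoImplicit false

namespace Cfsg.Agent.McLUnitary

open scoped Pointwise
open Cfsg Cfsg.Agent.Leech Cfsg.Agent.LeechWord Cfsg.Agent.LeechPair Cfsg.Agent.LeechMcL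
open Cfsg.Agent.LeechHS (X0 listX dot_smul)
open Cfsg.Agent.M24Geo (idx pt)

/-! ### The stabiliser -/

/-- The stabiliser of the standard triangle and of its base point. -/
abbrev S0 : Subgroup Co0 :=
  MulAction.stabilizer Co0 U5 ⊓ MulAction.stabilizer Co0 X0 ⊓ MulAction.stabilizer Co0 X1

theorem mem_S0 {g : Co0} : g ∈ S0 ↔ g • U5 = U5 ∧ g • X0 = X0 ∧ g • X1 = X1 := by
  simp [S0, Subgroup.mem_inf, MulAction.mem_stabilizer_iff, and_assoc]

theorem card_stab_step {G α : Type*} [Group G] [MulAction G α] (H : Subgroup G) (x : α)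
    (T : Set α) (n m : ℕ) (hn : T.ncard = n) (hH : Nat.card ↥H = n * m) (hn0 : n ≠ 0)
    (hin : ∀ g ∈ H, g • x ∈ T) (hout : ∀ y ∈ T, ∃ g ∈ H, g • x = y) :
    Nat.card ↥(H ⊓ MulAction.stabilizer G x) = m := by
  have horb : MulAction.orbit H x = T := by
    ext y
    constructor
    · rintro ⟨g, rfl⟩; exact hin g g.2
    · intro hy
      obtain ⟨g, hg, rfl⟩ := hout y hy
      exact ⟨⟨g, hg⟩, rfl⟩
  have h := Subgroup.index_mul_card (MulAction.stabilizer H x)
  rw [MulAction.index_stabilizer, horb, hn, hH] at h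
  rw [← Nat.eq_of_mul_eq_mul_left (Nat.pos_of_ne_zero hn0) h]
  exact Nat.card_congr
    { toFun := fun g => ⟨⟨g.1, g.2.1⟩, g.2.2⟩
      invFun := fun g => ⟨g.1.1, g.1.2, g.2⟩
      left_inv := fun _ => rfl
      right_inv := fun _ => rfl }

theorem card_shell48 : {v : leechLattice | sqNorm v.1 = 48}.ncard = 16773120 := by
  rw [← leechLattice_counts.2.1, ← Set.ncard_image_of_injective _ Subtype.val_injective]
  congr 1
  ext x
  exact ⟨fun ⟨v, hv, e⟩ => e ▸ ⟨v.2, hv⟩, fun h => ⟨⟨x, h.1⟩, h.2, rfl⟩⟩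

theorem norms : sqNorm (U5 : GolayPt → ℤ) = 48 ∧ sqNorm (X0 : GolayPt → ℤ) = 32 ∧
    sqNorm ((U5 - X0) : GolayPt → ℤ) = 32 := by
  show sqNorm vecU5 = 48 ∧ sqNorm (ofL listX) = 32 ∧ sqNorm (vecU5 - ofL listX) = 32
  decide +kernel

theorem card_S0 : Nat.card ↥S0 = 3265920 := by
  obtain ⟨nU, nX, nUX⟩ := norms
  have h1 : Nat.card ↥(MulAction.stabilizer Co0 U5) = 495766656000 := by
    have := card_stab_step (⊤ : Subgroup Co0) U5 _ _ 495766656000 card_shell48
      (by rw [Subgroup.card_top, Cfsg.Agent.Leech.card_Co0]) (by norm_num)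
      (fun g _ => (g.2.2 U5).trans nU)
      (fun y hy => by
        obtain ⟨g, hg⟩ := exists_to_U5 y hy
        exact ⟨g⁻¹, Subgroup.mem_top _, by rw [inv_smul_eq_iff, hg]⟩)
    rwa [top_inf_eq] at this
  have h2 : Nat.card ↥(MulAction.stabilizer Co0 U5 ⊓ MulAction.stabilizer Co0 X0) = 898128000 := by
    refine card_stab_step _ X0 {x : leechLattice | sqNorm x.1 = 32 ∧ dotInt U5.1 x.1 = 24} _ _
      (ncard_set552 nU) (by rw [h1]) (by norm_num) (fun g hg => ?_) (fun y hy => ?_)
    · have h3 : dotInt U5.1 X0.1 = 24 := ((summand_iff nU).1 ⟨nX, nUX⟩).2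
      refine ⟨(g.2.2 X0).trans nX, ?_⟩
      conv_lhs => rw [← MulAction.mem_stabilizer_iff.mp hg]
      rw [dot_smul, h3]
    · obtain ⟨g, g1, g2⟩ := tri_reach hy.1 (by
        rw [← dotInt_vecU5]; exact hy.2)
      exact ⟨g, MulAction.mem_stabilizer_iff.mpr g1, g2⟩
  have hc : (pts U5 X0).ncard = 275 := by
    have hsplit : pts U5 X0 = insert X1 (near ∪ far) := by
      ext y
      simp only [Set.mem_insert_iff, Set.mem_union]
      constructor
      · intro hy
        by_cases e : y = X1
        exacts [.inl e, .inr (dot_values hy e)]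
      · rintro (rfl | h | h)
        exacts [X1_mem, h.1, h.1]
    obtain ⟨c1, c2⟩ := count1
    have f1 := Set.finite_of_ncard_ne_zero (c1.trans_ne (by norm_num))
    have f2 := Set.finite_of_ncard_ne_zero (c2.trans_ne (by norm_num))
    rw [hsplit, Set.ncard_insert_of_notMem ?_ (f1.union f2), Set.ncard_union_eq ?_ f1 f2, c1, c2]
    · rw [Set.disjoint_left]
      intro y h h'
      have := h.2.symm.trans h'.2.2
      omega
    · rintro (⟨-, h⟩ | ⟨-, h, -⟩)
      · have : dotInt (ofL listX1) (ofL listX1) = 32 := by decide +kernel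
        exact absurd (h.symm.trans this) (by norm_num)
      · exact h rfl
  refine card_stab_step _ X1 _ _ _ hc (by rw [h2]) (by norm_num) (fun g hg => ?_) (fun y hy => ?_)
  · obtain ⟨a, b⟩ := Subgroup.mem_inf.mp hg
    have := (mem_pts_smul g).mpr X1_mem
    rwa [MulAction.mem_stabilizer_iff.mp a, MulAction.mem_stabilizer_iff.mp b] at this
  · obtain ⟨g, a, b, c⟩ := form_image (pts0_form hy)
    exact ⟨g, Subgroup.mem_inf.mpr ⟨MulAction.mem_stabilizer_iff.mpr a,
      MulAction.mem_stabilizer_iff.mpr b⟩, Subtype.ext c⟩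

/-! ### The 112 vectors -/

set_option maxRecDepth 20000 in
theorem near_ok : nearData.length = 112 ∧ nearData.Nodup ∧
    (nearData.all fun l => inLeechB (ofL l) && (toL (ofL l) == l) &&
      (sqNorm (ofL l) == 32) && (4 * ofL l none + ∑ p, ofL l p == 24) &&
      (ofL l none + ofL l (pt 1) == 4) && (4 * ofL l none + 4 * ofL l (pt 2) == 8)) = true := by
  decide +kernel

/-- The coordinates of the `i`-th vector. -/
def nearL (i : ℕ) : List ℤ := nearData.getD i []

theorem nearL_spec {i : ℕ} (hi : i < 112) :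
    ofL (nearL i) ∈ leechLattice ∧ toL (ofL (nearL i)) = nearL i ∧
      sqNorm (ofL (nearL i)) = 32 ∧ 4 * ofL (nearL i) none + ∑ p, ofL (nearL i) p = 24 ∧
      ofL (nearL i) none + ofL (nearL i) (pt 1) = 4 ∧
      4 * ofL (nearL i) none + 4 * ofL (nearL i) (pt 2) = 8 := by
  have hlen := near_ok.1
  have h := List.all_eq_true.mp near_ok.2.2 (nearL i) (by
    rw [nearL, List.getD_eq_getElem _ _ (by omega)]; exact List.getElem_mem _)
  simp only [Bool.and_eq_true, beq_iff_eq] at h
  exact ⟨mem_of_inLeechB h.1.1.1.1.1, h.1.1.1.1.2, h.1.1.1.2, h.1.1.2, h.1.2, h.2⟩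

/-- The `i`-th vector. -/
def nv (i : Fin 112) : leechLattice := ⟨ofL (nearL i), (nearL_spec i.2).1⟩

theorem nv_mem (i : Fin 112) : nv i ∈ near := by
  obtain ⟨-, -, h1, h2, h3, h4⟩ := nearL_spec i.2
  exact ⟨mem_pts0.mpr ⟨h1, h2, h3⟩, by
    show dotInt (ofL listX1) (ofL (nearL i)) = 8
    rw [dot_X1, h4]⟩

theorem nv_injective : Function.Injective nv := by
  intro i j h
  have e := congrArg (fun v : leechLattice => toL v.1) h
  simp only [nv, (nearL_spec i.2).2.1, (nearL_spec j.2).2.1] at e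
  have hlen := near_ok.1
  rw [nearL, nearL, List.getD_eq_getElem _ _ (by omega), List.getD_eq_getElem _ _ (by omega),
    List.Nodup.getElem_inj_iff near_ok.2.1] at e
  exact Fin.ext e

theorem nv_range : Set.range nv = near := by
  refine Set.eq_of_subset_of_ncard_le (Set.range_subset_iff.mpr nv_mem) ?_
    (Set.finite_of_ncard_ne_zero (count1.1.trans_ne (by norm_num)))
  rw [Set.ncard_range_of_injective nv_injective, Nat.card_fin, count1.1]

theorem exists_nv_smul {s : Co0} (hs : s ∈ S0) (i : Fin 112) : ∃ j, s • nv i = nv j := by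
  obtain ⟨a, b, c⟩ := mem_S0.mp hs
  have h1 := (mem_pts_smul s).mpr (nv_mem i).1
  rw [a, b] at h1
  have h2 : s • nv i ∈ near := ⟨h1, by
    conv_lhs => rw [← c]
    rw [dot_smul]; exact (nv_mem i).2⟩
  rw [← nv_range] at h2
  obtain ⟨j, hj⟩ := h2
  exact ⟨j, hj.symm⟩

/-- The coordinates used in the certificate of faithfulness. -/
def spanV : List (List ℤ) := [listU, listX, listX1] ++ nearData

set_option maxRecDepth 20000 in
theorem span_ok : spanIndex.all (fun b => Nat.blt b 115) = true ∧ spanDen ≠ 0 ∧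
    ((List.range 24).all fun m => (List.range 24).all fun k =>
      ((List.range 24).map fun j => (spanCoef.getD m []).getD j 0 *
        (spanV.getD (spanIndex.getD j 0) []).getD k 0).sum == if m = k then spanDen else 0) = true ∧
    spanIndex.length = 24 := by
  decide +kernel

theorem faithful {s : Co0} (hs : s ∈ S0) (h : ∀ i, s • nv i = nv i) : s = 1 := by
  obtain ⟨a, b, c⟩ := mem_S0.mp hs
  obtain ⟨hidx, hden, hc, hlen⟩ := span_ok
  have hfix : ∀ j < 24, ∃ w : leechLattice,
      w.1 = ofL (spanV.getD (spanIndex.getD j 0) []) ∧ s • w = w := by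
    intro j hj
    have hb : spanIndex.getD j 0 < 115 := by
      rw [List.getD_eq_getElem _ _ (by omega)]
      simpa using List.all_eq_true.mp hidx _ (List.getElem_mem (by omega : j < spanIndex.length))
    generalize spanIndex.getD j 0 = k at hb
    match k, hb with
    | 0, _ => exact ⟨U5, listU_eq, a⟩
    | 1, _ => exact ⟨X0, rfl, b⟩
    | 2, _ => exact ⟨X1, rfl, c⟩
    | k + 3, hk => exact ⟨nv ⟨k, by omega⟩, rfl, h _⟩
  choose w hw hws using hfix
  let φ : leechLattice →+ leechLattice := AddMonoidHom.mk' (fun v => s • v) (co0_add s)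
  refine Subtype.ext (Equiv.ext fun v => ?_)
  show s • v = v
  let coef : Fin 24 → ℤ := fun j => ∑ m : Fin 24, v.1 (pt m) * (spanCoef.getD m []).getD j 0
  have key : spanDen • v = ∑ j : Fin 24, coef j • w j j.2 := by
    refine Subtype.ext (funext fun p => ?_)
    rw [AddSubgroup.coe_zsmul, AddSubgroup.val_finsetSum, Finset.sum_apply]
    simp only [AddSubgroup.coe_zsmul, Pi.smul_apply, smul_eq_mul, coef, Finset.sum_mul, hw]
    rw [Finset.sum_comm]
    have inner : ∀ m : Fin 24, ∑ j : Fin 24, v.1 (pt m) * (spanCoef.getD m []).getD j 0 *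
        ofL (spanV.getD (spanIndex.getD j 0) []) p =
        v.1 (pt m) * if (m : ℕ) = idx p then spanDen else 0 := by
      intro m
      have h1 := List.all_eq_true.mp (List.all_eq_true.mp hc m (List.mem_range.mpr m.2)) (idx p)
        (List.mem_range.mpr (M24Geo.idx_lt p))
      rw [beq_iff_eq] at h1
      rw [← h1, ← List.sum_toFinset _ List.nodup_range, List.toFinset_range, Finset.mul_sum,
        ← Fin.sum_univ_eq_sum_range]
      exact Finset.sum_congr rfl fun j _ => by simp only [ofL]; ring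
    rw [Finset.sum_congr rfl fun m _ => inner m,
      Finset.sum_eq_single (⟨idx p, M24Geo.idx_lt p⟩ : Fin 24)
        (fun m _ hm => by rw [if_neg fun e => hm (Fin.ext e), mul_zero]) (by simp)]
    simp [M24Geo.pt_idx, mul_comm]
  have e : spanDen • φ v = spanDen • v := by
    rw [← map_zsmul, key, map_sum]
    exact Finset.sum_congr rfl fun j _ => by rw [map_zsmul]; exact congrArg _ (hws j j.2)
  have e' : φ v = v := by
    refine Subtype.ext (funext fun p => ?_)
    have := congrArg (fun u : leechLattice => u.1 p) e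
    simp only [AddSubgroup.coe_zsmul, Pi.smul_apply, smul_eq_mul] at this
    exact mul_left_cancel₀ hden this
  exact e'

/-! ### The stabiliser words -/

/-- The permutation of the 112 indices of a word in the generators. -/
def wordIdx : List ℕ → ℕ → ℕ
  | [], i => i
  | k :: w, i => (genPerms.getD k []).getD (wordIdx w i) 0

set_option maxRecDepth 20000 in
theorem gens_ok : genWords.length = 8 ∧
    (genWords.all fun W => W.all St.ok && (actW W listU == listU) && (actW W listX == listX) &&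
      (actW W listX1 == listX1)) = true ∧
    ((List.range 8).all fun k => (List.range 112).all fun i =>
      Nat.blt ((genPerms.getD k []).getD i 0) 112 &&
        (actW (genWords.getD k []) (nearL i) == nearL ((genPerms.getD k []).getD i 0))) = true ∧
    (trvWords.all fun w => w.all fun k => Nat.blt k 8) = true := by
  decide +kernel

theorem exists_word_el : ∀ w : List ℕ, (∀ k ∈ w, k < 8) →
    ∃ s ∈ S0, ∀ i : Fin 112, ∃ j : Fin 112, (j : ℕ) = wordIdx w i ∧ s • nv i = nv j
  | [], _ => ⟨1, one_mem _, fun i => ⟨i, rfl, one_smul _ _⟩⟩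
  | k :: w, hw => by
    obtain ⟨hlen, hW, hP, -⟩ := gens_ok
    have hk : k < 8 := hw k (by simp)
    obtain ⟨s, hs, hsi⟩ := exists_word_el w fun a ha => hw a (by simp [ha])
    have h := List.all_eq_true.mp hW (genWords.getD k []) (by
      rw [List.getD_eq_getElem _ _ (by omega)]; exact List.getElem_mem _)
    simp only [Bool.and_eq_true, beq_iff_eq] at h
    obtain ⟨⟨⟨hok, hU⟩, hX⟩, hX1⟩ := h
    obtain ⟨g, hg⟩ := exists_word hok
    have hfix : ∀ (l : List ℤ) (z : leechLattice), z.1 = ofL l →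
        actW (genWords.getD k []) l = l → g • z = z := fun l z hz hl => Subtype.ext (by
      rw [hg, hz, appW_ofL, hl])
    refine ⟨g * s, mul_mem (mem_S0.mpr ⟨hfix _ _ listU_eq hU, hfix listX X0 rfl hX,
      hfix listX1 X1 rfl hX1⟩) hs, fun i => ?_⟩
    obtain ⟨j, hj, hsj⟩ := hsi i
    have h2 := List.all_eq_true.mp (List.all_eq_true.mp hP k (List.mem_range.mpr hk)) j
      (List.mem_range.mpr j.2)
    simp only [Bool.and_eq_true, beq_iff_eq, Nat.blt_eq] at h2
    refine ⟨⟨_, h2.1⟩, by rw [wordIdx, ← hj], ?_⟩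
    rw [mul_smul, hsj]
    refine Subtype.ext ?_
    show (g • nv j).1 = ofL (nearL _)
    rw [hg, show (nv j).1 = ofL (nearL j) from rfl, appW_ofL]
    exact congrArg ofL h2.2

theorem word_lt (k : ℕ) (hk : k < 4) (hlen : trvWords.length = 4 := by decide +kernel) :
    ∀ a ∈ trvWords.getD k [], a < 8 := fun a ha => by
  have := List.all_eq_true.mp gens_ok.2.2.2 (trvWords.getD k []) (by
    rw [List.getD_eq_getElem _ _ (by omega)]; exact List.getElem_mem (by omega : k < trvWords.length))
  simpa using List.all_eq_true.mp this a ha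

/-! ### The field with nine elements -/

/-- Addition of pairs modulo 3. -/
def qadd (x y : ℕ × ℕ) : ℕ × ℕ := ((x.1 + y.1) % 3, (x.2 + y.2) % 3)
/-- Product of pairs, the second component standing for a square root of -1. -/
def qmul (x y : ℕ × ℕ) : ℕ × ℕ :=
  ((x.1 * y.1 + 2 * (x.2 * y.2)) % 3, (x.1 * y.2 + x.2 * y.1) % 3)
/-- Conjugate of a pair. -/
def qconj (x : ℕ × ℕ) : ℕ × ℕ := (x.1 % 3, 2 * x.2 % 3)
/-- Component of a vector of pairs. -/
def qget (u : List (ℕ × ℕ)) (i : ℕ) : ℕ × ℕ := u.getD i (0, 0)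
/-- The Hermitian form on vectors of pairs. -/
def qherm (u v : List (ℕ × ℕ)) : ℕ × ℕ :=
  qadd (qadd (qadd (qmul (qget u 0) (qconj (qget v 0))) (qmul (qget u 1) (qconj (qget v 1))))
    (qmul (qget u 2) (qconj (qget v 2)))) (qmul (qget u 3) (qconj (qget v 3)))
/-- A component of the image under a transvection. -/
def qtrv (e u : List (ℕ × ℕ)) (i : ℕ) : ℕ × ℕ :=
  qadd (qget u i) (qmul (qmul (0, 1) (qherm u e)) (qget e i))
/-- A component of a combination of two vectors. -/
def qcomb (a : ℕ × ℕ) (u : List (ℕ × ℕ)) (b : ℕ × ℕ) (v : List (ℕ × ℕ)) (i : ℕ) : ℕ × ℕ :=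
  qadd (qmul a (qget u i)) (qmul b (qget v i))
/-- The nine pairs. -/
def qAll : List (ℕ × ℕ) := [(0, 0), (1, 0), (2, 0), (0, 1), (1, 1), (2, 1), (0, 2), (1, 2), (2, 2)]
/-- The first spanning vector of a line. -/
def lineA (i : ℕ) : List (ℕ × ℕ) := (lineData.getD i ([], [])).1
/-- The second spanning vector of a line. -/
def lineB (i : ℕ) : List (ℕ × ℕ) := (lineData.getD i ([], [])).2
/-- The vector of a point. -/
def node (n : ℕ) : List (ℕ × ℕ) := (pointData.getD n ([], 0, 0, (0, 0))).1
/-- The check of a transvection on a line. -/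
def trvOK (k i : ℕ) : Bool :=
  let j := wordIdx (trvWords.getD k []) i
  let e := trvData.getD k []
  let c := (trvCoef.getD k []).getD i []
  Nat.blt j 112 &&
  ((List.range 4).all fun m =>
    qtrv e (lineA i) m == qcomb (qget c 0) (lineA j) (qget c 1) (lineB j) m &&
    qtrv e (lineB i) m == qcomb (qget c 2) (lineA j) (qget c 3) (lineB j) m) &&
  !(qadd (qmul (qget c 0) (qget c 3)) (qmul (2, 0) (qmul (qget c 1) (qget c 2))) == (0, 0))
/-- The normalised quadruples. -/
def qCands : List (List (ℕ × ℕ)) :=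
  (qAll.flatMap fun x => qAll.flatMap fun y => qAll.map fun z => [(1, 0), x, y, z]) ++
  (qAll.flatMap fun x => qAll.map fun y => [(0, 0), (1, 0), x, y]) ++
  (qAll.map fun x => [(0, 0), (0, 0), (1, 0), x]) ++ [[(0, 0), (0, 0), (0, 0), (1, 0)]]

set_option maxRecDepth 20000 in
theorem trv_ok : ((List.range 4).all fun k => (List.range 112).all (trvOK k)) = true ∧
    ((List.range 4).all fun k => qherm (trvData.getD k []) (trvData.getD k []) == (0, 0)) = true ∧
    trvWords.length = 4 := by
  decide +kernel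

set_option maxRecDepth 20000 in
theorem lines_ok : ((List.range 112).all fun i => (List.range 112).all fun j =>
    ((qherm (lineA i) (lineA j) == (0, 0)) && (qherm (lineA i) (lineB j) == (0, 0)) &&
      (qherm (lineB i) (lineA j) == (0, 0)) && (qherm (lineB i) (lineB j) == (0, 0))) == (i == j))
      = true := by
  decide +kernel

set_option maxRecDepth 20000 in
theorem points_ok : ((List.range 280).all fun n =>
    let d := pointData.getD n ([], 0, 0, (0, 0))
    bif n == 0 then d.1 == trvData.getD 0 [] else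
      Nat.blt d.2.2.1 n && Nat.blt d.2.1 4 && !(qadd d.2.2.2 (0, 0) == (0, 0)) &&
      (List.range 4).all fun m =>
        qtrv (trvData.getD d.2.1 []) (node d.2.2.1) m == qmul d.2.2.2 (qget d.1 m)) = true ∧
    ((qCands.filter fun l => qherm l l == (0, 0)).all fun l =>
      (List.range 280).any fun n => node n == l) = true := by
  decide +kernel

section Field

variable {F : Type} [Field F] [Fintype F]

open Cfsg.Agent.Classical.U

/-- The facts used about the field. -/
structure Nine (F : Type) [Field F] where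
  sqf : SqField F 3
  iota : F
  iota_sq : iota * iota = -1
  three : (3 : F) = 0

theorem exists_nine (hF : Fintype.card F = 9) : Nonempty (Nine F) := by
  have hS : SqField F 3 := sqField_of_fintype (by rw [hF]; norm_num)
  obtain ⟨d, hd0, hd⟩ := hS.exists_skew
  obtain ⟨p, k, hp, hc, hq⟩ := hS.exists_char
  have hp3 : p = 3 := by
    have : p ∣ 3 := hq ▸ dvd_pow_self p (by rintro rfl; simp at hq)
    exact ((Nat.prime_dvd_prime_iff_eq hp Nat.prime_three).1 this)
  subst hp3
  refine ⟨⟨hS, d, mul_left_cancel₀ hd0 ?_, by exact_mod_cast CharP.cast_eq_zero F 3⟩⟩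
  rw [show d * (d * d) = d ^ 3 by ring, hd, mul_neg, mul_one]

variable (N : Nine F)
include N

/-- The value of a pair. -/
def emb (x : ℕ × ℕ) : F := (x.1 : F) + (x.2 : F) * N.iota

/-- The value of a vector of pairs. -/
def vec (u : List (ℕ × ℕ)) : Fin 4 → F := fun i => emb N (qget u i)

theorem cast_mod (n : ℕ) : ((n % 3 : ℕ) : F) = n := by
  conv_rhs => rw [← Nat.mod_add_div n 3]
  push_cast
  rw [N.three, zero_mul, add_zero]

theorem emb_add (x y : ℕ × ℕ) : emb N (qadd x y) = emb N x + emb N y := by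
  simp only [emb, qadd, cast_mod N]; push_cast; ring

theorem emb_mul (x y : ℕ × ℕ) : emb N (qmul x y) = emb N x * emb N y := by
  simp only [emb, qmul, cast_mod N]; push_cast
  linear_combination (-((x.2 : F) * y.2)) * N.iota_sq + ((x.2 : F) * y.2) * N.three

theorem cast_cube (n : ℕ) : (n : F) ^ 3 = n := by
  induction n with
  | zero => simp
  | succ n ih => rw [Nat.cast_succ, N.sqf.add_pow, ih, one_pow]

theorem emb_conj (x : ℕ × ℕ) : emb N x ^ 3 = emb N (qconj x) := by
  simp only [emb, qconj, cast_mod N]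
  rw [N.sqf.add_pow, mul_pow, cast_cube N, cast_cube N,
    show N.iota ^ 3 = N.iota * (N.iota * N.iota) by ring, N.iota_sq]
  push_cast
  linear_combination (-((x.2 : F) * N.iota)) * N.three

theorem herm_vec (u v : List (ℕ × ℕ)) : herm 3 (vec N u) (vec N v) = emb N (qherm u v) := by
  simp [herm_def, Fin.sum_univ_four, vec, qherm, emb_add, emb_mul, emb_conj]

theorem emb_00 : emb N (0, 0) = 0 := by simp [emb]
theorem emb_10 : emb N (1, 0) = 1 := by simp [emb]
theorem emb_01 : emb N (0, 1) = N.iota := by simp [emb]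

theorem iota_ne : N.iota ≠ 0 := fun h => by
  have := N.iota_sq; rw [h, mul_zero] at this; exact neg_ne_zero.mpr one_ne_zero this.symm

theorem one_ne_neg_one : (1 : F) ≠ -1 := fun h =>
  one_ne_zero (α := F) (by linear_combination N.three - h)

theorem emb_injective (x y : ℕ × ℕ) (h : emb N x = emb N y) :
    x.1 % 3 = y.1 % 3 ∧ x.2 % 3 = y.2 % 3 := by
  have key : ∀ n : ℕ, (n : F) = 0 → n % 3 = 0 := fun n hn => by
    rw [← cast_mod N] at hn
    rcases (show n % 3 = 0 ∨ n % 3 = 1 ∨ n % 3 = 2 by omega) with e | e | e <;> rw [e] at hn ⊢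
    · simp at hn
    · exact absurd (show (1 : F) = -1 by push_cast at hn; linear_combination hn) (one_ne_neg_one N)
  have h2 : ((x.2 + 2 * y.2 : ℕ) : F) = 0 := by
    by_contra hne
    have e : ((x.2 + 2 * y.2 : ℕ) : F) * N.iota = ((y.1 + 2 * x.1 : ℕ) : F) := by
      simp only [emb] at h; push_cast
      linear_combination h + ((y.2 : F) * N.iota - x.1) * N.three
    have e3 := congrArg (· ^ 3) e
    simp only [mul_pow, cast_cube N,
      show N.iota ^ 3 = N.iota * (N.iota * N.iota) by ring, N.iota_sq] at e3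
    have h4 : ((x.2 + 2 * y.2 : ℕ) : F) * N.iota = 0 := by
      linear_combination (((x.2 + 2 * y.2 : ℕ) : F) * N.iota) * N.three - (e - e3)
    exact mul_ne_zero hne (iota_ne N) h4
  have h1 : ((x.1 + 2 * y.1 : ℕ) : F) = 0 := by
    simp only [emb] at h; push_cast at h2 ⊢
    linear_combination h - N.iota * h2 + ((y.2 : F) * N.iota + (y.1 : F)) * N.three
  have := key _ h1
  have := key _ h2
  omega

theorem emb_surjective (hF : Fintype.card F = 9) (a : F) : ∃ x ∈ qAll, emb N x = a := by
  classical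
  have hinj : Set.InjOn (emb N) {x | x ∈ qAll} := fun x hx y hy h => by
    obtain ⟨h1, h2⟩ := emb_injective N x y h
    have : ∀ z ∈ qAll, z.1 < 3 ∧ z.2 < 3 := by decide
    obtain ⟨a, b⟩ := this x hx
    obtain ⟨c, d⟩ := this y hy
    exact Prod.ext (by omega) (by omega)
  have hall : qAll.toFinset.image (emb N) = Finset.univ := by
    refine Finset.eq_univ_of_card _ ?_
    rw [Finset.card_image_of_injOn (by rwa [List.coe_toFinset]),
      List.toFinset_card_of_nodup (by decide), hF]
    rfl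
  obtain ⟨x, hx, rfl⟩ := Finset.mem_image.mp (hall.symm ▸ Finset.mem_univ a : a ∈ qAll.toFinset.image (emb N))
  exact ⟨x, List.mem_toFinset.mp hx, rfl⟩

theorem skew_cases (hF : Fintype.card F = 9) {a : F} (ha : a ^ 3 = -a) :
    a = 0 ∨ a = N.iota ∨ a = N.iota + N.iota := by
  obtain ⟨x, hx, rfl⟩ := emb_surjective N hF a
  rw [emb_conj] at ha
  have h : emb N (qadd (qconj x) x) = emb N (0, 0) := by rw [emb_add, ha, emb_00, neg_add_cancel]
  have h1 := (emb_injective N _ _ h).1
  have hx1 : x.1 = 0 ∧ x.2 < 3 := by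
    exact (show ∀ x ∈ qAll, (qadd (qconj x) x).1 % 3 = 0 → x.1 = 0 ∧ x.2 < 3 by decide) x hx h1
  rcases x with ⟨c, d⟩
  obtain ⟨rfl, hd⟩ := hx1
  interval_cases d
  · exact .inl (emb_00 N)
  · exact .inr (.inl (emb_01 N))
  · exact .inr (.inr (by simp [emb]; ring))

/-- The isotropic line of the `i`-th vector. -/
noncomputable def line (i : Fin 112) : Submodule F (Fin 4 → F) :=
  Submodule.span F {vec N (lineA i), vec N (lineB i)}

theorem line_herm (i j : Fin 112) :
    (herm 3 (vec N (lineA i)) (vec N (lineA j)) = 0 ∧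
      herm 3 (vec N (lineA i)) (vec N (lineB j)) = 0 ∧
      herm 3 (vec N (lineB i)) (vec N (lineA j)) = 0 ∧
      herm 3 (vec N (lineB i)) (vec N (lineB j)) = 0) ↔ i = j := by
  have h := List.all_eq_true.mp (List.all_eq_true.mp lines_ok i (List.mem_range.mpr i.2)) j
    (List.mem_range.mpr j.2)
  have z : ∀ u v, emb N (qherm u v) = 0 ↔ qherm u v = (0, 0) := fun u v => by
    refine ⟨fun e => ?_, fun e => by rw [e, emb_00]⟩
    obtain ⟨h1, h2⟩ := emb_injective N _ (0, 0) (e.trans (emb_00 N).symm)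
    have hlt : (qherm u v).1 < 3 ∧ (qherm u v).2 < 3 :=
      ⟨Nat.mod_lt _ (by norm_num), Nat.mod_lt _ (by norm_num)⟩
    exact Prod.ext (by simp only at h1 ⊢; omega) (by simp only at h2 ⊢; omega)
  simp only [herm_vec, z]
  rw [beq_iff_eq, Bool.eq_iff_iff] at h
  simp only [Bool.and_eq_true, beq_iff_eq, and_assoc] at h
  exact h.trans Fin.ext_iff.symm

theorem line_injective : Function.Injective (line N) := by
  intro i j h
  rw [← line_herm N]
  have key : ∀ x ∈ ({vec N (lineA i), vec N (lineB i)} : Set (Fin 4 → F)),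
      ∀ y ∈ line N j, herm 3 x y = 0 := by
    intro x hx y hy
    rw [← h, line, Submodule.mem_span_pair] at hy
    obtain ⟨c, d, rfl⟩ := hy
    obtain ⟨h1, h2, h3, h4⟩ := (line_herm N i i).mpr rfl
    rw [N.sqf.herm_add_right, herm_smul_right, herm_smul_right]
    rcases hx with rfl | rfl
    · rw [h1, h2]; simp
    · rw [h3, h4]; simp
  have ha : vec N (lineA j) ∈ line N j := Submodule.subset_span (by simp)
  have hb : vec N (lineB j) ∈ line N j := Submodule.subset_span (by simp)
  exact ⟨key _ (by simp) _ ha, key _ (by simp) _ hb, key _ (by simp) _ ha, key _ (by simp) _ hb⟩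

/-- A unitary map and a lattice automorphism permute lines and vectors alike. -/
def Compat (g : (Fin 4 → F) ≃ₗ[F] (Fin 4 → F)) (s : Co0) : Prop :=
  ∀ i, ∃ j, s • nv i = nv j ∧ (line N i).map (g : (Fin 4 → F) →ₗ[F] (Fin 4 → F)) = line N j

theorem compat_one : Compat N 1 1 := fun i =>
  ⟨i, one_smul _ _, Submodule.map_id _⟩

theorem compat_mul {g h : (Fin 4 → F) ≃ₗ[F] (Fin 4 → F)} {s t : Co0} (hg : Compat N g s)
    (hh : Compat N h t) : Compat N (g * h) (s * t) := fun i => by
  obtain ⟨j, hj, hj'⟩ := hh i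
  obtain ⟨k, hk, hk'⟩ := hg j
  exact ⟨k, by rw [mul_smul, hj, hk], by
    rw [show ((g * h : (Fin 4 → F) ≃ₗ[F] (Fin 4 → F)) : (Fin 4 → F) →ₗ[F] (Fin 4 → F)) =
      (g : (Fin 4 → F) →ₗ[F] (Fin 4 → F)).comp (h : (Fin 4 → F) →ₗ[F] (Fin 4 → F)) from rfl,
      Submodule.map_comp, hj', hk']⟩

theorem compat_inv {g : (Fin 4 → F) ≃ₗ[F] (Fin 4 → F)} {s : Co0} (hs : s ∈ S0)
    (hg : Compat N g s) : Compat N g⁻¹ s⁻¹ := fun i => by
  obtain ⟨j, hj⟩ := exists_nv_smul (inv_mem hs) i
  obtain ⟨k, hk, hk'⟩ := hg j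
  rw [← hj, smul_inv_smul] at hk
  obtain rfl := nv_injective hk
  refine ⟨j, hj, ?_⟩
  rw [← hk', ← Submodule.map_comp]
  convert Submodule.map_id (line N j)
  exact LinearMap.ext fun v => g.symm_apply_apply v

theorem compat_unique {g : (Fin 4 → F) ≃ₗ[F] (Fin 4 → F)} {s t : Co0} (hs : s ∈ S0) (ht : t ∈ S0)
    (h : Compat N g s) (h' : Compat N g t) : s = t := by
  have : t⁻¹ * s = 1 := by
    refine faithful (mul_mem (inv_mem ht) hs) fun i => ?_
    obtain ⟨j, hj, hj'⟩ := h i
    obtain ⟨k, hk, hk'⟩ := h' i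
    rw [line_injective N (hj'.symm.trans hk')] at hj
    rw [mul_smul, hj, ← hk, inv_smul_smul]
  exact (inv_mul_eq_one.mp this).symm

/-- The unitary maps realised in the stabiliser. -/
def realised : Subgroup (SUG 4 F 3) where
  carrier := {g | ∃ s ∈ S0, Compat N g.1.1 s}
  one_mem' := ⟨1, one_mem _, compat_one N⟩
  mul_mem' := fun ⟨s, hs, h⟩ ⟨t, ht, h'⟩ => ⟨s * t, mul_mem hs ht, compat_mul N h h'⟩
  inv_mem' := fun ⟨s, hs, h⟩ => ⟨s⁻¹, inv_mem hs, compat_inv N hs h⟩

/-- Transvection membership for every parameter. -/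
def Good (p : Fin 4 → F) : Prop :=
  ∀ a : F, a ^ 3 = -a → ∃ g ∈ realised N, ∀ w, g.1.1 w = w + (a * herm 3 w p) • p

theorem qeq {x y : ℕ × ℕ} (h : (x == y) = true) : emb N x = emb N y := by
  rw [beq_iff_eq] at h; rw [h]

theorem trvData_iso {k : ℕ} (hk : k < 4) :
    TrvCond 3 (vec N (trvData.getD k [])) N.iota := by
  refine ⟨?_, by rw [show N.iota ^ 3 = N.iota * (N.iota * N.iota) by ring, N.iota_sq]; ring⟩
  rw [herm_vec, qeq N (List.all_eq_true.mp trv_ok.2.1 k (List.mem_range.mpr hk)), emb_00]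

/-- A generating transvection. -/
noncomputable def gen {k : ℕ} (hk : k < 4) : SUG 4 F 3 :=
  ⟨trv N.sqf (trvData_iso N hk), TG_le_SUG N.sqf (trv_mem N.sqf _)⟩

theorem gen_vec {k : ℕ} (hk : k < 4) (u : List (ℕ × ℕ)) :
    (gen N hk).1.1 (vec N u) = fun i : Fin 4 => emb N (qtrv (trvData.getD k []) u i) := by
  funext i
  simp [gen, trv_apply, herm_vec, vec, qtrv, emb_add, emb_mul, emb_01]

theorem line_map {k : ℕ} (hk : k < 4) (i j : Fin 112)
    (hj : (j : ℕ) = wordIdx (trvWords.getD k []) i) :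
    (line N i).map ((gen N hk).1.1 : (Fin 4 → F) →ₗ[F] (Fin 4 → F)) = line N j := by
  obtain ⟨hT, -, -⟩ := trv_ok
  have h := List.all_eq_true.mp (List.all_eq_true.mp hT k (List.mem_range.mpr hk)) i
    (List.mem_range.mpr i.2)
  simp only [trvOK, ← hj, Bool.and_eq_true, List.all_eq_true, List.mem_range,
    Bool.not_eq_true', beq_eq_false_iff_ne] at h
  obtain ⟨⟨-, hm⟩, hdet⟩ := h
  generalize (trvCoef.getD k []).getD i [] = c at hm hdet
  have e1 : (gen N hk).1.1 (vec N (lineA i)) =
      emb N (qget c 0) • vec N (lineA j) + emb N (qget c 1) • vec N (lineB j) := by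
    rw [gen_vec]; funext m
    rw [qeq N (hm m m.2).1]
    simp [qcomb, emb_add, emb_mul, vec]
  have e2 : (gen N hk).1.1 (vec N (lineB i)) =
      emb N (qget c 2) • vec N (lineA j) + emb N (qget c 3) • vec N (lineB j) := by
    rw [gen_vec]; funext m
    rw [qeq N (hm m m.2).2]
    simp [qcomb, emb_add, emb_mul, vec]
  have hD : emb N (qget c 0) * emb N (qget c 3) - emb N (qget c 1) * emb N (qget c 2) ≠ 0 := by
    intro e
    refine hdet ?_
    have : emb N (qadd (qmul (qget c 0) (qget c 3)) (qmul (2, 0) (qmul (qget c 1) (qget c 2)))) =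
        emb N (0, 0) := by
      rw [emb_00, emb_add, emb_mul, emb_mul, emb_mul, show emb N (2, 0) = 2 by simp [emb]]
      linear_combination e + (emb N (qget c 1) * emb N (qget c 2)) * N.three
    obtain ⟨h1, h2⟩ := emb_injective N _ _ this
    simp only [qadd] at h1 h2 ⊢
    exact Prod.ext (by omega) (by omega)
  set P := vec N (lineA j)
  set Q := vec N (lineB j)
  set α := emb N (qget c 0)
  set β := emb N (qget c 1)
  set γ := emb N (qget c 2)
  set δ := emb N (qget c 3)
  rw [line, line, Submodule.map_span, Set.image_pair]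
  simp only [LinearEquiv.coe_coe, e1, e2]
  refine le_antisymm (Submodule.span_le.mpr ?_) (Submodule.span_le.mpr ?_)
  · rintro x (rfl | rfl)
    exacts [Submodule.mem_span_pair.mpr ⟨α, β, rfl⟩, Submodule.mem_span_pair.mpr ⟨γ, δ, rfl⟩]
  · rintro x (rfl | rfl)
    · refine Submodule.mem_span_pair.mpr ⟨δ / (α * δ - β * γ), -β / (α * δ - β * γ), ?_⟩
      funext m
      simp only [Pi.add_apply, Pi.smul_apply, smul_eq_mul]
      rw [div_mul_eq_mul_div, div_mul_eq_mul_div, ← add_div, div_eq_iff hD]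
      ring
    · refine Submodule.mem_span_pair.mpr ⟨-γ / (α * δ - β * γ), α / (α * δ - β * γ), ?_⟩
      funext m
      simp only [Pi.add_apply, Pi.smul_apply, smul_eq_mul]
      rw [div_mul_eq_mul_div, div_mul_eq_mul_div, ← add_div, div_eq_iff hD]
      ring

theorem gen_realised {k : ℕ} (hk : k < 4) : gen N hk ∈ realised N := by
  obtain ⟨s, hs, hsw⟩ := exists_word_el (trvWords.getD k []) (word_lt k hk)
  refine ⟨s, hs, fun i => ?_⟩
  obtain ⟨j, hj, hsj⟩ := hsw i
  exact ⟨j, hsj, line_map N hk i j hj⟩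

theorem good_root (hF : Fintype.card F = 9) : Good N (vec N (trvData.getD 0 [])) := by
  intro a ha
  have h0 := trvData_iso N (show 0 < 4 by norm_num)
  have hg : ∀ w, (gen N (show 0 < 4 by norm_num)).1.1 w =
      w + (N.iota * herm 3 w (vec N (trvData.getD 0 []))) • vec N (trvData.getD 0 []) :=
    fun w => by simp [gen, trv_apply]
  rcases skew_cases N hF ha with rfl | rfl | rfl
  · exact ⟨1, one_mem _, fun w => by simp⟩
  · exact ⟨_, gen_realised N (by norm_num), hg⟩
  · refine ⟨gen N (show 0 < 4 by norm_num) * gen N (show 0 < 4 by norm_num),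
      mul_mem (gen_realised N _) (gen_realised N _), fun w => ?_⟩
    show (gen N (show 0 < 4 by norm_num)).1.1 ((gen N (show 0 < 4 by norm_num)).1.1 w) = _
    rw [hg w, hg (w + _), herm_add_left, herm_smul_left, h0.1, mul_zero, add_zero, add_assoc,
      ← add_smul, add_mul]

theorem good_node (hF : Fintype.card F = 9) : ∀ n < 280, Good N (vec N (node n)) := by
  intro n
  induction n using Nat.strong_induction_on with
  | _ n ih =>
    intro hn
    have h := List.all_eq_true.mp points_ok.1 n (List.mem_range.mpr hn)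
    rcases Nat.eq_zero_or_pos n with rfl | hpos
    · simp only [beq_self_eq_true, cond_true, beq_iff_eq] at h
      simp only [node, h]
      exact good_root N hF
    · rw [show (n == 0) = false by simpa using hpos.ne', cond_false] at h
      simp only [node]
      generalize pointData.getD n ([], 0, 0, (0, 0)) = d at h ⊢
      obtain ⟨q, k, m, lam⟩ := d
      simp only [Bool.and_eq_true, Nat.blt_eq, List.all_eq_true, List.mem_range,
        Bool.not_eq_true', beq_eq_false_iff_ne] at h
      obtain ⟨⟨⟨hm, hk⟩, hlam⟩, he⟩ := h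
      have himg : (gen N hk).1.1 (vec N (node m)) = emb N lam • vec N q := by
        rw [gen_vec]; funext i
        rw [qeq N (he i i.2)]
        simp [emb_mul, vec]
      set c := emb N lam with hc
      have hc0 : c ≠ 0 := fun e => by
        obtain ⟨h1, h2⟩ := emb_injective N lam (0, 0) (e.trans (emb_00 N).symm)
        refine hlam (Prod.ext ?_ ?_) <;> simp only [qadd] at * <;> omega
      intro a ha
      have hc3 : (c * c ^ 3) ^ 3 = c * c ^ 3 := by
        rw [mul_pow, N.sqf.pow_pow]; ring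
      obtain ⟨g, hg, hgw⟩ := ih m hm (by omega) (a / (c * c ^ 3))
        (by rw [div_pow, ha, hc3, neg_div])
      refine ⟨gen N hk * g * (gen N hk)⁻¹,
        mul_mem (mul_mem (gen_realised N hk) hg) (inv_mem (gen_realised N hk)), fun w => ?_⟩
      simp only [Subgroup.coe_mul, LinearEquiv.mul_apply, hgw, map_add, map_smul]
      rw [← UG_app (gen N hk).1 (((gen N hk)⁻¹ : SUG 4 F 3).1.1 w) (vec N (node m)), himg,
        show (gen N hk).1.1 (((gen N hk)⁻¹ : SUG 4 F 3).1.1 w) = w by simp,
        herm_smul_right, smul_smul]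
      congr 2
      field_simp

theorem good_all (hF : Fintype.card F = 9) {e : Fin 4 → F} (he : herm 3 e e = 0) : Good N e := by
  by_cases he0 : e = 0
  · exact fun a _ => ⟨1, one_mem _, fun w => by simp [he0]⟩
  obtain ⟨l, hl, d, hd, rfl⟩ : ∃ l ∈ qCands, ∃ d : F, d ≠ 0 ∧ e = d • vec N l := by
    have build : ∀ d : F, d ≠ 0 → ∀ x : Fin 4 → F, (∀ i, e i = d * x i) →
        ∀ l ∈ qCands, vec N l = x → ∃ l ∈ qCands, ∃ d : F, d ≠ 0 ∧ e = d • vec N l :=
      fun d hd x hx l hl hlx => ⟨l, hl, d, hd, by rw [hlx]; funext i; simpa using hx i⟩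
    have sur := fun d i => emb_surjective N hF (e i / d)
    by_cases h0 : e 0 = 0
    · by_cases h1 : e 1 = 0
      · by_cases h2 : e 2 = 0
        · have h3 : e 3 ≠ 0 := fun h3 => he0 (funext fun i => by fin_cases i <;> assumption)
          exact build (e 3) h3 ![0, 0, 0, 1] (fun i => by fin_cases i <;> simp [h0, h1, h2])
            [(0, 0), (0, 0), (0, 0), (1, 0)] (by simp [qCands])
            (funext fun i => by fin_cases i <;> simp [vec, qget, emb])
        · obtain ⟨x, hx, ex⟩ := sur (e 2) 3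
          exact build (e 2) h2 ![0, 0, 1, e 3 / e 2]
            (fun i => by fin_cases i <;> simp [h0, h1, mul_div_cancel₀ _ h2])
            [(0, 0), (0, 0), (1, 0), x] (by simp [qCands, hx])
            (funext fun i => by fin_cases i <;> simp [vec, qget, emb_00, emb_10, ex])
      · obtain ⟨x, hx, ex⟩ := sur (e 1) 2
        obtain ⟨y, hy, ey⟩ := sur (e 1) 3
        exact build (e 1) h1 ![0, 1, e 2 / e 1, e 3 / e 1]
          (fun i => by fin_cases i <;> simp [h0, mul_div_cancel₀ _ h1])
          [(0, 0), (1, 0), x, y] (by simp [qCands, hx, hy])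
          (funext fun i => by fin_cases i <;> simp [vec, qget, emb_00, emb_10, ex, ey])
    · obtain ⟨x, hx, ex⟩ := sur (e 0) 1
      obtain ⟨y, hy, ey⟩ := sur (e 0) 2
      obtain ⟨z, hz, ez⟩ := sur (e 0) 3
      exact build (e 0) h0 ![1, e 1 / e 0, e 2 / e 0, e 3 / e 0]
        (fun i => by fin_cases i <;> simp [mul_div_cancel₀ _ h0])
        [(1, 0), x, y, z] (by
          simp only [qCands, List.mem_append, List.mem_flatMap, List.mem_map]
          exact .inl (.inl (.inl ⟨x, hx, y, hy, z, hz, rfl⟩)))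
        (funext fun i => by fin_cases i <;> simp [vec, qget, emb_10, ex, ey, ez])
  rw [herm_smul_left, herm_smul_right, herm_vec] at he
  have hq : qherm l l = (0, 0) := by
    have h1 : emb N (qherm l l) = emb N (0, 0) := by
      rw [emb_00]
      simpa [hd] using he
    obtain ⟨a, b⟩ := emb_injective N _ _ h1
    have hlt : (qherm l l).1 < 3 ∧ (qherm l l).2 < 3 :=
      ⟨Nat.mod_lt _ (by norm_num), Nat.mod_lt _ (by norm_num)⟩
    exact Prod.ext (by simp only at a ⊢; omega) (by simp only at b ⊢; omega)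
  obtain ⟨n, hn, hnl⟩ := List.any_eq_true.mp (List.all_eq_true.mp points_ok.2 l
    (List.mem_filter.mpr ⟨hl, by rw [hq]; rfl⟩))
  rw [beq_iff_eq] at hnl
  subst hnl
  intro a ha
  obtain ⟨g, hg, hgw⟩ := good_node N hF n (List.mem_range.mp hn) (a * (d * d ^ 3)) (by
    rw [mul_pow, mul_pow, N.sqf.pow_pow, ha]; ring)
  refine ⟨g, hg, fun w => ?_⟩
  rw [hgw, herm_smul_right, smul_smul]
  congr 2
  ring

theorem realised_eq_top (hF : Fintype.card F = 9) : realised N = ⊤ := by
  have hle : TG 4 F 3 ≤ (realised N).map (SUG 4 F 3).subtype := by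
    rw [TG, Subgroup.closure_le]
    rintro g ⟨e, a, h, hg⟩
    obtain ⟨k, hk, hkw⟩ := good_all N hF h.1 a h.2
    exact ⟨k, hk, Subtype.ext (LinearEquiv.ext fun w => by rw [hg]; exact hkw w)⟩
  refine eq_top_iff.mpr fun g _ => ?_
  obtain ⟨k, hk, e⟩ := hle (SUG_le_TG N.sqf 4 (by norm_num) (by norm_num) g.2)
  rwa [← Subtype.ext e]

/-- The homomorphism to the stabiliser. -/
noncomputable def toS0 (hF : Fintype.card F = 9) : SUG 4 F 3 →* ↥S0 :=
  have h : ∀ g : SUG 4 F 3, ∃ s ∈ S0, Compat N g.1.1 s := fun g => by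
    have : g ∈ realised N := realised_eq_top N hF ▸ Subgroup.mem_top g
    exact this
  MonoidHom.mk' (fun g => ⟨(h g).choose, (h g).choose_spec.1⟩) fun g g' => Subtype.ext <|
    compat_unique N (h (g * g')).choose_spec.1 (mul_mem (h g).choose_spec.1 (h g').choose_spec.1)
      (h (g * g')).choose_spec.2 (compat_mul N (h g).choose_spec.2 (h g').choose_spec.2)

theorem toS0_spec (hF : Fintype.card F = 9) (g : SUG 4 F 3) :
    Compat N g.1.1 (toS0 N hF g : Co0) :=
  (show ∃ s ∈ S0, Compat N g.1.1 s from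
    (show g ∈ realised N from realised_eq_top N hF ▸ Subgroup.mem_top g)).choose_spec.2

theorem center_le_ker (hF : Fintype.card F = 9) :
    Subgroup.center (SUG 4 F 3) ≤ (toS0 N hF).ker := by
  intro g hg
  obtain ⟨c, hc⟩ := center_SUG_scalar N.sqf (by norm_num) g hg
  have hc0 : c ≠ 0 := fun e => one_ne_zero (α := F) (by
    have h := g.1.1.injective (show g.1.1 (Pi.single 0 1) = g.1.1 0 by rw [hc, e]; simp)
    simpa using congrFun h 0)
  refine MonoidHom.mem_ker.mpr (Subtype.ext (compat_unique N (toS0 N hF g).2 (one_mem _)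
    (toS0_spec N hF g) fun i => ⟨i, one_smul _ _, ?_⟩))
  refine le_antisymm ?_ fun x hx => ⟨c⁻¹ • x, Submodule.smul_mem _ _ hx, ?_⟩
  · rintro _ ⟨x, hx, rfl⟩
    show g.1.1 x ∈ line N i
    rw [hc]; exact Submodule.smul_mem _ _ hx
  · show g.1.1 (c⁻¹ • x) = x
    rw [hc, smul_smul, mul_inv_cancel₀ hc0, one_smul]

end Field

section Main

open Cfsg.Agent.Classical.U

set_option maxRecDepth 20000 in
theorem word0_moves : (List.range 112).all (fun i => wordIdx (trvWords.getD 0 []) i == i) = false := by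
  decide +kernel

theorem card_PSU_four_three {F : Type} [Field F] [Fintype F] (hF : Fintype.card F = 9) : Nat.card (Cfsg.PSU 4 F 3) = 3265920 := by
  have hS : SqField F 3 := sqField_of_fintype (by rw [hF]; norm_num)
  have h := card_PSU hS (n := 4) (by norm_num)
  rw [card_UG hS 4] at h
  norm_num [Finset.prod_range_succ] at h
  omega

theorem nonempty_iso {F : Type} [Field F] [Fintype F] (hF : Fintype.card F = 9) : Nonempty (↥S0 ≃* Cfsg.PSU 4 F 3) := by
  obtain ⟨N⟩ := exists_nine hF
  haveI := isSimpleGroup_SUG_mod_center N.sqf (n := 4) (by norm_num) (by norm_num)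
  let f := QuotientGroup.lift (Subgroup.center (SUG 4 F 3)) (toS0 N hF) (center_le_ker N hF)
  have hker : f.ker = ⊥ := by
    refine (IsSimpleGroup.eq_bot_or_eq_top_of_normal f.ker inferInstance).resolve_right fun h => ?_
    have h1 : f ((gen N (show 0 < 4 by norm_num) : SUG 4 F 3) :
        SUG 4 F 3 ⧸ Subgroup.center (SUG 4 F 3)) = 1 := MonoidHom.mem_ker.mp (h ▸ Subgroup.mem_top _)
    rw [QuotientGroup.lift_mk] at h1
    obtain ⟨s, hs, hsc⟩ := gen_realised N (show 0 < 4 by norm_num)
    have hs1 : s = 1 := (compat_unique N hs (toS0 N hF _).2 hsc (toS0_spec N hF _)).trans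
      (congrArg Subtype.val h1)
    obtain ⟨t, ht, htw⟩ := exists_word_el (trvWords.getD 0 []) (word_lt 0 (by norm_num))
    obtain ⟨i, hi, hne⟩ : ∃ i < 112, wordIdx (trvWords.getD 0 []) i ≠ i := by
      by_contra hc
      push Not at hc
      refine Bool.eq_false_iff.mp word0_moves (List.all_eq_true.mpr fun i hi => ?_)
      exact beq_iff_eq.mpr (hc i (List.mem_range.mp hi))
    obtain ⟨j, hj, hjt⟩ := htw ⟨i, hi⟩
    obtain ⟨j', hj', hjl⟩ := hsc ⟨i, hi⟩
    rw [hs1, one_smul] at hj'
    obtain rfl : (⟨i, hi⟩ : Fin 112) = j' := nv_injective hj'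
    have := (line_map N (show 0 < 4 by norm_num) ⟨i, hi⟩ j hj).symm.trans hjl
    exact hne (hj ▸ congrArg Fin.val (line_injective N this))
  have hinj : Function.Injective f := (MonoidHom.ker_eq_bot_iff f).mp hker
  obtain ⟨e⟩ := nonempty_PSU_equiv 4 F 3
  haveI : Finite ↥S0 := Nat.finite_of_card_ne_zero (by rw [card_S0]; norm_num)
  have hbij : Function.Bijective f := (Nat.bijective_iff_injective_and_card f).mpr
    ⟨hinj, by rw [← Nat.card_congr e.toEquiv, card_PSU_four_three hF, card_S0]⟩
  exact ⟨(MulEquiv.ofBijective f hbij).symm.trans e.symm⟩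

end Main

/-- The stabiliser of a point, for every triangle. -/
theorem nonempty_iso_general {u v x : leechLattice} (hu : sqNorm (u : GolayPt → ℤ) = 48)
    (hv : sqNorm (v : GolayPt → ℤ) = 32 ∧ sqNorm ((u - v) : GolayPt → ℤ) = 32)
    (hx : x ∈ pts u v) (F : Type) [Field F] [Fintype F] (hF : Fintype.card F = 9) :
    Nonempty (↥(MulAction.stabilizer Co0 u ⊓ MulAction.stabilizer Co0 v ⊓
      MulAction.stabilizer Co0 x) ≃* Cfsg.PSU 4 F 3) := by
  obtain ⟨g, g1, g2, g3⟩ := exists_to_X1 hu hv hx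
  obtain ⟨e⟩ := nonempty_iso (F := F) hF
  have hS : MulAction.stabilizer Co0 u ⊓ MulAction.stabilizer Co0 v ⊓
      MulAction.stabilizer Co0 x = S0.map (MulAut.conj g⁻¹).toMonoidHom := by
    ext k
    simp only [Subgroup.mem_map_equiv, S0, Subgroup.mem_inf, MulAction.mem_stabilizer_iff,
      MulAut.conj_symm_apply, inv_inv, mul_smul]
    rw [inv_smul_eq_iff.mpr g1.symm, inv_smul_eq_iff.mpr g2.symm, inv_smul_eq_iff.mpr g3.symm,
      ← g1, ← g2, ← g3]
    simp only [smul_left_cancel_iff]
  exact ⟨(MulEquiv.subgroupCongr hS).trans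
    ((S0.equivMapOfInjective _ (MulAut.conj g⁻¹).injective).symm.trans e)⟩

end Cfsg.Agent.McLUnitary
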