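/-
The stabiliser of a pair of minimal vectors with inner product -16 is a projective special unitary
group in dimension six over four elements, by its action on 891 vectors and on the maximal totally
isotropic subspaces, given by their 21 points.
-/
import Cfsg.Agent.Sporadic.PairUnitaryData
import Cfsg.Agent.Leech.MatN
import Cfsg.Agent.Leech.Orbit4600
import Cfsg.Agent.Classical.USimple

set_option autoImplicit false
set_option linter.unusedSectionVars false

namespace Cfsg.Agent.PairUnitary

open Cfsg Cfsg.Agent.Leech Cfsg.Agent.Golay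

/-! ### The stabiliser -/

/-- The stabiliser of the standard pair. -/
abbrev S0 : Subgroup Co0 := co2 ⊓ MulAction.stabilizer Co0 pT

theorem mem_S0 {g : Co0} : g ∈ S0 ↔ g • pU = pU ∧ g • pT = pT := by
  simp [S0, Subgroup.mem_inf, mem_co2, MulAction.mem_stabilizer_iff]

theorem card_S0 : Nat.card ↥S0 = 9196830720 := by
  have h := card_mul_stab (K := co2) (x := pT) (S := set4600 pU)
    (fun g hg => by
      refine ⟨(sqNorm_co0 g pT).trans sqNorm_configs.2.2.2.2.2.2.1, ?_⟩
      have h := co0_dotInt g pU pT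
      rw [mem_co2.mp hg] at h
      rw [h]; exact dot_configs.2.2.1)
    (fun y hy => by
      obtain ⟨g, h1, h2⟩ := transitive4600 hy
      exact ⟨g, mem_co2.mpr h1, h2⟩)
  rw [count4600, card_co2] at h
  show Nat.card ↥(co2 ⊓ MulAction.stabilizer Co0 pT) = _
  omega

/-! ### Words -/

/-- The operations of a letter other than the long one. -/
def letterOps (l : ℕ) : List LOp :=
  if l < 4 then [.perm (permPairs.getD l (0, 0))]
  else [.step (flipSteps.getD (l - 5) 0)]

/-- The automorphism of a word in the distinct steps of the long letter. -/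
noncomputable def stepEl : List ℕ → Co0
  | [] => 1
  | j :: w => opsEl [.step (shortSteps.getD j 0)] * stepEl w

/-- The rows of such a word. -/
def stepRows : List ℕ → List ℕ
  | [] => rowsNOf []
  | j :: w => mulN (shortRows.getD j []) (stepRows w)

/-- The automorphism of a letter. -/
noncomputable def letterEl (l : ℕ) : Co0 :=
  if l = 4 then stepEl longWord else opsEl (letterOps l)

/-- The automorphism of a word. -/
noncomputable def wordEl : List ℕ → Co0
  | [] => 1
  | l :: w => letterEl l * wordEl w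

/-- The rows of a word. -/
def prodRows : List ℕ → List ℕ
  | [] => rowsNOf []
  | l :: w => mulN (baseRows.getD l []) (prodRows w)

/-- The rows of the `k`-th generator. -/
def gRows (k : ℕ) : List ℕ := genRows.getD k []

set_option maxRecDepth 20000 in
theorem letters_ok : ((List.range 10).all fun l => l == 4 || ((letterOps l).all opOK &&
      decide (rowsNOf (letterOps l) = baseRows.getD l []))) = true ∧
    ((List.range shortSteps.length).all fun j =>
      decide (rowsNOf [.step (shortSteps.getD j 0)] = shortRows.getD j [])) = true ∧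
    (longWord.all fun j => Nat.blt j shortSteps.length) = true ∧
    stepRows longWord = baseRows.getD 4 [] ∧
    ((List.range 6).all fun k => ((genWords.getD k []).all fun l => Nat.blt l 10) &&
      decide (prodRows (genWords.getD k []) = gRows k) &&
      (appN (gRows k) (encN pU.1) == encN pU.1) &&
      (appN (gRows k) (encN pT.1) == encN pT.1)) = true := by
  decide +kernel

theorem hasN_steps : ∀ w : List ℕ, (∀ j ∈ w, j < shortSteps.length) → HasN (stepEl w) (stepRows w)
  | [], _ => hasN_one
  | j :: w, h => by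
    have hj := List.all_eq_true.mp letters_ok.2.1 j (List.mem_range.mpr (h j List.mem_cons_self))
    rw [decide_eq_true_eq] at hj
    exact (hasN_ops (l := [.step (shortSteps.getD j 0)]) rfl hj).mul
      (hasN_steps w fun a ha => h a (List.mem_cons_of_mem _ ha))

theorem hasN_letter {l : ℕ} (hl : l < 10) : HasN (letterEl l) (baseRows.getD l []) := by
  rw [letterEl]
  split_ifs with h4
  · subst h4
    rw [← letters_ok.2.2.2.1]
    exact hasN_steps _ fun j hj => by simpa using List.all_eq_true.mp letters_ok.2.2.1 j hj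
  · have h := List.all_eq_true.mp letters_ok.1 l (List.mem_range.mpr hl)
    simp only [Bool.or_eq_true, Bool.and_eq_true, beq_iff_eq, decide_eq_true_eq, h4,
      false_or] at h
    exact hasN_ops h.1 h.2

theorem hasN_word : ∀ w : List ℕ, (∀ l ∈ w, l < 10) → HasN (wordEl w) (prodRows w)
  | [], _ => hasN_one
  | l :: w, h => (hasN_letter (h l List.mem_cons_self)).mul
      (hasN_word w fun a ha => h a (List.mem_cons_of_mem _ ha))

theorem exists_gen (k : ℕ) (hk : k < 6) : ∃ s ∈ S0, HasN s (gRows k) := by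
  have h := List.all_eq_true.mp letters_ok.2.2.2.2 k (List.mem_range.mpr hk)
  simp only [Bool.and_eq_true, decide_eq_true_eq, beq_iff_eq, List.all_eq_true, Nat.blt_eq] at h
  obtain ⟨⟨⟨hw, hr⟩, hU⟩, hT⟩ := h
  have hs := hasN_word _ hw
  rw [hr] at hs
  refine ⟨_, mem_S0.mpr ⟨?_, ?_⟩, hs⟩
  · have hN : sqNorm pU.1 ≤ 1000000 := by rw [sqNorm_configs.1]; norm_num
    refine Subtype.ext (encN_inj (by rw [sqNorm_co0]; exact hN) hN ?_)
    rw [← hs.apply _ hN, hU]
  · have hN : sqNorm pT.1 ≤ 1000000 := by rw [sqNorm_configs.2.2.2.2.2.2.1]; norm_num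
    refine Subtype.ext (encN_inj (by rw [sqNorm_co0]; exact hN) hN ?_)
    rw [← hs.apply _ hN, hT]

/-! ### The 891 vectors -/

/-- The code of the `i`-th vector. -/
def vE (i : ℕ) : ℕ := getP vecTab 384 i
/-- The permutation of the 891 indices of a generator. -/
def vperm (k i : ℕ) : ℕ := getP (vecPermTab.getD k []) 10 i
/-- An entry of the spanning tree. -/
def tr (r : ℕ) : ℕ := getP treeTab 30 r
/-- The vector with given code. -/
def decN (W : ℕ) : GolayPt → ℤ := fun p =>
  (((W / 65536 ^ ptIdx p) % 65536 : ℕ) : ℤ) - 32768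

set_option maxRecDepth 20000 in
theorem root_ok : inLeechB (decN (vE 0)) = true ∧ sqNorm (decN (vE 0)) = 32 ∧
    encN (decN (vE 0)) = vE 0 := by
  decide +kernel

set_option maxRecDepth 20000 in
theorem tree_ok : ((List.range 891).all fun r =>
      bif r == 0 then Nat.beq (tr r / 1048576) 0 else
        Nat.blt (tr r % 65536) r && Nat.blt (tr r / 65536 % 16) 6 &&
        Nat.beq (appN (gRows (tr r / 65536 % 16)) (vE (tr (tr r % 65536) / 1048576)))
          (vE (tr r / 1048576))) = true ∧
    ((List.range 891).all fun i => Nat.blt (getP treeRank 10 i) 891 &&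
      Nat.beq (tr (getP treeRank 10 i) / 1048576) i) = true := by
  decide +kernel

theorem exists_tree : ∀ r < 891, ∃ v : leechLattice,
    sqNorm v.1 = 32 ∧ encN v.1 = vE (tr r / 1048576) := by
  intro r
  induction r using Nat.strong_induction_on with
  | _ r ih =>
    intro hr
    have h := List.all_eq_true.mp tree_ok.1 r (List.mem_range.mpr hr)
    rcases Nat.eq_zero_or_pos r with rfl | hpos
    · simp only [beq_self_eq_true, cond_true, Nat.beq_eq] at h
      refine ⟨⟨_, mem_of_inLeechB root_ok.1⟩, root_ok.2.1, ?_⟩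
      rw [h]; exact root_ok.2.2
    · rw [show (r == 0) = false by simpa using hpos.ne', cond_false] at h
      simp only [Bool.and_eq_true, Nat.blt_eq, Nat.beq_eq] at h
      obtain ⟨⟨hlt, hk⟩, he⟩ := h
      obtain ⟨v, hv, hve⟩ := ih _ hlt (by omega)
      obtain ⟨s, -, hs⟩ := exists_gen _ hk
      refine ⟨s • v, (sqNorm_co0 s v).trans hv, ?_⟩
      rw [← hs.apply v (by rw [hv]; norm_num), hve, he]

theorem exists_bv (i : Fin 891) : ∃ v : leechLattice, sqNorm v.1 = 32 ∧ encN v.1 = vE i := by
  have h := List.all_eq_true.mp tree_ok.2 i (List.mem_range.mpr i.2)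
  simp only [Bool.and_eq_true, Nat.blt_eq, Nat.beq_eq] at h
  obtain ⟨v, hv, hve⟩ := exists_tree _ h.1
  exact ⟨v, hv, by rw [hve, h.2]⟩

/-- The `i`-th vector. -/
noncomputable def bv (i : Fin 891) : leechLattice := (exists_bv i).choose

theorem bv_norm (i : Fin 891) : sqNorm (bv i).1 = 32 := (exists_bv i).choose_spec.1

theorem bv_code (i : Fin 891) : encN (bv i).1 = vE i := (exists_bv i).choose_spec.2

set_option maxRecDepth 20000 in
theorem sort_ok : ((List.range 890).all fun r =>
      Nat.blt (vE (getP sortTab 10 r)) (vE (getP sortTab 10 (r + 1)))) = true ∧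
    ((List.range 891).all fun i => Nat.blt (getP sortRank 10 i) 891 &&
      Nat.beq (getP sortTab 10 (getP sortRank 10 i)) i) = true := by
  decide +kernel

theorem strict_of_step {f : ℕ → ℕ} {n : ℕ} (h : ∀ r, r + 1 < n → f r < f (r + 1)) :
    ∀ b, b < n → ∀ a < b, f a < f b
  | 0, _, a, ha => by omega
  | b + 1, hb, a, ha => by
    rcases Nat.lt_succ_iff_lt_or_eq.mp ha with ha | rfl
    · exact (strict_of_step h b (by omega) a ha).trans (h b hb)
    · exact h a hb

theorem bv_injective : Function.Injective bv := by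
  intro i j h
  have e : vE i = vE j := by rw [← bv_code, ← bv_code, h]
  have hs := strict_of_step (f := fun r => vE (getP sortTab 10 r)) (n := 891) fun r hr => by
    simpa using List.all_eq_true.mp sort_ok.1 r (List.mem_range.mpr (by omega))
  have hi := List.all_eq_true.mp sort_ok.2 i (List.mem_range.mpr i.2)
  have hj := List.all_eq_true.mp sort_ok.2 j (List.mem_range.mpr j.2)
  simp only [Bool.and_eq_true, Nat.blt_eq, Nat.beq_eq] at hi hj
  rcases lt_trichotomy (getP sortRank 10 i) (getP sortRank 10 j) with hl | he | hl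
  · have := hs _ hj.1 _ hl
    simp only [hi.2, hj.2, e, lt_irrefl] at this
  · exact Fin.ext (hi.2.symm.trans ((congrArg _ he).trans hj.2))
  · have := hs _ hi.1 _ hl
    simp only [hi.2, hj.2, e, lt_irrefl] at this

/-- The code of the `j`-th spanning vector. -/
def spanE : ℕ → ℕ
  | 0 => encN pU.1
  | 1 => encN pT.1
  | k + 2 => vE k

/-- The `j`-th spanning vector. -/
def spanVec (j : ℕ) : GolayPt → ℤ := ofList (spanVals.getD j [])

set_option maxRecDepth 20000 in
theorem span_ok : spanIndex.all (fun b => Nat.blt b 893) = true ∧ spanDen ≠ 0 ∧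
    ((List.range 24).all fun m => (List.range 24).all fun k =>
      ((List.range 24).map fun j => (spanCoef.getD m []).getD j 0 *
        spanVec j (ptOf k)).sum == if m = k then spanDen else 0) = true ∧
    spanIndex.length = 24 ∧
    ((List.range 24).all fun j => (sqNorm (spanVec j) == 32) &&
      (encN (spanVec j) == spanE (spanIndex.getD j 0))) = true := by
  decide +kernel

theorem faithful {s : Co0} (hs' : s ∈ S0) (h : ∀ i, s • bv i = bv i) : s = 1 := by
  obtain ⟨a, b⟩ := mem_S0.mp hs'
  obtain ⟨hidx, hden, hc, hlen, hcode⟩ := span_ok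
  have hfix : ∀ j < 24, ∃ w : leechLattice, w.1 = spanVec j ∧ s • w = w := by
    intro j hj
    have hb : spanIndex.getD j 0 < 893 := by
      rw [List.getD_eq_getElem _ _ (by omega)]
      simpa using List.all_eq_true.mp hidx _ (List.getElem_mem (by omega : j < spanIndex.length))
    have hcj := List.all_eq_true.mp hcode j (List.mem_range.mpr hj)
    simp only [Bool.and_eq_true, beq_iff_eq] at hcj
    have fin : ∀ w : leechLattice, sqNorm w.1 = 32 → encN w.1 = spanE (spanIndex.getD j 0) →
        s • w = w → ∃ w : leechLattice, w.1 = spanVec j ∧ s • w = w := fun w hw he hsw =>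
      ⟨w, encN_inj (by rw [hw]; norm_num) (by rw [hcj.1]; norm_num) (he.trans hcj.2.symm), hsw⟩
    generalize spanIndex.getD j 0 = k at hb fin
    match k, hb, fin with
    | 0, _, fin => exact fin pU sqNorm_configs.1 rfl a
    | 1, _, fin => exact fin pT sqNorm_configs.2.2.2.2.2.2.1 rfl b
    | k + 2, hk, fin => exact fin (bv ⟨k, by omega⟩) (bv_norm _) (bv_code _) (h _)
  choose w hw hws using hfix
  let φ : leechLattice →+ leechLattice := AddMonoidHom.mk' (fun v => s • v) (co0_add s)
  refine Subtype.ext (Equiv.ext fun v => ?_)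
  show s • v = v
  let coef : Fin 24 → ℤ := fun j => ∑ m : Fin 24, v.1 (ptOf m) * (spanCoef.getD m []).getD j 0
  have key : spanDen • v = ∑ j : Fin 24, coef j • w j j.2 := by
    refine Subtype.ext (funext fun p => ?_)
    rw [AddSubgroup.coe_zsmul, AddSubgroup.val_finsetSum, Finset.sum_apply]
    simp only [AddSubgroup.coe_zsmul, Pi.smul_apply, smul_eq_mul, coef, Finset.sum_mul, hw]
    rw [Finset.sum_comm]
    have inner : ∀ m : Fin 24, ∑ j : Fin 24, v.1 (ptOf m) * (spanCoef.getD m []).getD j 0 *
        spanVec j p = v.1 (ptOf m) * if (m : ℕ) = ptIdx p then spanDen else 0 := by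
      intro m
      have h1 := List.all_eq_true.mp (List.all_eq_true.mp hc m (List.mem_range.mpr m.2)) (ptIdx p)
        (List.mem_range.mpr (ptIdx_lt p))
      rw [beq_iff_eq, ptOf_ptIdx] at h1
      rw [← h1, ← List.sum_toFinset _ List.nodup_range, List.toFinset_range, Finset.mul_sum,
        ← Fin.sum_univ_eq_sum_range]
      exact Finset.sum_congr rfl fun j _ => by ring
    rw [Finset.sum_congr rfl fun m _ => inner m,
      Finset.sum_eq_single (⟨ptIdx p, ptIdx_lt p⟩ : Fin 24)
        (fun m _ hm => by rw [if_neg fun e => hm (Fin.ext e), mul_zero]) (by simp)]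
    simp [ptOf_ptIdx, mul_comm]
  have e : spanDen • φ v = spanDen • v := by
    rw [← map_zsmul, key, map_sum]
    exact Finset.sum_congr rfl fun j _ => by rw [map_zsmul]; exact congrArg _ (hws j j.2)
  have e' : φ v = v := by
    refine Subtype.ext (funext fun p => ?_)
    have := congrArg (fun u : leechLattice => u.1 p) e
    simp only [AddSubgroup.coe_zsmul, Pi.smul_apply, smul_eq_mul] at this
    exact mul_left_cancel₀ hden this
  exact e'

/-! ### The field with four elements -/

/-- Addition of pairs modulo 2. -/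
def qadd (x y : ℕ × ℕ) : ℕ × ℕ := ((x.1 + y.1) % 2, (x.2 + y.2) % 2)
/-- Product of pairs, the second component standing for a cube root of one. -/
def qmul (x y : ℕ × ℕ) : ℕ × ℕ :=
  ((x.1 * y.1 + x.2 * y.2) % 2, (x.1 * y.2 + x.2 * y.1 + x.2 * y.2) % 2)
/-- Conjugate of a pair. -/
def qconj (x : ℕ × ℕ) : ℕ × ℕ := ((x.1 + x.2) % 2, x.2 % 2)
/-- Component of a coded vector. -/
def qget (c i : ℕ) : ℕ × ℕ := (c / 4 ^ i % 2, c / 4 ^ i / 2 % 2)
/-- The code of six components. -/
def codeOf (f : ℕ → ℕ × ℕ) : ℕ :=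
  (f 0).1 + 2 * (f 0).2 + 4 * ((f 1).1 + 2 * (f 1).2) + 16 * ((f 2).1 + 2 * (f 2).2) +
    64 * ((f 3).1 + 2 * (f 3).2) + 256 * ((f 4).1 + 2 * (f 4).2) +
    1024 * ((f 5).1 + 2 * (f 5).2)
/-- A multiple of a coded vector. -/
def scaleCode (x : ℕ × ℕ) (c : ℕ) : ℕ := codeOf fun i => qmul x (qget c i)
/-- The Hermitian form on coded vectors. -/
def qherm (u v : ℕ) : ℕ × ℕ :=
  qadd (qadd (qadd (qadd (qadd (qmul (qget u 0) (qconj (qget v 0)))
    (qmul (qget u 1) (qconj (qget v 1)))) (qmul (qget u 2) (qconj (qget v 2))))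
    (qmul (qget u 3) (qconj (qget v 3)))) (qmul (qget u 4) (qconj (qget v 4))))
    (qmul (qget u 5) (qconj (qget v 5)))
/-- A component of the image under a transvection. -/
def qtrv (e u i : ℕ) : ℕ × ℕ := qadd (qget u i) (qmul (qherm u e) (qget e i))
/-- The pairs. -/
def qAll : List (ℕ × ℕ) := [(0, 0), (1, 0), (0, 1), (1, 1)]
/-- The code of a point. -/
def node (m : ℕ) : ℕ := getP pointTab 12 m
/-- The centre of a transvection. -/
def ctr (k : ℕ) : ℕ := centres.getD k 0
/-- The image of a point, with a scalar, as one number. -/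
def pimgC (k m : ℕ) : ℕ := getP (pointPermTab.getD k []) 12 m
/-- The image of a point under a transvection. -/
def pimg (k m : ℕ) : ℕ := pimgC k m / 4
/-- The scalar of that image. -/
def pscal (k m : ℕ) : ℕ × ℕ := qget (pimgC k m % 4) 0
/-- An entry of the tree of points. -/
def ptr (n : ℕ) : ℕ := getP pointTree 15 n
/-- Point and scalar of an isotropic vector. -/
def ctab (c : ℕ) : ℕ := getP codeTab 12 c
/-- A member of a block. -/
def member (i q : ℕ) : ℕ := getP memberTab 210 i / 1024 ^ q % 1024
/-- The mask of a block. -/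
def mask (i : ℕ) : ℕ := getP maskTab 693 i

set_option maxRecDepth 20000 in
theorem trv_ok : ((List.range 6).all fun k => (List.range 693).all fun m =>
      Nat.blt (pimg k m) 693 && !(pscal k m == (0, 0)) &&
        (List.range 6).all fun i =>
          qtrv (ctr k) (node m) i == qmul (pscal k m) (qget (node (pimg k m)) i)) = true ∧
    ((List.range 6).all fun k => qherm (ctr k) (ctr k) == (0, 0)) = true := by
  decide +kernel

set_option maxRecDepth 20000 in
theorem points_ok : ((List.range 693).all fun n =>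
      bif n == 0 then node n == ctr 0 else
        Nat.blt (ptr n / 32) n && Nat.blt (ptr n / 4 % 8) 6 &&
        !(qget (ptr n % 4) 0 == (0, 0)) &&
        (List.range 6).all fun m =>
          qtrv (ctr (ptr n / 4 % 8)) (node (ptr n / 32)) m ==
            qmul (qget (ptr n % 4) 0) (qget (node n) m)) = true ∧
    ((List.range 4096).all fun c => c == 0 || !(qherm c c == (0, 0)) ||
      (Nat.blt (ctab c / 4) 693 && !(qget (ctab c % 4) 0 == (0, 0)) &&
        (List.range 6).all fun i =>
          qget c i == qmul (qget (ctab c % 4) 0) (qget (node (ctab c / 4)) i))) = true ∧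
    ((List.range 693).all fun n => Nat.blt (node n) 4096 &&
      qAll.all fun x => x == (0, 0) || Nat.beq (ctab (scaleCode x (node n)) / 4) n) = true := by
  decide +kernel

set_option maxRecDepth 20000 in
theorem blocks_ok : ((List.range 891).all fun i =>
      (List.range 21).all (fun q => Nat.blt (member i q) 693) &&
        Nat.beq (maskOf (member i) 21) (mask i)) = true ∧
    ((List.range 6).all fun k => (List.range 891).all fun i =>
      Nat.blt (vperm k i) 891 &&
      Nat.beq (maskOf (fun q => pimg k (member i q)) 21) (mask (vperm k i)) &&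
      Nat.beq (appN (gRows k) (vE i)) (vE (vperm k i))) = true ∧
    ((List.range 890).all fun r => Nat.blt (mask r) (mask (r + 1))) = true := by
  decide +kernel

theorem nodes_nonzero : ((List.range 693).all fun n => !(node n == 0)) = true := by
  decide +kernel

theorem exists_word_el (k : ℕ) (hk : k < 6) :
    ∃ s ∈ S0, ∀ i : Fin 891, ∃ j : Fin 891, (j : ℕ) = vperm k i ∧ s • bv i = bv j := by
  obtain ⟨s, hs, hR⟩ := exists_gen k hk
  refine ⟨s, hs, fun i => ?_⟩
  have h := List.all_eq_true.mp (List.all_eq_true.mp blocks_ok.2.1 k (List.mem_range.mpr hk)) i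
    (List.mem_range.mpr i.2)
  simp only [Bool.and_eq_true, Nat.blt_eq, Nat.beq_eq] at h
  have hN : sqNorm (bv i).1 ≤ 1000000 := by rw [bv_norm]; norm_num
  refine ⟨⟨_, h.1.1⟩, rfl, Subtype.ext (encN_inj (by rw [sqNorm_co0]; exact hN)
    (by rw [bv_norm]; norm_num) ?_)⟩
  rw [← hR.apply _ hN, bv_code, bv_code]
  exact h.2

theorem qget_lt (c i : ℕ) : (qget c i).1 < 2 ∧ (qget c i).2 < 2 :=
  ⟨Nat.mod_lt _ (by norm_num), Nat.mod_lt _ (by norm_num)⟩

theorem qget_codeOf (f : ℕ → ℕ × ℕ) (hf : ∀ i < 6, (f i).1 < 2 ∧ (f i).2 < 2) :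
    codeOf f < 4096 ∧ ∀ i < 6, qget (codeOf f) i = f i := by
  have h0 := hf 0 (by norm_num); have h1 := hf 1 (by norm_num); have h2 := hf 2 (by norm_num)
  have h3 := hf 3 (by norm_num); have h4 := hf 4 (by norm_num); have h5 := hf 5 (by norm_num)
  refine ⟨by simp only [codeOf]; omega, fun i hi => ?_⟩
  interval_cases i <;> refine Prod.ext ?_ ?_ <;> simp only [qget, codeOf] <;> norm_num <;> omega

theorem codeOf_qget (c : ℕ) (hc : c < 4096) : codeOf (qget c) = c := by
  simp only [codeOf, qget]
  norm_num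
  omega

theorem codeOf_congr {f g : ℕ → ℕ × ℕ} (h : ∀ i < 6, f i = g i) : codeOf f = codeOf g := by
  simp only [codeOf, h 0 (by norm_num), h 1 (by norm_num), h 2 (by norm_num), h 3 (by norm_num),
    h 4 (by norm_num), h 5 (by norm_num)]

theorem nonzero_node (n : Fin 693) : node n ≠ 0 := by
  intro h
  have hs := List.all_eq_true.mp nodes_nonzero n (List.mem_range.mpr n.2)
  simp [h] at hs

theorem mem_mask (i : Fin 891) (m : ℕ) :
    (mask i).testBit m = true ↔ ∃ q < 21, member i q = m := by
  have h := List.all_eq_true.mp blocks_ok.1 i (List.mem_range.mpr i.2)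
  rw [Bool.and_eq_true, Nat.beq_eq] at h
  rw [← h.2, testBit_maskOf]

theorem member_lt (i : Fin 891) {q : ℕ} (hq : q < 21) : member i q < 693 := by
  have h := List.all_eq_true.mp blocks_ok.1 i (List.mem_range.mpr i.2)
  rw [Bool.and_eq_true] at h
  simpa using List.all_eq_true.mp h.1 q (List.mem_range.mpr hq)

section Field

variable {F : Type} [Field F] [Fintype F]

open Cfsg.Agent.Classical.U

/-- The facts used about the field. -/
structure Four (F : Type) [Field F] where
  sqf : SqField F 2
  omega' : F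
  omega_sq : omega' * omega' = omega' + 1
  two : (2 : F) = 0

theorem exists_four (hF : Fintype.card F = 4) : Nonempty (Four F) := by
  classical
  have hS : SqField F 2 := sqField_of_fintype (by rw [hF]; norm_num)
  obtain ⟨p, k, hp, hc, hq⟩ := hS.exists_char
  have hp2 : p = 2 := by
    have : p ∣ 2 := hq ▸ dvd_pow_self p (by rintro rfl; simp at hq)
    exact (Nat.prime_dvd_prime_iff_eq hp Nat.prime_two).1 this
  subst hp2
  have h2 : (2 : F) = 0 := by exact_mod_cast CharP.cast_eq_zero F 2
  obtain ⟨a, ha⟩ : ∃ a : F, a ∉ ({0, 1} : Finset F) := by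
    by_contra hc
    push Not at hc
    have hle : Fintype.card F ≤ ({0, 1} : Finset F).card := Finset.card_le_card fun x _ => hc x
    have : ({0, 1} : Finset F).card ≤ 2 := Finset.card_le_two
    omega
  simp only [Finset.mem_insert, Finset.mem_singleton, not_or] at ha
  have h3 : a ^ 3 = 1 := by
    have h := FiniteField.pow_card_sub_one_eq_one a ha.1
    rwa [hF] at h
  refine ⟨⟨hS, a, ?_, h2⟩⟩
  have : a * a + a + 1 = 0 := mul_left_cancel₀ (sub_ne_zero.mpr ha.2) (by
    rw [mul_zero]; linear_combination h3)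
  linear_combination this - (a + 1) * h2

/-- The image of a set of subspaces. -/
def mapSet (g : (Fin 6 → F) ≃ₗ[F] (Fin 6 → F)) (B : Set (Submodule F (Fin 6 → F))) :
    Set (Submodule F (Fin 6 → F)) :=
  (fun W => W.map (g : (Fin 6 → F) →ₗ[F] (Fin 6 → F))) '' B

theorem mapSet_one (B : Set (Submodule F (Fin 6 → F))) : mapSet 1 B = B := by
  refine (Set.image_congr fun W _ => ?_).trans (Set.image_id B)
  exact Submodule.map_id W

theorem mapSet_mul (g h : (Fin 6 → F) ≃ₗ[F] (Fin 6 → F)) (B : Set (Submodule F (Fin 6 → F))) :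
    mapSet (g * h) B = mapSet g (mapSet h B) := by
  simp only [mapSet, Set.image_image]
  refine Set.image_congr fun W _ => ?_
  rw [← Submodule.map_comp]
  rfl

variable (N : Four F)
include N

/-- The value of a pair. -/
def emb (x : ℕ × ℕ) : F := (x.1 : F) + (x.2 : F) * N.omega'

/-- The value of a coded vector. -/
def vec (c : ℕ) : Fin 6 → F := fun i => emb N (qget c i)

theorem cast_mod (n : ℕ) : ((n % 2 : ℕ) : F) = n := by
  conv_rhs => rw [← Nat.mod_add_div n 2]
  push_cast
  rw [N.two, zero_mul, add_zero]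

theorem cast_sq (n : ℕ) : (n : F) ^ 2 = n := by
  induction n with
  | zero => simp
  | succ n ih => rw [Nat.cast_succ, N.sqf.add_pow, ih, one_pow]

theorem emb_add (x y : ℕ × ℕ) : emb N (qadd x y) = emb N x + emb N y := by
  simp only [emb, qadd, cast_mod N]; push_cast; ring

theorem emb_mul (x y : ℕ × ℕ) : emb N (qmul x y) = emb N x * emb N y := by
  simp only [emb, qmul, cast_mod N]; push_cast
  linear_combination (-((x.2 : F) * y.2)) * N.omega_sq

theorem emb_conj (x : ℕ × ℕ) : emb N x ^ 2 = emb N (qconj x) := by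
  simp only [emb, qconj, cast_mod N]
  rw [N.sqf.add_pow, mul_pow, cast_sq N, cast_sq N, sq, N.omega_sq]
  push_cast
  ring

theorem herm_vec (u v : ℕ) : herm 2 (vec N u) (vec N v) = emb N (qherm u v) := by
  simp [herm_def, Fin.sum_univ_succ, vec, qherm, emb_add, emb_mul, emb_conj, add_assoc]

theorem emb_00 : emb N (0, 0) = 0 := by simp [emb]

theorem emb_injective (x y : ℕ × ℕ) (h : emb N x = emb N y) :
    x.1 % 2 = y.1 % 2 ∧ x.2 % 2 = y.2 % 2 := by
  simp only [emb] at h
  rw [← cast_mod N x.1, ← cast_mod N x.2, ← cast_mod N y.1, ← cast_mod N y.2] at h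
  have hw0 : N.omega' ≠ 0 := fun e => by
    have := N.omega_sq; rw [e] at this; simp at this
  have hw1 : N.omega' ≠ 1 := fun e => by
    have h' := N.omega_sq; rw [e] at h'; exact one_ne_zero (α := F) (by linear_combination -h')
  generalize x.1 % 2 = a, x.2 % 2 = b, y.1 % 2 = c, y.2 % 2 = d,
    Nat.mod_lt x.1 (show 0 < 2 by norm_num) = ha, Nat.mod_lt x.2 (show 0 < 2 by norm_num) = hb,
    Nat.mod_lt y.1 (show 0 < 2 by norm_num) = hc, Nat.mod_lt y.2 (show 0 < 2 by norm_num) = hd
    at h ⊢
  interval_cases a <;> interval_cases b <;> interval_cases c <;> interval_cases d <;>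
    simp at h ⊢ <;> first
    | exact hw0 h
    | exact hw0 h.symm
    | exact hw1 h
    | exact hw1 h.symm
    | exact hw0 (by linear_combination h)
    | exact hw0 (by linear_combination -h)
    | exact hw1 (by linear_combination h - N.two)
    | exact hw1 (by linear_combination -h - N.two)

theorem emb_eq_zero {x : ℕ × ℕ} (hx : x.1 < 2 ∧ x.2 < 2) (h : emb N x = 0) : x = (0, 0) := by
  obtain ⟨h1, h2⟩ := emb_injective N x (0, 0) (h.trans (emb_00 N).symm)
  exact Prod.ext (by simp only at h1 ⊢; omega) (by simp only at h2 ⊢; omega)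

theorem qeq {x y : ℕ × ℕ} (h : (x == y) = true) : emb N x = emb N y := by
  rw [beq_iff_eq] at h; rw [h]

theorem emb_surjective (hF : Fintype.card F = 4) (a : F) : ∃ x ∈ qAll, emb N x = a := by
  classical
  have hinj : Set.InjOn (emb N) {x | x ∈ qAll} := fun x hx y hy h => by
    obtain ⟨h1, h2⟩ := emb_injective N x y h
    have : ∀ z ∈ qAll, z.1 < 2 ∧ z.2 < 2 := by decide
    obtain ⟨a, b⟩ := this x hx
    obtain ⟨c, d⟩ := this y hy
    exact Prod.ext (by omega) (by omega)
  have hall : qAll.toFinset.image (emb N) = Finset.univ := by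
    refine Finset.eq_univ_of_card _ ?_
    rw [Finset.card_image_of_injOn (by rwa [List.coe_toFinset]),
      List.toFinset_card_of_nodup (by decide), hF]
    rfl
  obtain ⟨x, hx, rfl⟩ := Finset.mem_image.mp (hall.symm ▸ Finset.mem_univ a : a ∈ qAll.toFinset.image (emb N))
  exact ⟨x, List.mem_toFinset.mp hx, rfl⟩

/-! ### Points and blocks -/

/-- An isotropic point. -/
noncomputable def point (m : Fin 693) : Submodule F (Fin 6 → F) :=
  Submodule.span F {vec N (node m)}

theorem point_injective (hF : Fintype.card F = 4) : Function.Injective (point N) := by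
  intro m n h
  have hm : vec N (node m) ∈ point N n := h ▸ Submodule.mem_span_singleton_self _
  obtain ⟨c, hc⟩ := Submodule.mem_span_singleton.mp hm
  obtain ⟨x, hx, rfl⟩ := emb_surjective N hF c
  obtain ⟨-, hc4096, hnd⟩ := points_ok
  have hn := List.all_eq_true.mp hnd n (List.mem_range.mpr n.2)
  have hm' := List.all_eq_true.mp hnd m (List.mem_range.mpr m.2)
  simp only [Bool.and_eq_true, Nat.blt_eq, List.all_eq_true, Bool.or_eq_true, beq_iff_eq,
    Nat.beq_eq] at hn hm'
  have hlt : ∀ a b : ℕ × ℕ, (qmul a b).1 < 2 ∧ (qmul a b).2 < 2 := fun a b =>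
    ⟨Nat.mod_lt _ (by norm_num), Nat.mod_lt _ (by norm_num)⟩
  have he : ∀ i < 6, qmul x (qget (node n) i) = qget (node m) i := fun i hi => by
    have e := congrFun hc ⟨i, hi⟩
    simp only [Pi.smul_apply, smul_eq_mul, vec] at e
    rw [← emb_mul] at e
    obtain ⟨h1, h2⟩ := emb_injective N _ _ e
    have l1 := hlt x (qget (node n) i)
    have l2 := qget_lt (node m) i
    exact Prod.ext (by omega) (by omega)
  have e1 : ctab (node m) / 4 = (m : ℕ) := by
    have := hm'.2 (1, 0) (by simp [qAll])
    rw [show scaleCode (1, 0) (node m) = node m by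
      rw [scaleCode]
      conv_rhs => rw [← codeOf_qget (node m) hm'.1]
      refine codeOf_congr fun i _ => ?_
      simp [qmul, qget]] at this
    exact this.resolve_left (by decide)
  rcases hn.2 x hx with rfl | e2
  · have h0 : ∀ i < 6, qget (node m) i = (0, 0) := fun i hi => by
      rw [← he i hi]; simp [qmul]
    exfalso
    have hz : point N m = ⊥ := by
      rw [point, Submodule.span_singleton_eq_bot]
      funext i
      show emb N (qget (node m) i) = 0
      rw [h0 i i.2, emb_00]
    have hz2 : ctab 0 / 4 = (m : ℕ) := by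
      rw [← e1, ← codeOf_qget (node m) hm'.1, codeOf_congr h0]
      rfl
    have hz3 := hm'.2 (0, 1) (by simp [qAll])
    rw [show scaleCode (0, 1) (node m) = 0 by
      rw [scaleCode, codeOf_congr (g := fun _ => (0, 0)) fun i hi => by
        rw [h0 i hi]; simp [qmul]]
      rfl] at hz3
    have hn1 := hn.2 (1, 0) (by simp [qAll])
    have hnz : node n = 0 := by
      have : vec N (node n) = 0 := by
        rw [← Submodule.span_singleton_eq_bot (R := F)]; exact (h.symm.trans hz)
      rw [← codeOf_qget (node n) hn.1, codeOf_congr (g := fun _ => (0, 0)) fun i hi =>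
        emb_eq_zero N (qget_lt _ i) (congrFun this ⟨i, hi⟩)]
      rfl
    exact nonzero_node n hnz
  · refine Fin.ext ?_
    rw [← e1, ← e2]
    refine congrArg (fun c => ctab c / 4) ?_
    conv_lhs => rw [← codeOf_qget (node m) hm'.1]
    exact codeOf_congr fun i hi => (he i hi).symm

/-- A block of isotropic points. -/
def block (i : Fin 891) : Set (Submodule F (Fin 6 → F)) :=
  point N '' {m | (mask i).testBit m = true}

theorem block_injective (hF : Fintype.card F = 4) : Function.Injective (block N) := by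
  intro i j h
  have h' := (Set.image_eq_image (point_injective N hF)).mp h
  have e : mask i = mask j := Nat.eq_of_testBit_eq fun m => by
    by_cases hm : m < 693
    · exact Bool.eq_iff_iff.mpr (Set.ext_iff.mp h' ⟨m, hm⟩)
    · have key : ∀ k : Fin 891, (mask k).testBit m = false := fun k => by
        rw [← Bool.not_eq_true, mem_mask]
        rintro ⟨q, hq, e⟩
        exact hm (e ▸ member_lt k hq)
      rw [key, key]
  have hs := strict_of_step (f := mask) (n := 891) fun r hr => by
    simpa using List.all_eq_true.mp blocks_ok.2.2 r (List.mem_range.mpr (by omega))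
  rcases lt_trichotomy (i : ℕ) j with hl | he | hl
  · exact absurd e (hs j j.2 i hl).ne
  · exact Fin.ext he
  · exact absurd e.symm (hs i i.2 j hl).ne

/-- A unitary map and a lattice automorphism permute blocks and vectors alike. -/
def Compat (g : (Fin 6 → F) ≃ₗ[F] (Fin 6 → F)) (s : Co0) : Prop :=
  ∀ i, ∃ j, s • bv i = bv j ∧ mapSet g (block N i) = block N j

theorem compat_one : Compat N 1 1 := fun i => ⟨i, one_smul _ _, mapSet_one _⟩

theorem compat_mul {g h : (Fin 6 → F) ≃ₗ[F] (Fin 6 → F)} {s t : Co0} (hg : Compat N g s)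
    (hh : Compat N h t) : Compat N (g * h) (s * t) := fun i => by
  obtain ⟨j, hj, hj'⟩ := hh i
  obtain ⟨k, hk, hk'⟩ := hg j
  exact ⟨k, by rw [mul_smul, hj, hk], by rw [mapSet_mul, hj', hk']⟩

theorem compat_inv {g : (Fin 6 → F) ≃ₗ[F] (Fin 6 → F)} {s : Co0} (hg : Compat N g s) :
    Compat N g⁻¹ s⁻¹ := by
  choose σ hσ hσ' using hg
  have hinj : Function.Injective σ := fun a b e =>
    bv_injective (MulAction.injective s ((hσ a).trans ((congrArg bv e).trans (hσ b).symm)))
  intro i
  obtain ⟨j, rfl⟩ := Finite.surjective_of_injective hinj i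
  refine ⟨j, by rw [← hσ j, inv_smul_smul], ?_⟩
  rw [← hσ' j, ← mapSet_mul, inv_mul_cancel, mapSet_one]

theorem compat_unique (hF : Fintype.card F = 4) {g : (Fin 6 → F) ≃ₗ[F] (Fin 6 → F)} {s t : Co0} (hs' : s ∈ S0)
    (ht : t ∈ S0) (h : Compat N g s) (h' : Compat N g t) : s = t := by
  have : t⁻¹ * s = 1 := by
    refine faithful (mul_mem (inv_mem ht) hs') fun i => ?_
    obtain ⟨j, hj, hj'⟩ := h i
    obtain ⟨k, hk, hk'⟩ := h' i
    rw [block_injective N hF (hj'.symm.trans hk')] at hj
    rw [mul_smul, hj, ← hk, inv_smul_smul]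
  exact (inv_mul_eq_one.mp this).symm

/-- The unitary maps realised in the stabiliser. -/
def realised : Subgroup (SUG 6 F 2) where
  carrier := {g | ∃ s ∈ S0, Compat N g.1.1 s}
  one_mem' := ⟨1, one_mem _, compat_one N⟩
  mul_mem' := fun ⟨s, hs', h⟩ ⟨t, ht, h'⟩ => ⟨s * t, mul_mem hs' ht, compat_mul N h h'⟩
  inv_mem' := fun ⟨s, hs', h⟩ => ⟨s⁻¹, inv_mem hs', compat_inv N h⟩

/-- Transvection membership. -/
def Good (p : Fin 6 → F) : Prop :=
  ∃ g ∈ realised N, ∀ w, g.1.1 w = w + herm 2 w p • p

theorem neg_one : (-1 : F) = 1 := by linear_combination -N.two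

theorem trvData_iso {k : ℕ} (hk : k < 6) : TrvCond 2 (vec N (ctr k)) 1 := by
  refine ⟨?_, by rw [one_pow, neg_one N]⟩
  rw [herm_vec, qeq N (List.all_eq_true.mp trv_ok.2 k (List.mem_range.mpr hk)), emb_00]

/-- A generating transvection. -/
noncomputable def gen {k : ℕ} (hk : k < 6) : SUG 6 F 2 :=
  ⟨trv N.sqf (trvData_iso N hk), TG_le_SUG N.sqf (trv_mem N.sqf _)⟩

theorem gen_vec {k : ℕ} (hk : k < 6) (u : ℕ) :
    (gen N hk).1.1 (vec N u) = fun i : Fin 6 => emb N (qtrv (ctr k) u i) := by
  funext i
  simp [gen, trv_apply, herm_vec, vec, qtrv, emb_add, emb_mul]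

theorem point_map {k : ℕ} (hk : k < 6) (m : Fin 693) :
    ∃ n : Fin 693, (n : ℕ) = pimg k m ∧
      (point N m).map ((gen N hk).1.1 : (Fin 6 → F) →ₗ[F] (Fin 6 → F)) = point N n := by
  have h := List.all_eq_true.mp (List.all_eq_true.mp trv_ok.1 k (List.mem_range.mpr hk)) m
    (List.mem_range.mpr m.2)
  simp only [Bool.and_eq_true, List.all_eq_true, List.mem_range, Nat.blt_eq,
    Bool.not_eq_true', beq_eq_false_iff_ne] at h
  obtain ⟨⟨hlt, hne⟩, hi⟩ := h
  refine ⟨⟨_, hlt⟩, rfl, ?_⟩
  have e : (gen N hk).1.1 (vec N (node m)) = emb N (pscal k m) • vec N (node (pimg k m)) := by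
    rw [gen_vec]; funext i
    rw [qeq N (hi i i.2)]
    simp [emb_mul, vec]
  rw [point, Submodule.map_span, Set.image_singleton]
  simp only [LinearEquiv.coe_coe, e]
  exact Submodule.span_singleton_smul_eq
    (isUnit_iff_ne_zero.mpr fun z => hne (emb_eq_zero N (qget_lt _ _) z)) _

theorem block_map {k : ℕ} (hk : k < 6) (i j : Fin 891) (hj : (j : ℕ) = vperm k i) :
    mapSet (gen N hk).1.1 (block N i) = block N j := by
  choose π hπ hπ' using point_map N hk
  have h := List.all_eq_true.mp (List.all_eq_true.mp blocks_ok.2.1 k (List.mem_range.mpr hk)) i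
    (List.mem_range.mpr i.2)
  simp only [Bool.and_eq_true, Nat.beq_eq] at h
  have hmj : ∀ m : ℕ, (mask j).testBit m = true ↔ ∃ q < 21, pimg k (member i q) = m := fun m => by
    rw [hj, ← h.1.2, testBit_maskOf]
  ext W
  simp only [mapSet, block, Set.mem_image, Set.mem_ofPred_eq]
  constructor
  · rintro ⟨_, ⟨m, hm, rfl⟩, rfl⟩
    obtain ⟨q, hq, e⟩ := (mem_mask i m).mp hm
    exact ⟨π m, (hmj _).mpr ⟨q, hq, by rw [hπ m, e]⟩, (hπ' m).symm⟩
  · rintro ⟨n, hn, rfl⟩
    obtain ⟨q, hq, e⟩ := (hmj _).mp hn
    refine ⟨_, ⟨⟨member i q, member_lt i hq⟩, (mem_mask i _).mpr ⟨q, hq, rfl⟩, rfl⟩, ?_⟩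
    rw [hπ' _]
    exact congrArg (point N) (Fin.ext ((hπ _).trans e))

theorem gen_realised {k : ℕ} (hk : k < 6) : gen N hk ∈ realised N := by
  obtain ⟨s, hs', hsw⟩ := exists_word_el k hk
  refine ⟨s, hs', fun i => ?_⟩
  obtain ⟨j, hj, hsj⟩ := hsw i
  exact ⟨j, hsj, block_map N hk i j hj⟩

theorem herm_smul_unit {d : F} (hd : d * d ^ 2 = 1) (w v : Fin 6 → F) :
    herm 2 w (d • v) • (d • v) = herm 2 w v • v := by
  rw [herm_smul_right, smul_smul]
  congr 1
  linear_combination herm 2 w v * hd

theorem unit_norm (hF : Fintype.card F = 4) {d : F} (hd : d ≠ 0) : d * d ^ 2 = 1 := by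
  have h := FiniteField.pow_card_sub_one_eq_one d hd
  rw [hF] at h
  rw [← h]; ring

theorem good_node (hF : Fintype.card F = 4) : ∀ n < 693, Good N (vec N (node n)) := by
  intro n
  induction n using Nat.strong_induction_on with
  | _ n ih =>
    intro hn
    have h := List.all_eq_true.mp points_ok.1 n (List.mem_range.mpr hn)
    rcases Nat.eq_zero_or_pos n with rfl | hpos
    · simp only [beq_self_eq_true, cond_true, beq_iff_eq] at h
      rw [h]
      exact ⟨gen N (show 0 < 6 by norm_num), gen_realised N _, fun w => by simp [gen, trv_apply]⟩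
    · rw [show (n == 0) = false by simpa using hpos.ne', cond_false] at h
      simp only [Bool.and_eq_true, Nat.blt_eq, List.all_eq_true, List.mem_range,
        Bool.not_eq_true', beq_eq_false_iff_ne] at h
      obtain ⟨⟨⟨hm, hk⟩, hlam⟩, he⟩ := h
      have himg : (gen N hk).1.1 (vec N (node (ptr n / 32))) =
          emb N (qget (ptr n % 4) 0) • vec N (node n) := by
        rw [gen_vec]; funext i
        rw [qeq N (he i i.2)]
        simp [emb_mul, vec]
      have hc0 : emb N (qget (ptr n % 4) 0) ≠ 0 := fun e => hlam (emb_eq_zero N (qget_lt _ _) e)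
      obtain ⟨g, hg, hgw⟩ := ih _ hm (by omega)
      refine ⟨gen N hk * g * (gen N hk)⁻¹,
        mul_mem (mul_mem (gen_realised N hk) hg) (inv_mem (gen_realised N hk)), fun w => ?_⟩
      simp only [Subgroup.coe_mul, LinearEquiv.mul_apply, hgw, map_add, map_smul]
      rw [← UG_app (gen N hk).1 (((gen N hk)⁻¹ : SUG 6 F 2).1.1 w) (vec N (node (ptr n / 32))),
        himg, show (gen N hk).1.1 (((gen N hk)⁻¹ : SUG 6 F 2).1.1 w) = w by simp,
        herm_smul_unit N (unit_norm N hF hc0)]

theorem good_all (hF : Fintype.card F = 4) {e : Fin 6 → F} (he : herm 2 e e = 0) (he0 : e ≠ 0) :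
    Good N e := by
  choose x hx hxe using fun i => emb_surjective N hF (e i)
  let f : ℕ → ℕ × ℕ := fun i => if h : i < 6 then x ⟨i, h⟩ else (0, 0)
  have hf : ∀ i < 6, (f i).1 < 2 ∧ (f i).2 < 2 := fun i hi => by
    simp only [f, dif_pos hi]
    exact (show ∀ z ∈ qAll, z.1 < 2 ∧ z.2 < 2 by decide) _ (hx _)
  obtain ⟨hc, hcget⟩ := qget_codeOf f hf
  generalize codeOf f = c at hc hcget
  have hvec : vec N c = e := funext fun i => by
    show emb N (qget c i) = e i
    rw [hcget i i.2]
    simp only [f, dif_pos i.2]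
    exact hxe i
  subst hvec
  have h := List.all_eq_true.mp points_ok.2.1 c (List.mem_range.mpr hc)
  simp only [Bool.or_eq_true, Bool.and_eq_true, beq_iff_eq, Bool.not_eq_true', beq_eq_false_iff_ne,
    Nat.blt_eq, List.all_eq_true, List.mem_range] at h
  rcases h with (h0 | hne) | ⟨⟨hm, hlam⟩, hi⟩
  · exact absurd (funext fun i => by subst h0; simp [vec, qget, emb]) he0
  · rw [herm_vec] at he
    exact absurd (emb_eq_zero N ⟨Nat.mod_lt _ (by norm_num), Nat.mod_lt _ (by norm_num)⟩ he) hne
  · obtain ⟨g, hg, hgw⟩ := good_node N hF _ hm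
    have hc0 : emb N (qget (ctab c % 4) 0) ≠ 0 := fun e => hlam (emb_eq_zero N (qget_lt _ _) e)
    have e : vec N c = emb N (qget (ctab c % 4) 0) • vec N (node (ctab c / 4)) := funext fun i => by
      show emb N (qget c i) = _
      rw [hi i i.2, emb_mul]; rfl
    exact ⟨g, hg, fun w => by rw [hgw, e, herm_smul_unit N (unit_norm N hF hc0)]⟩

theorem realised_eq_top (hF : Fintype.card F = 4) : realised N = ⊤ := by
  have hle : TG 6 F 2 ≤ (realised N).map (SUG 6 F 2).subtype := by
    rw [TG, Subgroup.closure_le]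
    rintro g ⟨e, a, h, hg⟩
    by_cases htriv : e = 0 ∨ a = 0
    · refine ⟨1, one_mem _, Subtype.ext (LinearEquiv.ext fun w => ?_)⟩
      rw [hg]
      rcases htriv with rfl | rfl <;> simp
    · rw [not_or] at htriv
      obtain ⟨k, hk, hkw⟩ := good_all N hF h.1 htriv.1
      have ha : a = 1 := by
        have h2 := h.2
        have : a * a = a * 1 := by rw [← sq, h2, mul_one]; linear_combination -(a * N.two)
        exact mul_left_cancel₀ htriv.2 this
      exact ⟨k, hk, Subtype.ext (LinearEquiv.ext fun w => by rw [hg, ha, one_mul]; exact hkw w)⟩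
  refine eq_top_iff.mpr fun g _ => ?_
  obtain ⟨k, hk, e⟩ := hle (SUG_le_TG N.sqf 6 (by norm_num) (by norm_num) g.2)
  rwa [← Subtype.ext e]

/-- The homomorphism to the stabiliser. -/
noncomputable def toS0 (hF : Fintype.card F = 4) : SUG 6 F 2 →* ↥S0 :=
  have h : ∀ g : SUG 6 F 2, ∃ s ∈ S0, Compat N g.1.1 s := fun g => by
    have : g ∈ realised N := realised_eq_top N hF ▸ Subgroup.mem_top g
    exact this
  MonoidHom.mk' (fun g => ⟨(h g).choose, (h g).choose_spec.1⟩) fun g g' => Subtype.ext <|
    compat_unique N hF (h (g * g')).choose_spec.1 (mul_mem (h g).choose_spec.1 (h g').choose_spec.1)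
      (h (g * g')).choose_spec.2 (compat_mul N (h g).choose_spec.2 (h g').choose_spec.2)

theorem toS0_spec (hF : Fintype.card F = 4) (g : SUG 6 F 2) :
    Compat N g.1.1 (toS0 N hF g : Co0) :=
  (show ∃ s ∈ S0, Compat N g.1.1 s from
    (show g ∈ realised N from realised_eq_top N hF ▸ Subgroup.mem_top g)).choose_spec.2

theorem center_le_ker (hF : Fintype.card F = 4) :
    Subgroup.center (SUG 6 F 2) ≤ (toS0 N hF).ker := by
  intro g hg
  obtain ⟨c, hc⟩ := center_SUG_scalar N.sqf (by norm_num) g hg
  have hc0 : c ≠ 0 := fun e => one_ne_zero (α := F) (by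
    have h := g.1.1.injective (show g.1.1 (Pi.single 0 1) = g.1.1 0 by rw [hc, e]; simp)
    simpa using congrFun h 0)
  refine MonoidHom.mem_ker.mpr (Subtype.ext (compat_unique N hF (toS0 N hF g).2 (one_mem _)
    (toS0_spec N hF g) fun i => ⟨i, one_smul _ _, ?_⟩))
  rw [mapSet, block, Set.image_image]
  refine Set.image_congr fun m _ => ?_
  rw [point, Submodule.map_span, Set.image_singleton]
  simp only [LinearEquiv.coe_coe, hc]
  exact Submodule.span_singleton_smul_eq (isUnit_iff_ne_zero.mpr hc0) _

end Field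

section Main

open Cfsg.Agent.Classical.U

theorem word0_moves : (List.range 891).all (fun i => vperm 0 i == i) = false := by
  decide +kernel

theorem card_PSU_six_two {F : Type} [Field F] [Fintype F] (hF : Fintype.card F = 4) :
    Nat.card (Cfsg.PSU 6 F 2) = 9196830720 := by
  have hS : SqField F 2 := sqField_of_fintype (by rw [hF]; norm_num)
  have h := card_PSU hS (n := 6) (by norm_num)
  rw [card_UG hS 6] at h
  norm_num [Finset.prod_range_succ] at h
  omega

theorem nonempty_iso {F : Type} [Field F] [Fintype F] (hF : Fintype.card F = 4) :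
    Nonempty (↥S0 ≃* Cfsg.PSU 6 F 2) := by
  obtain ⟨N⟩ := exists_four hF
  haveI := isSimpleGroup_SUG_mod_center N.sqf (n := 6) (by norm_num) (by norm_num)
  let f := QuotientGroup.lift (Subgroup.center (SUG 6 F 2)) (toS0 N hF) (center_le_ker N hF)
  have hker : f.ker = ⊥ := by
    refine (IsSimpleGroup.eq_bot_or_eq_top_of_normal f.ker inferInstance).resolve_right fun h => ?_
    have h1 : f ((gen N (show 0 < 6 by norm_num) : SUG 6 F 2) :
        SUG 6 F 2 ⧸ Subgroup.center (SUG 6 F 2)) = 1 := MonoidHom.mem_ker.mp (h ▸ Subgroup.mem_top _)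
    rw [QuotientGroup.lift_mk] at h1
    obtain ⟨t, ht, htw⟩ := exists_word_el 0 (by norm_num)
    have hgt : Compat N (gen N (show 0 < 6 by norm_num)).1.1 t := fun i => by
      obtain ⟨j, hj, htj⟩ := htw i
      exact ⟨j, htj, block_map N _ i j hj⟩
    have ht1 : t = 1 := (compat_unique N hF ht (toS0 N hF _).2 hgt (toS0_spec N hF _)).trans
      (congrArg Subtype.val h1)
    obtain ⟨i, hi, hne⟩ : ∃ i < 891, vperm 0 i ≠ i := by
      by_contra hc
      push Not at hc
      refine Bool.eq_false_iff.mp word0_moves (List.all_eq_true.mpr fun i hi => ?_)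
      exact beq_iff_eq.mpr (hc i (List.mem_range.mp hi))
    obtain ⟨j, hj, hjt⟩ := htw ⟨i, hi⟩
    rw [ht1, one_smul] at hjt
    exact hne (hj ▸ (congrArg Fin.val (bv_injective hjt)).symm)
  have hinj : Function.Injective f := (MonoidHom.ker_eq_bot_iff f).mp hker
  obtain ⟨e⟩ := nonempty_PSU_equiv 6 F 2
  haveI : Finite ↥S0 := Nat.finite_of_card_ne_zero (by rw [card_S0]; norm_num)
  have hbij : Function.Bijective f := (Nat.bijective_iff_injective_and_card f).mpr
    ⟨hinj, by rw [← Nat.card_congr e.toEquiv, card_PSU_six_two hF, card_S0]⟩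
  exact ⟨(MulEquiv.ofBijective f hbij).symm.trans e.symm⟩

end Main

/-- The stabiliser of every such pair. -/
theorem nonempty_iso_general {v w : leechLattice} (hv : sqNorm v.1 = 32) (hw : sqNorm w.1 = 32)
    (hd : dotInt v.1 w.1 = -16) (F : Type) [Field F] [Fintype F] (hF : Fintype.card F = 4) :
    Nonempty (↥(MulAction.stabilizer Co0 v ⊓ MulAction.stabilizer Co0 w) ≃* Cfsg.PSU 6 F 2) := by
  obtain ⟨g, gv, gw⟩ := exists_to_4600 hv hw hd
  obtain ⟨e⟩ := nonempty_iso (F := F) hF
  have hS : MulAction.stabilizer Co0 v ⊓ MulAction.stabilizer Co0 w =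
      S0.map (MulAut.conj g⁻¹).toMonoidHom := by
    ext k
    rw [Subgroup.mem_map_equiv, mem_S0]
    simp only [Subgroup.mem_inf, MulAction.mem_stabilizer_iff, MulAut.conj_symm_apply, inv_inv,
      mul_smul, ← gv, ← gw, inv_smul_smul, smul_left_cancel_iff]
  exact ⟨(MulEquiv.subgroupCongr hS).trans
    ((S0.equivMapOfInjective _ (MulAut.conj _).injective).symm.trans e)⟩

end Cfsg.Agent.PairUnitary
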