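/-
The stabiliser of one of 352 vectors in the Higman–Sims group is a projective special unitary
group in dimension three over 25 elements, by its action on 175 vectors and on 175 blocks of
isotropic points.
-/
import Cfsg.Agent.Sporadic.LeechPair
import Cfsg.Agent.Sporadic.HSUnitaryData
import Cfsg.Agent.Leech.Suborbit11178
import Cfsg.Agent.Leech.AutOps
import Cfsg.Agent.Classical.USimple

set_option autoImplicit false
set_option linter.unusedSectionVars false

namespace Cfsg.Agent.HSUnitary

open Cfsg Cfsg.Agent.Leech Cfsg.Agent.Golay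

/-! ### The stabiliser -/

/-- The base vector among the 352. -/
abbrev pR : leechLattice := sub11178 0

/-- The stabiliser. -/
abbrev S0 : Subgroup Co0 := hs ⊓ MulAction.stabilizer Co0 pR

theorem mem_S0 {g : Co0} : g ∈ S0 ↔ g • pV = pV ∧ g • pX = pX ∧ g • pR = pR := by
  simp [S0, Subgroup.mem_inf, mem_hs, MulAction.mem_stabilizer_iff, and_assoc]

/-- The 352 vectors. -/
abbrev C352 : Set leechLattice := dotClass (set11178 pV) pX (-8)

theorem hs_smul_352 {g : Co0} (hg : g ∈ hs) {y : leechLattice} (hy : y ∈ C352) :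
    g • y ∈ C352 := by
  obtain ⟨gV, gX⟩ := mem_hs.mp hg
  refine ⟨⟨(sqNorm_co0 g y).trans hy.1.1, ?_⟩, ?_⟩
  · have h := co0_dotInt g pV y
    rw [gV] at h; rw [h]; exact hy.1.2
  · have h := co0_dotInt g pX y
    rw [gX] at h; rw [h]; exact hy.2

theorem ncard_352 : C352.ncard = 352 := (suborbits11178.1 0).1

theorem pR_mem : pR ∈ C352 :=
  ⟨⟨(sub11178_spec 0).1, (sub11178_spec 0).2.1⟩, (sub11178_spec 0).2.2⟩

theorem reach352 {y : leechLattice} (hy : y ∈ C352) : ∃ g ∈ hs, g • pR = y := by
  obtain ⟨g, hg, hgy⟩ := (suborbits11178.1 0).2 y hy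
  exact ⟨g, mem_hs.mpr ⟨mem_fixConf.mp hg pV (by simp), mem_fixConf.mp hg pX (by simp)⟩, hgy⟩

theorem card_S0 : Nat.card ↥S0 = 126000 := by
  have h := card_mul_stab (K := hs) (x := pR) (S := C352)
    (fun g hg => hs_smul_352 hg pR_mem) (fun y hy => reach352 hy)
  rw [ncard_352, card_hs] at h
  show Nat.card ↥(hs ⊓ MulAction.stabilizer Co0 pR) = _
  omega

/-! ### The 175 vectors -/

/-- The coordinates of the `i`-th vector. -/
def bvL (i : ℕ) : GolayPt → ℤ := fun p =>
  ((blockVecs.getD i 0 / 16 ^ ptIdx p % 16 : ℕ) : ℤ) - 8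

set_option maxRecDepth 20000 in
theorem bv_ok : ((List.range 175).all fun i => inLeechB (bvL i) && (sqNorm (bvL i) == 32)) = true ∧
    ((List.range 175).map fun i => encI (bvL i)) = blockEnc ∧ blockEnc.Nodup := by
  decide +kernel

theorem blockEnc_getD {i : ℕ} (hi : i < 175) : blockEnc.getD i 0 = encI (bvL i) := by
  rw [← bv_ok.2.1, List.getD_eq_getElem _ _ (by simpa using hi)]
  simp

theorem bvL_spec {i : ℕ} (hi : i < 175) :
    bvL i ∈ leechLattice ∧ sqNorm (bvL i) = 32 := by
  have h := List.all_eq_true.mp bv_ok.1 i (List.mem_range.mpr hi)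
  rw [Bool.and_eq_true, beq_iff_eq] at h
  exact ⟨mem_of_inLeechB h.1, h.2⟩

/-- The `i`-th vector. -/
def bv (i : Fin 175) : leechLattice := ⟨bvL i, (bvL_spec i.2).1⟩

theorem bv_injective : Function.Injective bv := by
  intro i j h
  have e : encI (bvL i) = encI (bvL j) := congrArg (fun v : leechLattice => encI v.1) h
  exact Fin.ext (List.inj_on_of_nodup_map (bv_ok.2.1 ▸ bv_ok.2.2) (List.mem_range.mpr i.2)
    (List.mem_range.mpr j.2) e)

/-- The vectors used in the certificate of faithfulness. -/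
def spanVec : ℕ → GolayPt → ℤ
  | 0 => pV.1
  | 1 => pX.1
  | 2 => pR.1
  | k + 3 => bvL k

set_option maxRecDepth 20000 in
theorem span_ok : spanIndex.all (fun b => Nat.blt b 178) = true ∧ spanDen ≠ 0 ∧
    ((List.range 24).all fun m => (List.range 24).all fun k =>
      ((List.range 24).map fun j => (spanCoef.getD m []).getD j 0 *
        spanVec (spanIndex.getD j 0) (ptOf k)).sum == if m = k then spanDen else 0) = true ∧
    spanIndex.length = 24 := by
  decide +kernel

theorem faithful {s : Co0} (hs' : s ∈ S0) (h : ∀ i, s • bv i = bv i) : s = 1 := by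
  obtain ⟨a, b, c⟩ := mem_S0.mp hs'
  obtain ⟨hidx, hden, hc, hlen⟩ := span_ok
  have hfix : ∀ j < 24, ∃ w : leechLattice,
      w.1 = spanVec (spanIndex.getD j 0) ∧ s • w = w := by
    intro j hj
    have hb : spanIndex.getD j 0 < 178 := by
      rw [List.getD_eq_getElem _ _ (by omega)]
      simpa using List.all_eq_true.mp hidx _ (List.getElem_mem (by omega : j < spanIndex.length))
    generalize spanIndex.getD j 0 = k at hb
    match k, hb with
    | 0, _ => exact ⟨pV, rfl, a⟩
    | 1, _ => exact ⟨pX, rfl, b⟩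
    | 2, _ => exact ⟨pR, rfl, c⟩
    | k + 3, hk => exact ⟨bv ⟨k, by omega⟩, rfl, h _⟩
  choose w hw hws using hfix
  let φ : leechLattice →+ leechLattice := AddMonoidHom.mk' (fun v => s • v) (co0_add s)
  refine Subtype.ext (Equiv.ext fun v => ?_)
  show s • v = v
  let coef : Fin 24 → ℤ := fun j => ∑ m : Fin 24, v.1 (ptOf m) * (spanCoef.getD m []).getD j 0
  have key : spanDen • v = ∑ j : Fin 24, coef j • w j j.2 := by
    refine Subtype.ext (funext fun p => ?_)
    rw [AddSubgroup.coe_zsmul, AddSubgroup.val_finsetSum, Finset.sum_apply]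
    simp only [AddSubgroup.coe_zsmul, Pi.smul_apply, smul_eq_mul, coef, Finset.sum_mul, hw]
    rw [Finset.sum_comm]
    have inner : ∀ m : Fin 24, ∑ j : Fin 24, v.1 (ptOf m) * (spanCoef.getD m []).getD j 0 *
        spanVec (spanIndex.getD j 0) p =
        v.1 (ptOf m) * if (m : ℕ) = ptIdx p then spanDen else 0 := by
      intro m
      have h1 := List.all_eq_true.mp (List.all_eq_true.mp hc m (List.mem_range.mpr m.2)) (ptIdx p)
        (List.mem_range.mpr (ptIdx_lt p))
      rw [beq_iff_eq, ptOf_ptIdx] at h1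
      rw [← h1, ← List.sum_toFinset _ List.nodup_range, List.toFinset_range, Finset.mul_sum,
        ← Fin.sum_univ_eq_sum_range]
      exact Finset.sum_congr rfl fun j _ => by ring
    rw [Finset.sum_congr rfl fun m _ => inner m,
      Finset.sum_eq_single (⟨ptIdx p, ptIdx_lt p⟩ : Fin 24)
        (fun m _ hm => by rw [if_neg fun e => hm (Fin.ext e), mul_zero]) (by simp)]
    simp [ptOf_ptIdx, mul_comm]
  have e : spanDen • φ v = spanDen • v := by
    rw [← map_zsmul, key, map_sum]
    exact Finset.sum_congr rfl fun j _ => by rw [map_zsmul]; exact congrArg _ (hws j j.2)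
  have e' : φ v = v := by
    refine Subtype.ext (funext fun p => ?_)
    have := congrArg (fun u : leechLattice => u.1 p) e
    simp only [AddSubgroup.coe_zsmul, Pi.smul_apply, smul_eq_mul] at this
    exact mul_left_cancel₀ hden this
  exact e'

/-! ### The stabiliser words -/

/-- The operations of the three generators. -/
def opsA : List LOp := [.step 163]
/-- The operations of the three generators. -/
def opsB : List LOp := [.step 5]
/-- The operations of the three generators. -/
def opsC : List LOp := [.step 2314, .step 0, .step 74, .step 3994, .step 0, .step 1788]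

set_option maxRecDepth 20000 in
theorem ops_ok : (opsA.all opOK && opsB.all opOK && opsC.all opOK) = true ∧
    ([opsA, opsB, opsC].all fun l => fixOpsB l pV.1 && fixOpsB l pX.1) = true ∧
    rowsOf opsA = rowsA ∧ rowsOf opsB = rowsB ∧ rowsOf opsC = rowsC := by
  decide +kernel

/-- The packed action of a word. -/
def wI (k : ℕ) : ℤ → ℤ := wordI (appI rowsA) (appI rowsB) (appI rowsC) (genWords.getD k [])

set_option maxRecDepth 20000 in
theorem words_ok : ((List.range 3).all fun k => (List.range 175).all fun i =>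
      Nat.blt ((vecPerms.getD k []).getD i 0) 175 &&
        (appI (rowsW.getD k []) (blockEnc.getD i 0) ==
          blockEnc.getD ((vecPerms.getD k []).getD i 0) 0)) = true ∧
    ((List.range 3).all fun k => (appI (rowsW.getD k []) (encI pR.1) == encI pR.1) &&
      decide (((List.range 24).map fun i => wI k (encI (Leech.cross (ptOf i)))) = rowsW.getD k [])) = true := by
  decide +kernel

/-- The permutation of the 175 indices of a word. -/
def vperm (k i : ℕ) : ℕ := (vecPerms.getD k []).getD i 0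

theorem exists_word_el (k : ℕ) (hk : k < 3) :
    ∃ s ∈ S0, ∀ i : Fin 175, ∃ j : Fin 175, (j : ℕ) = vperm k i ∧ s • bv i = bv j := by
  obtain ⟨hok, hfix, rA, rB, rC⟩ := ops_ok
  simp only [Bool.and_eq_true, List.all_cons, List.all_nil, Bool.and_true] at hok hfix
  obtain ⟨⟨oA, oB⟩, oC⟩ := hok
  obtain ⟨⟨fA, fA'⟩, ⟨fB, fB'⟩, fC, fC'⟩ := hfix
  have hA : opsEl opsA ∈ hs := mem_hs.mpr ⟨opsEl_fix oA fA, opsEl_fix oA fA'⟩
  have hB : opsEl opsB ∈ hs := mem_hs.mpr ⟨opsEl_fix oB fB, opsEl_fix oB fB'⟩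
  have hC : opsEl opsC ∈ hs := mem_hs.mpr ⟨opsEl_fix oC fC, opsEl_fix oC fC'⟩
  have hw : ∀ w, AutCert.word3 (opsEl opsA) (opsEl opsB) (opsEl opsC) w ∈ hs := by
    intro w
    induction w with
    | nil => exact one_mem _
    | cons a w ih =>
      match a with
      | 0 => exact mul_mem hA ih
      | 1 => exact mul_mem hB ih
      | _ + 2 => exact mul_mem hC ih
  set s := AutCert.word3 (opsEl opsA) (opsEl opsB) (opsEl opsC) (genWords.getD k [])
  have hw' : Acts s (wI k) :=
    acts_word (hasMat_ops oA rA).acts (hasMat_ops oB rB).acts (hasMat_ops oC rC).acts _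
  obtain ⟨hP, hR⟩ := words_ok
  have hRk := List.all_eq_true.mp hR k (List.mem_range.mpr hk)
  rw [Bool.and_eq_true, beq_iff_eq, decide_eq_true_eq] at hRk
  have hmat : HasMat s (rowsW.getD k []) := by
    rw [← hRk.2]
    refine ⟨by simp, fun i hi => ?_⟩
    rw [List.getD_eq_getElem _ _ (by simpa using hi), List.getElem_map, List.getElem_range,
      ← show (crossL (ptOf i)).1 = Leech.cross (ptOf i) from rfl]
    refine (hw' _ ?_).symm
    rw [show (crossL (ptOf i)).1 = Leech.cross (ptOf i) from rfl, sqNorm_cross]; norm_num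
  have hact : Acts s (appI (rowsW.getD k [])) := hmat.acts
  have hN : sqNorm pR.1 ≤ 1000000 := by rw [(sub11178_spec 0).1]; norm_num
  have hsR : s • pR = pR := by
    refine Subtype.ext (encI_inj (by rw [sqNorm_co0]; exact hN) hN ?_)
    rw [hact _ hN]
    exact hRk.1
  refine ⟨s, ⟨hw _, MulAction.mem_stabilizer_iff.mpr hsR⟩, fun i => ?_⟩
  have h := List.all_eq_true.mp (List.all_eq_true.mp hP k (List.mem_range.mpr hk)) i
    (List.mem_range.mpr i.2)
  simp only [Bool.and_eq_true, beq_iff_eq, Nat.blt_eq] at h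
  refine ⟨⟨_, h.1⟩, rfl, Subtype.ext (encI_inj ?_ ?_ ?_)⟩
  · rw [sqNorm_co0, show (bv i).1 = bvL i from rfl, (bvL_spec i.2).2]; norm_num
  · show sqNorm (bvL _) ≤ 1000000
    rw [(bvL_spec h.1).2]; norm_num
  · rw [hact _ (by show sqNorm (bvL i) ≤ 1000000; rw [(bvL_spec i.2).2]; norm_num)]
    show appI _ (encI (bvL i)) = encI (bvL _)
    rw [← blockEnc_getD i.2, ← blockEnc_getD h.1]
    exact h.2

/-! ### The field with 25 elements -/

/-- Addition of pairs modulo 5. -/
def qadd (x y : ℕ × ℕ) : ℕ × ℕ := ((x.1 + y.1) % 5, (x.2 + y.2) % 5)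
/-- Product of pairs, the second component standing for a square root of 2. -/
def qmul (x y : ℕ × ℕ) : ℕ × ℕ :=
  ((x.1 * y.1 + 2 * (x.2 * y.2)) % 5, (x.1 * y.2 + x.2 * y.1) % 5)
/-- Conjugate of a pair. -/
def qconj (x : ℕ × ℕ) : ℕ × ℕ := (x.1 % 5, 4 * x.2 % 5)
/-- Component of a vector of pairs. -/
def qget (u : List (ℕ × ℕ)) (i : ℕ) : ℕ × ℕ := u.getD i (0, 0)
/-- The Hermitian form on vectors of pairs. -/
def qherm (u v : List (ℕ × ℕ)) : ℕ × ℕ :=
  qadd (qadd (qmul (qget u 0) (qconj (qget v 0))) (qmul (qget u 1) (qconj (qget v 1))))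
    (qmul (qget u 2) (qconj (qget v 2)))
/-- A component of the image under a transvection. -/
def qtrv (e u : List (ℕ × ℕ)) (i : ℕ) : ℕ × ℕ :=
  qadd (qget u i) (qmul (qmul (0, 1) (qherm u e)) (qget e i))
/-- The 25 pairs. -/
def qAll : List (ℕ × ℕ) :=
  (List.range 5).flatMap fun a => (List.range 5).map fun b => (a, b)
/-- The vector of a point. -/
def node (n : ℕ) : List (ℕ × ℕ) := (pointData.getD n ([], 0, 0, (0, 0))).1
/-- The image of a point under a transvection, with a scalar. -/
def pimg (k m : ℕ) : ℕ × (ℕ × ℕ) :=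
  let c := (pointPerms.getD k []).getD m 0
  (c / 25, c / 5 % 5, c % 5)
/-- The check of a transvection on a point. -/
def trvOK (k m : ℕ) : Bool :=
  Nat.blt (pimg k m).1 126 && !(qadd (pimg k m).2 (0, 0) == (0, 0)) &&
    (List.range 3).all fun i =>
      qtrv (trvData.getD k []) (node m) i == qmul (pimg k m).2 (qget (node (pimg k m).1) i)
/-- Two vectors of pairs are independent. -/
def indepB (u v : List (ℕ × ℕ)) : Bool :=
  (List.range 3).any fun i => (List.range 3).any fun j =>
    !(qmul (qget u i) (qget v j) == qmul (qget u j) (qget v i))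
/-- The normalised triples. -/
def qCands : List (List (ℕ × ℕ)) :=
  (qAll.flatMap fun x => qAll.map fun y => [(1, 0), x, y]) ++
  (qAll.map fun x => [(0, 0), (1, 0), x]) ++ [[(0, 0), (0, 0), (1, 0)]]

set_option maxRecDepth 20000 in
theorem trv_ok : ((List.range 3).all fun k => (List.range 126).all (trvOK k)) = true ∧
    ((List.range 3).all fun k => qherm (trvData.getD k []) (trvData.getD k []) == (0, 0)) = true ∧
    ((List.range 3).all fun k => decide ((List.range 126).map fun m => (pimg k m).1).Nodup) = true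
      := by
  decide +kernel

set_option maxRecDepth 20000 in
theorem points_indep : ((List.range 126).all fun m => (List.range 126).all fun n =>
    Nat.beq m n || indepB (node m) (node n)) = true := by
  decide +kernel

set_option maxRecDepth 20000 in
theorem points_ok : ((List.range 126).all fun n =>
    let d := pointData.getD n ([], 0, 0, (0, 0))
    bif n == 0 then d.1 == trvData.getD 0 [] else
      Nat.blt d.2.2.1 n && Nat.blt d.2.1 3 && !(qadd d.2.2.2 (0, 0) == (0, 0)) &&
      (List.range 3).all fun m =>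
        qtrv (trvData.getD d.2.1 []) (node d.2.2.1) m == qmul d.2.2.2 (qget d.1 m)) = true ∧
    ((qCands.filter fun l => qherm l l == (0, 0)).all fun l =>
      (List.range 126).any fun n => node n == l) = true := by
  decide +kernel

set_option maxRecDepth 20000 in
theorem blocks_ok : ((List.range 3).all fun k => (List.range 175).all fun i =>
      (List.range 126).all fun m =>
        (blockMasks.getD i 0).testBit m == (blockMasks.getD (vperm k i) 0).testBit (pimg k m).1)
      = true ∧
    ((List.range 175).map fun i => blockMasks.getD i 0).Nodup ∧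
    ((List.range 175).all fun i => decide (blockMasks.getD i 0 < 2 ^ 126)) = true := by
  decide +kernel

section Field

variable {F : Type} [Field F] [Fintype F]

open Cfsg.Agent.Classical.U

/-- The facts used about the field. -/
structure Sq5 (F : Type) [Field F] where
  sqf : SqField F 5
  iota : F
  iota_sq : iota * iota = 2
  char : CharP F 5

theorem exists_sq5 (hF : Fintype.card F = 25) : Nonempty (Sq5 F) := by
  have hS : SqField F 5 := sqField_of_fintype (by rw [hF]; norm_num)
  obtain ⟨d, hd0, hd⟩ := hS.exists_skew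
  obtain ⟨p, k, hp, hc, hq⟩ := hS.exists_char
  have hp5 : p = 5 := by
    have : p ∣ 5 := hq ▸ dvd_pow_self p (by rintro rfl; simp at hq)
    exact (Nat.prime_dvd_prime_iff_eq hp (by norm_num)).1 this
  subst hp5
  have h5 : (5 : F) = 0 := by exact_mod_cast CharP.cast_eq_zero F 5
  have h4 : d ^ 4 = -1 := mul_left_cancel₀ hd0 (by
    rw [show d * d ^ 4 = d ^ 5 by ring, hd, mul_neg, mul_one])
  have h2 : (d * d - 2) * (d * d - 3) = 0 := by
    linear_combination h4 + (1 - d * d) * h5
  rcases mul_eq_zero.mp h2 with h | h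
  · exact ⟨⟨hS, d, sub_eq_zero.mp h, hc⟩⟩
  · exact ⟨⟨hS, d + d, by linear_combination 4 * h + 2 * h5, hc⟩⟩

/-- The image of a set of subspaces. -/
def mapSet (g : (Fin 3 → F) ≃ₗ[F] (Fin 3 → F)) (B : Set (Submodule F (Fin 3 → F))) :
    Set (Submodule F (Fin 3 → F)) :=
  (fun W => W.map (g : (Fin 3 → F) →ₗ[F] (Fin 3 → F))) '' B

theorem mapSet_one (B : Set (Submodule F (Fin 3 → F))) : mapSet 1 B = B := by
  refine (Set.image_congr fun W _ => ?_).trans (Set.image_id B)
  exact Submodule.map_id W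

theorem mapSet_mul (g h : (Fin 3 → F) ≃ₗ[F] (Fin 3 → F)) (B : Set (Submodule F (Fin 3 → F))) :
    mapSet (g * h) B = mapSet g (mapSet h B) := by
  simp only [mapSet, Set.image_image]
  refine Set.image_congr fun W _ => ?_
  rw [← Submodule.map_comp]
  rfl

variable (N : Sq5 F)
include N

theorem five : (5 : F) = 0 := by
  have := N.char
  exact_mod_cast CharP.cast_eq_zero F 5

/-- The value of a pair. -/
def emb (x : ℕ × ℕ) : F := (x.1 : F) + (x.2 : F) * N.iota

/-- The value of a vector of pairs. -/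
def vec (u : List (ℕ × ℕ)) : Fin 3 → F := fun i => emb N (qget u i)

theorem cast_mod (n : ℕ) : ((n % 5 : ℕ) : F) = n := by
  conv_rhs => rw [← Nat.mod_add_div n 5]
  push_cast
  rw [five N, zero_mul, add_zero]

theorem emb_add (x y : ℕ × ℕ) : emb N (qadd x y) = emb N x + emb N y := by
  simp only [emb, qadd, cast_mod N]; push_cast; ring

theorem emb_mul (x y : ℕ × ℕ) : emb N (qmul x y) = emb N x * emb N y := by
  simp only [emb, qmul, cast_mod N]; push_cast
  linear_combination (-((x.2 : F) * y.2)) * N.iota_sq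

theorem cast_fifth (n : ℕ) : (n : F) ^ 5 = n := by
  induction n with
  | zero => simp
  | succ n ih => rw [Nat.cast_succ, N.sqf.add_pow, ih, one_pow]

theorem iota_fifth : N.iota ^ 5 = -N.iota := by
  rw [show N.iota ^ 5 = N.iota * (N.iota * N.iota) * (N.iota * N.iota) by ring, N.iota_sq]
  linear_combination N.iota * five N

theorem emb_conj (x : ℕ × ℕ) : emb N x ^ 5 = emb N (qconj x) := by
  simp only [emb, qconj, cast_mod N]
  rw [N.sqf.add_pow, mul_pow, cast_fifth N, cast_fifth N, iota_fifth N]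
  push_cast
  linear_combination (-((x.2 : F) * N.iota)) * five N

theorem herm_vec (u v : List (ℕ × ℕ)) : herm 5 (vec N u) (vec N v) = emb N (qherm u v) := by
  simp [herm_def, Fin.sum_univ_three, vec, qherm, emb_add, emb_mul, emb_conj]

theorem emb_00 : emb N (0, 0) = 0 := by simp [emb]
theorem emb_10 : emb N (1, 0) = 1 := by simp [emb]
theorem emb_01 : emb N (0, 1) = N.iota := by simp [emb]

theorem cast_eq_zero {n : ℕ} (h : (n : F) = 0) : n % 5 = 0 := by
  have := N.char
  exact Nat.mod_eq_zero_of_dvd ((CharP.cast_eq_zero_iff F 5 n).mp h)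

theorem iota_ne : N.iota ≠ 0 := fun h => by
  have h2 := N.iota_sq
  rw [h, mul_zero] at h2
  have := cast_eq_zero N (n := 2) (by exact_mod_cast h2.symm)
  omega

theorem emb_injective (x y : ℕ × ℕ) (h : emb N x = emb N y) :
    x.1 % 5 = y.1 % 5 ∧ x.2 % 5 = y.2 % 5 := by
  simp only [emb] at h
  have e : ((x.1 + 4 * y.1 : ℕ) : F) + ((x.2 + 4 * y.2 : ℕ) : F) * N.iota = 0 := by
    push_cast
    linear_combination h + ((y.1 : F) + (y.2 : F) * N.iota) * five N
  generalize ha : x.1 + 4 * y.1 = a at e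
  generalize hb : x.2 + 4 * y.2 = b at e
  have e5 : ((a : F) + (b : F) * N.iota) ^ 5 = 0 := by rw [e]; simp
  rw [N.sqf.add_pow, mul_pow, cast_fifth N, cast_fifth N, iota_fifth N] at e5
  have h1 := cast_eq_zero N (n := 2 * a) (by push_cast; linear_combination e + e5)
  have h2 : (b : F) * N.iota = 0 := by
    have : (a : F) = 0 := by
      rw [← cast_mod N, show a % 5 = 0 by omega]; simp
    linear_combination e - this
  have h3 := cast_eq_zero N ((mul_eq_zero.mp h2).resolve_right (iota_ne N))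
  omega

theorem qzero {x : ℕ × ℕ} (h : emb N x = 0) : qadd x (0, 0) = (0, 0) := by
  obtain ⟨h1, h2⟩ := emb_injective N x (0, 0) (h.trans (emb_00 N).symm)
  exact Prod.ext (by simp [qadd] at *; omega) (by simp [qadd] at *; omega)

theorem qeq {x y : ℕ × ℕ} (h : (x == y) = true) : emb N x = emb N y := by
  rw [beq_iff_eq] at h; rw [h]

theorem emb_surjective (hF : Fintype.card F = 25) (a : F) : ∃ x ∈ qAll, emb N x = a := by
  classical
  have hinj : Set.InjOn (emb N) {x | x ∈ qAll} := fun x hx y hy h => by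
    obtain ⟨h1, h2⟩ := emb_injective N x y h
    have : ∀ z ∈ qAll, z.1 < 5 ∧ z.2 < 5 := by decide
    obtain ⟨a, b⟩ := this x hx
    obtain ⟨c, d⟩ := this y hy
    exact Prod.ext (by omega) (by omega)
  have hall : qAll.toFinset.image (emb N) = Finset.univ := by
    refine Finset.eq_univ_of_card _ ?_
    rw [Finset.card_image_of_injOn (by rwa [List.coe_toFinset]),
      List.toFinset_card_of_nodup (by decide), hF]
    rfl
  obtain ⟨x, hx, rfl⟩ := Finset.mem_image.mp (hall.symm ▸ Finset.mem_univ a : a ∈ qAll.toFinset.image (emb N))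
  exact ⟨x, List.mem_toFinset.mp hx, rfl⟩

theorem skew_cases (hF : Fintype.card F = 25) {a : F} (ha : a ^ 5 = -a) :
    ∃ n : ℕ, a = n * N.iota := by
  obtain ⟨x, hx, rfl⟩ := emb_surjective N hF a
  rw [emb_conj] at ha
  have h : emb N (qadd (qconj x) x) = emb N (0, 0) := by rw [emb_add, ha, emb_00, neg_add_cancel]
  have h1 := (emb_injective N _ _ h).1
  refine ⟨x.2, ?_⟩
  have hx1 : x.1 = 0 :=
    (show ∀ x ∈ qAll, (qadd (qconj x) x).1 % 5 = 0 → x.1 = 0 by decide) x hx h1
  simp [emb, hx1]

/-! ### Points and blocks -/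

/-- An isotropic point. -/
noncomputable def point (m : Fin 126) : Submodule F (Fin 3 → F) :=
  Submodule.span F {vec N (node m)}

theorem point_injective : Function.Injective (point N) := by
  intro m n h
  by_contra hne
  have hd := List.all_eq_true.mp (List.all_eq_true.mp points_indep m (List.mem_range.mpr m.2)) n
    (List.mem_range.mpr n.2)
  have hbeq : Nat.beq (m : ℕ) (n : ℕ) = false := by
    rw [← Bool.not_eq_true, Nat.beq_eq]; exact fun e => hne (Fin.ext e)
  rw [hbeq, Bool.false_or] at hd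
  simp only [indepB, List.any_eq_true, List.mem_range, Bool.not_eq_true',
    beq_eq_false_iff_ne] at hd
  obtain ⟨i, hi, j, hj, hij⟩ := hd
  have hm : vec N (node m) ∈ point N n := h ▸ Submodule.mem_span_singleton_self _
  obtain ⟨c, hc⟩ := Submodule.mem_span_singleton.mp hm
  have ei := congrFun hc ⟨i, hi⟩
  have ej := congrFun hc ⟨j, hj⟩
  simp only [Pi.smul_apply, smul_eq_mul, vec] at ei ej
  refine hij ?_
  have e : emb N (qmul (qget (node m) i) (qget (node n) j)) =
      emb N (qmul (qget (node m) j) (qget (node n) i)) := by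
    rw [emb_mul, emb_mul, ← ei, ← ej]; ring
  obtain ⟨a, b⟩ := emb_injective N _ _ e
  exact Prod.ext (by simpa [qmul] using a) (by simpa [qmul] using b)

/-- A block of isotropic points. -/
def block (i : Fin 175) : Set (Submodule F (Fin 3 → F)) :=
  point N '' {m | (blockMasks.getD i 0).testBit m = true}

theorem block_injective : Function.Injective (block N) := by
  intro i j h
  have h' := (Set.image_eq_image (point_injective N)).mp h
  obtain ⟨-, hnd, hlt⟩ := blocks_ok
  have hl : ∀ k : Fin 175, blockMasks.getD k 0 < 2 ^ 126 := fun k => by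
    simpa using List.all_eq_true.mp hlt k (List.mem_range.mpr k.2)
  refine Fin.ext (List.inj_on_of_nodup_map hnd (List.mem_range.mpr i.2) (List.mem_range.mpr j.2)
    (Nat.eq_of_testBit_eq fun m => ?_))
  by_cases hm : m < 126
  · exact Bool.eq_iff_iff.mpr (Set.ext_iff.mp h' ⟨m, hm⟩)
  · rw [Nat.testBit_lt_two_pow ((hl i).trans_le (Nat.pow_le_pow_right (by norm_num) (by omega))),
      Nat.testBit_lt_two_pow ((hl j).trans_le (Nat.pow_le_pow_right (by norm_num) (by omega)))]

/-- A unitary map and a lattice automorphism permute blocks and vectors alike. -/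
def Compat (g : (Fin 3 → F) ≃ₗ[F] (Fin 3 → F)) (s : Co0) : Prop :=
  ∀ i, ∃ j, s • bv i = bv j ∧ mapSet g (block N i) = block N j

theorem compat_one : Compat N 1 1 := fun i => ⟨i, one_smul _ _, mapSet_one _⟩

theorem compat_mul {g h : (Fin 3 → F) ≃ₗ[F] (Fin 3 → F)} {s t : Co0} (hg : Compat N g s)
    (hh : Compat N h t) : Compat N (g * h) (s * t) := fun i => by
  obtain ⟨j, hj, hj'⟩ := hh i
  obtain ⟨k, hk, hk'⟩ := hg j
  exact ⟨k, by rw [mul_smul, hj, hk], by rw [mapSet_mul, hj', hk']⟩

theorem compat_inv {g : (Fin 3 → F) ≃ₗ[F] (Fin 3 → F)} {s : Co0} (hg : Compat N g s) :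
    Compat N g⁻¹ s⁻¹ := by
  choose σ hσ hσ' using hg
  have hinj : Function.Injective σ := fun a b e =>
    bv_injective (MulAction.injective s ((hσ a).trans ((congrArg bv e).trans (hσ b).symm)))
  intro i
  obtain ⟨j, rfl⟩ := Finite.surjective_of_injective hinj i
  refine ⟨j, by rw [← hσ j, inv_smul_smul], ?_⟩
  rw [← hσ' j, ← mapSet_mul, inv_mul_cancel, mapSet_one]

theorem compat_unique {g : (Fin 3 → F) ≃ₗ[F] (Fin 3 → F)} {s t : Co0} (hs' : s ∈ S0)
    (ht : t ∈ S0) (h : Compat N g s) (h' : Compat N g t) : s = t := by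
  have : t⁻¹ * s = 1 := by
    refine faithful (mul_mem (inv_mem ht) hs') fun i => ?_
    obtain ⟨j, hj, hj'⟩ := h i
    obtain ⟨k, hk, hk'⟩ := h' i
    rw [block_injective N (hj'.symm.trans hk')] at hj
    rw [mul_smul, hj, ← hk, inv_smul_smul]
  exact (inv_mul_eq_one.mp this).symm

/-- The unitary maps realised in the stabiliser. -/
def realised : Subgroup (SUG 3 F 5) where
  carrier := {g | ∃ s ∈ S0, Compat N g.1.1 s}
  one_mem' := ⟨1, one_mem _, compat_one N⟩
  mul_mem' := fun ⟨s, hs', h⟩ ⟨t, ht, h'⟩ => ⟨s * t, mul_mem hs' ht, compat_mul N h h'⟩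
  inv_mem' := fun ⟨s, hs', h⟩ => ⟨s⁻¹, inv_mem hs', compat_inv N h⟩

/-- Transvection membership for every parameter. -/
def Good (p : Fin 3 → F) : Prop :=
  ∀ a : F, a ^ 5 = -a → ∃ g ∈ realised N, ∀ w, g.1.1 w = w + (a * herm 5 w p) • p

theorem trvData_iso {k : ℕ} (hk : k < 3) :
    TrvCond 5 (vec N (trvData.getD k [])) N.iota := by
  refine ⟨?_, iota_fifth N⟩
  rw [herm_vec, qeq N (List.all_eq_true.mp trv_ok.2.1 k (List.mem_range.mpr hk)), emb_00]

/-- A generating transvection. -/
noncomputable def gen {k : ℕ} (hk : k < 3) : SUG 3 F 5 :=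
  ⟨trv N.sqf (trvData_iso N hk), TG_le_SUG N.sqf (trv_mem N.sqf _)⟩

theorem gen_vec {k : ℕ} (hk : k < 3) (u : List (ℕ × ℕ)) :
    (gen N hk).1.1 (vec N u) = fun i : Fin 3 => emb N (qtrv (trvData.getD k []) u i) := by
  funext i
  simp [gen, trv_apply, herm_vec, vec, qtrv, emb_add, emb_mul, emb_01]

theorem point_map {k : ℕ} (hk : k < 3) (m : Fin 126) :
    ∃ n : Fin 126, (n : ℕ) = (pimg k m).1 ∧
      (point N m).map ((gen N hk).1.1 : (Fin 3 → F) →ₗ[F] (Fin 3 → F)) = point N n := by
  have h := List.all_eq_true.mp (List.all_eq_true.mp trv_ok.1 k (List.mem_range.mpr hk)) m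
    (List.mem_range.mpr m.2)
  simp only [trvOK, Bool.and_eq_true, List.all_eq_true, List.mem_range, Nat.blt_eq,
    Bool.not_eq_true', beq_eq_false_iff_ne] at h
  obtain ⟨⟨hlt, hne⟩, hi⟩ := h
  refine ⟨⟨_, hlt⟩, rfl, ?_⟩
  have e : (gen N hk).1.1 (vec N (node m)) =
      emb N (pimg k m).2 • vec N (node (pimg k m).1) := by
    rw [gen_vec]; funext i
    rw [qeq N (hi i i.2)]
    simp [emb_mul, vec]
  rw [point, Submodule.map_span, Set.image_singleton]
  simp only [LinearEquiv.coe_coe, e]
  exact Submodule.span_singleton_smul_eq (isUnit_iff_ne_zero.mpr fun z => hne (qzero N z)) _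

theorem block_map {k : ℕ} (hk : k < 3) (i j : Fin 175) (hj : (j : ℕ) = vperm k i) :
    mapSet (gen N hk).1.1 (block N i) = block N j := by
  choose π hπ hπ' using point_map N hk
  have hinj : Function.Injective π := fun a b e => by
    have hn := List.all_eq_true.mp trv_ok.2.2 k (List.mem_range.mpr hk)
    rw [decide_eq_true_eq] at hn
    exact Fin.ext (List.inj_on_of_nodup_map hn (List.mem_range.mpr a.2) (List.mem_range.mpr b.2)
      ((hπ a).symm.trans ((congrArg Fin.val e).trans (hπ b))))
  have hb : ∀ m : Fin 126, (blockMasks.getD i 0).testBit m =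
      (blockMasks.getD j 0).testBit (π m) := fun m => by
    rw [hj, hπ m]
    exact beq_iff_eq.mp (List.all_eq_true.mp (List.all_eq_true.mp (List.all_eq_true.mp blocks_ok.1 k
      (List.mem_range.mpr hk)) i (List.mem_range.mpr i.2)) m (List.mem_range.mpr m.2))
  ext W
  simp only [mapSet, block, Set.mem_image, Set.mem_ofPred_eq]
  constructor
  · rintro ⟨_, ⟨m, hm, rfl⟩, rfl⟩
    exact ⟨π m, (hb m).symm.trans hm, (hπ' m).symm⟩
  · rintro ⟨n, hn, rfl⟩
    obtain ⟨m, rfl⟩ := Finite.surjective_of_injective hinj n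
    exact ⟨_, ⟨m, (hb m).trans hn, rfl⟩, hπ' m⟩

theorem gen_realised {k : ℕ} (hk : k < 3) : gen N hk ∈ realised N := by
  obtain ⟨s, hs', hsw⟩ := exists_word_el k hk
  refine ⟨s, hs', fun i => ?_⟩
  obtain ⟨j, hj, hsj⟩ := hsw i
  exact ⟨j, hsj, block_map N hk i j hj⟩

theorem gen_pow_apply {k : ℕ} (hk : k < 3) (n : ℕ) (w : Fin 3 → F) :
    ((gen N hk) ^ n).1.1 w = w + ((n : F) * N.iota * herm 5 w (vec N (trvData.getD k []))) •
      vec N (trvData.getD k []) := by
  induction n with
  | zero => simp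
  | succ n ih =>
    rw [pow_succ']
    show (gen N hk).1.1 (((gen N hk) ^ n).1.1 w) = _
    rw [ih]
    simp only [gen, trv_apply, herm_add_left, herm_smul_left, (trvData_iso N hk).1, mul_zero,
      add_zero, add_assoc, ← add_smul]
    congr 2
    push_cast
    ring

theorem good_root (hF : Fintype.card F = 25) : Good N (vec N (trvData.getD 0 [])) := by
  intro a ha
  obtain ⟨n, rfl⟩ := skew_cases N hF ha
  exact ⟨(gen N (show 0 < 3 by norm_num)) ^ n, pow_mem (gen_realised N _) n,
    gen_pow_apply N (by norm_num) n⟩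

theorem good_node (hF : Fintype.card F = 25) : ∀ n < 126, Good N (vec N (node n)) := by
  intro n
  induction n using Nat.strong_induction_on with
  | _ n ih =>
    intro hn
    have h := List.all_eq_true.mp points_ok.1 n (List.mem_range.mpr hn)
    rcases Nat.eq_zero_or_pos n with rfl | hpos
    · simp only [beq_self_eq_true, cond_true, beq_iff_eq] at h
      simp only [node, h]
      exact good_root N hF
    · rw [show (n == 0) = false by simpa using hpos.ne', cond_false] at h
      simp only [node]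
      generalize pointData.getD n ([], 0, 0, (0, 0)) = d at h ⊢
      obtain ⟨q, k, m, lam⟩ := d
      simp only [Bool.and_eq_true, Nat.blt_eq, List.all_eq_true, List.mem_range,
        Bool.not_eq_true', beq_eq_false_iff_ne] at h
      obtain ⟨⟨⟨hm, hk⟩, hlam⟩, he⟩ := h
      have himg : (gen N hk).1.1 (vec N (node m)) = emb N lam • vec N q := by
        rw [gen_vec]; funext i
        rw [qeq N (he i i.2)]
        simp [emb_mul, vec]
      set c := emb N lam with hc
      have hc0 : c ≠ 0 := fun e => hlam (qzero N e)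
      intro a ha
      have hc5 : (c * c ^ 5) ^ 5 = c * c ^ 5 := by
        rw [mul_pow, N.sqf.pow_pow]; ring
      obtain ⟨g, hg, hgw⟩ := ih m hm (by omega) (a / (c * c ^ 5))
        (by rw [div_pow, ha, hc5, neg_div])
      refine ⟨gen N hk * g * (gen N hk)⁻¹,
        mul_mem (mul_mem (gen_realised N hk) hg) (inv_mem (gen_realised N hk)), fun w => ?_⟩
      simp only [Subgroup.coe_mul, LinearEquiv.mul_apply, hgw, map_add, map_smul]
      rw [← UG_app (gen N hk).1 (((gen N hk)⁻¹ : SUG 3 F 5).1.1 w) (vec N (node m)), himg,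
        show (gen N hk).1.1 (((gen N hk)⁻¹ : SUG 3 F 5).1.1 w) = w by simp,
        herm_smul_right, smul_smul]
      congr 2
      field_simp

theorem good_all (hF : Fintype.card F = 25) {e : Fin 3 → F} (he : herm 5 e e = 0) : Good N e := by
  by_cases he0 : e = 0
  · exact fun a _ => ⟨1, one_mem _, fun w => by simp [he0]⟩
  obtain ⟨l, hl, d, hd, rfl⟩ : ∃ l ∈ qCands, ∃ d : F, d ≠ 0 ∧ e = d • vec N l := by
    have build : ∀ d : F, d ≠ 0 → ∀ x : Fin 3 → F, (∀ i, e i = d * x i) →
        ∀ l ∈ qCands, vec N l = x → ∃ l ∈ qCands, ∃ d : F, d ≠ 0 ∧ e = d • vec N l :=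
      fun d hd x hx l hl hlx => ⟨l, hl, d, hd, by rw [hlx]; funext i; simpa using hx i⟩
    have sur := fun d i => emb_surjective N hF (e i / d)
    by_cases h0 : e 0 = 0
    · by_cases h1 : e 1 = 0
      · have h2 : e 2 ≠ 0 := fun h2 => he0 (funext fun i => by fin_cases i <;> assumption)
        exact build (e 2) h2 ![0, 0, 1] (fun i => by fin_cases i <;> simp [h0, h1])
          [(0, 0), (0, 0), (1, 0)] (by simp [qCands])
          (funext fun i => by fin_cases i <;> simp [vec, qget, emb])
      · obtain ⟨x, hx, ex⟩ := sur (e 1) 2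
        exact build (e 1) h1 ![0, 1, e 2 / e 1]
          (fun i => by fin_cases i <;> simp [h0, mul_div_cancel₀ _ h1])
          [(0, 0), (1, 0), x] (by simp [qCands, hx])
          (funext fun i => by fin_cases i <;> simp [vec, qget, emb_00, emb_10, ex])
    · obtain ⟨x, hx, ex⟩ := sur (e 0) 1
      obtain ⟨y, hy, ey⟩ := sur (e 0) 2
      exact build (e 0) h0 ![1, e 1 / e 0, e 2 / e 0]
        (fun i => by fin_cases i <;> simp [mul_div_cancel₀ _ h0])
        [(1, 0), x, y] (by
          simp only [qCands, List.mem_append, List.mem_flatMap, List.mem_map]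
          exact .inl (.inl ⟨x, hx, y, hy, rfl⟩))
        (funext fun i => by fin_cases i <;> simp [vec, qget, emb_10, ex, ey])
  rw [herm_smul_left, herm_smul_right, herm_vec] at he
  have hq : qherm l l = (0, 0) := by
    have h1 : emb N (qherm l l) = 0 := by simpa [hd] using he
    obtain ⟨a, b⟩ := emb_injective N _ _ (h1.trans (emb_00 N).symm)
    have hlt : (qherm l l).1 < 5 ∧ (qherm l l).2 < 5 :=
      ⟨Nat.mod_lt _ (by norm_num), Nat.mod_lt _ (by norm_num)⟩
    exact Prod.ext (by simp only at a ⊢; omega) (by simp only at b ⊢; omega)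
  obtain ⟨n, hn, hnl⟩ := List.any_eq_true.mp (List.all_eq_true.mp points_ok.2 l
    (List.mem_filter.mpr ⟨hl, by rw [hq]; rfl⟩))
  rw [beq_iff_eq] at hnl
  subst hnl
  intro a ha
  obtain ⟨g, hg, hgw⟩ := good_node N hF n (List.mem_range.mp hn) (a * (d * d ^ 5)) (by
    rw [mul_pow, mul_pow, N.sqf.pow_pow, ha]; ring)
  refine ⟨g, hg, fun w => ?_⟩
  rw [hgw, herm_smul_right, smul_smul]
  congr 2
  ring

theorem realised_eq_top (hF : Fintype.card F = 25) : realised N = ⊤ := by
  have hle : TG 3 F 5 ≤ (realised N).map (SUG 3 F 5).subtype := by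
    rw [TG, Subgroup.closure_le]
    rintro g ⟨e, a, h, hg⟩
    obtain ⟨k, hk, hkw⟩ := good_all N hF h.1 a h.2
    exact ⟨k, hk, Subtype.ext (LinearEquiv.ext fun w => by rw [hg]; exact hkw w)⟩
  refine eq_top_iff.mpr fun g _ => ?_
  obtain ⟨k, hk, e⟩ := hle (SUG_le_TG N.sqf 3 (by norm_num) (by norm_num) g.2)
  rwa [← Subtype.ext e]

/-- The homomorphism to the stabiliser. -/
noncomputable def toS0 (hF : Fintype.card F = 25) : SUG 3 F 5 →* ↥S0 :=
  have h : ∀ g : SUG 3 F 5, ∃ s ∈ S0, Compat N g.1.1 s := fun g => by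
    have : g ∈ realised N := realised_eq_top N hF ▸ Subgroup.mem_top g
    exact this
  MonoidHom.mk' (fun g => ⟨(h g).choose, (h g).choose_spec.1⟩) fun g g' => Subtype.ext <|
    compat_unique N (h (g * g')).choose_spec.1 (mul_mem (h g).choose_spec.1 (h g').choose_spec.1)
      (h (g * g')).choose_spec.2 (compat_mul N (h g).choose_spec.2 (h g').choose_spec.2)

theorem toS0_spec (hF : Fintype.card F = 25) (g : SUG 3 F 5) :
    Compat N g.1.1 (toS0 N hF g : Co0) :=
  (show ∃ s ∈ S0, Compat N g.1.1 s from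
    (show g ∈ realised N from realised_eq_top N hF ▸ Subgroup.mem_top g)).choose_spec.2

theorem center_le_ker (hF : Fintype.card F = 25) :
    Subgroup.center (SUG 3 F 5) ≤ (toS0 N hF).ker := by
  intro g hg
  obtain ⟨c, hc⟩ := center_SUG_scalar N.sqf (by norm_num) g hg
  have hc0 : c ≠ 0 := fun e => one_ne_zero (α := F) (by
    have h := g.1.1.injective (show g.1.1 (Pi.single 0 1) = g.1.1 0 by rw [hc, e]; simp)
    simpa using congrFun h 0)
  refine MonoidHom.mem_ker.mpr (Subtype.ext (compat_unique N (toS0 N hF g).2 (one_mem _)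
    (toS0_spec N hF g) fun i => ⟨i, one_smul _ _, ?_⟩))
  rw [mapSet, block, Set.image_image]
  refine Set.image_congr fun m _ => ?_
  rw [point, Submodule.map_span, Set.image_singleton]
  simp only [LinearEquiv.coe_coe, hc]
  exact Submodule.span_singleton_smul_eq (isUnit_iff_ne_zero.mpr hc0) _

end Field

section Main

open Cfsg.Agent.Classical.U

set_option maxRecDepth 20000 in
theorem word0_moves : (List.range 175).all (fun i => vperm 0 i == i) = false := by
  decide +kernel

theorem card_PSU_three_five {F : Type} [Field F] [Fintype F] (hF : Fintype.card F = 25) :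
    Nat.card (Cfsg.PSU 3 F 5) = 126000 := by
  have hS : SqField F 5 := sqField_of_fintype (by rw [hF]; norm_num)
  have h := card_PSU hS (n := 3) (by norm_num)
  rw [card_UG hS 3] at h
  norm_num [Finset.prod_range_succ] at h
  omega

theorem nonempty_iso {F : Type} [Field F] [Fintype F] (hF : Fintype.card F = 25) :
    Nonempty (↥S0 ≃* Cfsg.PSU 3 F 5) := by
  obtain ⟨N⟩ := exists_sq5 hF
  haveI := isSimpleGroup_SUG_mod_center N.sqf (n := 3) (by norm_num) (by norm_num)
  let f := QuotientGroup.lift (Subgroup.center (SUG 3 F 5)) (toS0 N hF) (center_le_ker N hF)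
  have hker : f.ker = ⊥ := by
    refine (IsSimpleGroup.eq_bot_or_eq_top_of_normal f.ker inferInstance).resolve_right fun h => ?_
    have h1 : f ((gen N (show 0 < 3 by norm_num) : SUG 3 F 5) :
        SUG 3 F 5 ⧸ Subgroup.center (SUG 3 F 5)) = 1 := MonoidHom.mem_ker.mp (h ▸ Subgroup.mem_top _)
    rw [QuotientGroup.lift_mk] at h1
    obtain ⟨t, ht, htw⟩ := exists_word_el 0 (by norm_num)
    have hgt : Compat N (gen N (show 0 < 3 by norm_num)).1.1 t := fun i => by
      obtain ⟨j, hj, htj⟩ := htw i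
      exact ⟨j, htj, block_map N _ i j hj⟩
    have ht1 : t = 1 := (compat_unique N ht (toS0 N hF _).2 hgt (toS0_spec N hF _)).trans
      (congrArg Subtype.val h1)
    obtain ⟨i, hi, hne⟩ : ∃ i < 175, vperm 0 i ≠ i := by
      by_contra hc
      push Not at hc
      refine Bool.eq_false_iff.mp word0_moves (List.all_eq_true.mpr fun i hi => ?_)
      exact beq_iff_eq.mpr (hc i (List.mem_range.mp hi))
    obtain ⟨j, hj, hjt⟩ := htw ⟨i, hi⟩
    rw [ht1, one_smul] at hjt
    exact hne (hj ▸ (congrArg Fin.val (bv_injective hjt)).symm)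
  have hinj : Function.Injective f := (MonoidHom.ker_eq_bot_iff f).mp hker
  obtain ⟨e⟩ := nonempty_PSU_equiv 3 F 5
  haveI : Finite ↥S0 := Nat.finite_of_card_ne_zero (by rw [card_S0]; norm_num)
  have hbij : Function.Bijective f := (Nat.bijective_iff_injective_and_card f).mpr
    ⟨hinj, by rw [← Nat.card_congr e.toEquiv, card_PSU_three_five hF, card_S0]⟩
  exact ⟨(MulEquiv.ofBijective f hbij).symm.trans e.symm⟩

end Main

/-! ### Every pair -/

/-- The 352 vectors of a pair. -/
abbrev pts352 (v w : leechLattice) : Set leechLattice :=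
  {x : leechLattice | sqNorm (x : GolayPt → ℤ) = 32 ∧
    dotInt (v : GolayPt → ℤ) (x : GolayPt → ℤ) = 16 ∧
    dotInt (w : GolayPt → ℤ) (x : GolayPt → ℤ) = -24}

theorem dot_neg_right (a : GolayPt → ℤ) (b : leechLattice) :
    dotInt a (-b : leechLattice).1 = -dotInt a b.1 := by
  simp [dotInt, Finset.sum_neg_distrib]

theorem dot_pY (y : GolayPt → ℤ) : dotInt pY.1 y = -dotInt pX.1 y - dotInt pV.1 y := by
  rw [pY_eq]
  simp [dotInt, Finset.sum_neg_distrib, Finset.sum_sub_distrib, sub_mul]

theorem mem_pts352 {v w x : leechLattice} {g : Co0} (hv : g • v = pV) (hw : g • w = pY) :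
    x ∈ pts352 v w ↔ -(g • x) ∈ C352 := by
  have h1 := co0_dotInt g v x
  have h2 := co0_dotInt g w x
  rw [hv] at h1
  rw [hw, dot_pY] at h2
  have hn : sqNorm (-(g • x) : leechLattice).1 = sqNorm x.1 := by
    rw [← sqNorm_co0 g x]; simp [sqNorm]
  simp only [C352, dotClass, set11178, Set.mem_ofPred_eq, dot_neg_right, hn, h1]
  constructor
  · rintro ⟨a, b, c⟩; exact ⟨⟨a, by omega⟩, by omega⟩
  · rintro ⟨⟨a, b⟩, c⟩; exact ⟨a, by omega, by omega⟩

theorem pair_facts : sqNorm pV.1 = 48 ∧ sqNorm pY.1 = 48 ∧ dotInt pV.1 pY.1 = -32 := by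
  decide +kernel

theorem configuration352 (v w : leechLattice) (hv : sqNorm (v : GolayPt → ℤ) = 48)
    (hw : sqNorm (w : GolayPt → ℤ) = 48)
    (hvw : dotInt (v : GolayPt → ℤ) (w : GolayPt → ℤ) = -32) :
    (pts352 v w).ncard = 352 ∧ (∀ x ∈ pts352 v w, -w - x ∈ pts352 v w) ∧
    (∀ x ∈ pts352 v w, ∀ x' ∈ pts352 v w, ∃ g : Co0, g • v = v ∧ g • w = w ∧ g • x = x') ∧
    ∀ (F : Type) [Field F] [Fintype F], Fintype.card F = 25 → ∀ x ∈ pts352 v w,
      Nonempty (↥(MulAction.stabilizer Co0 v ⊓ MulAction.stabilizer Co0 w ⊓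
        MulAction.stabilizer Co0 x) ≃* Cfsg.PSU 3 F 5) := by
  obtain ⟨g, gv, gw⟩ := LeechPair.exists_pair_move v w pV pY hv hw hvw pair_facts.1
    pair_facts.2.1 pair_facts.2.2
  have hm := @mem_pts352 v w
  refine ⟨?_, ?_, ?_, ?_⟩
  · rw [← ncard_352, ← Set.ncard_image_of_injective (pts352 v w)
      (neg_injective.comp (MulAction.injective g))]
    congr 1
    ext y
    constructor
    · rintro ⟨x, hx, rfl⟩; exact (hm gv gw).mp hx
    · intro hy
      refine ⟨g⁻¹ • (-y), (hm gv gw).mpr ?_, ?_⟩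
      · rw [smul_inv_smul, neg_neg]; exact hy
      · simp
  · rintro x ⟨a, b, c⟩
    have hww : dotInt w.1 w.1 = 48 := by
      rw [← hw]; exact Finset.sum_congr rfl fun p _ => (sq (w.1 p)).symm
    have e : ∀ u : GolayPt → ℤ, dotInt u (-w - x : leechLattice).1 = -dotInt u w.1 - dotInt u x.1 :=
      fun u => by simp [dotInt, Finset.sum_neg_distrib, Finset.sum_sub_distrib, mul_sub]
    refine ⟨?_, ?_, ?_⟩
    · have h' : sqNorm (-w - x : leechLattice).1 = sqNorm w.1 + sqNorm x.1 + 2 * dotInt w.1 x.1 := by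
        rw [← sqNorm_add_eq]
        refine Finset.sum_congr rfl fun p _ => ?_
        simp only [AddSubgroup.coe_sub, AddSubgroup.coe_neg, Pi.sub_apply, Pi.neg_apply,
          Pi.add_apply]
        ring
      rw [h', hw, a, c]; norm_num
    · rw [e, hvw, b]; norm_num
    · rw [e, hww, c]; norm_num
  · intro x hx x' hx'
    obtain ⟨a, ha, hax⟩ := reach352 ((hm gv gw).mp hx)
    obtain ⟨b, hb, hbx⟩ := reach352 ((hm gv gw).mp hx')
    obtain ⟨a1, a2⟩ := mem_hs.mp ha
    obtain ⟨b1, b2⟩ := mem_hs.mp hb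
    have hk : b * a⁻¹ ∈ hs := mul_mem hb (inv_mem ha)
    obtain ⟨k1, -⟩ := mem_hs.mp hk
    have k2 : (b * a⁻¹) • pY = pY := hs_smul_pY hk
    refine ⟨g⁻¹ * (b * a⁻¹) * g, by rw [mul_smul, mul_smul, gv, k1, inv_smul_eq_iff, gv],
      by rw [mul_smul, mul_smul, gw, k2, inv_smul_eq_iff, gw], ?_⟩
    rw [mul_smul, mul_smul, inv_smul_eq_iff, mul_smul]
    have e : a⁻¹ • (g • x) = -pR := by
      rw [inv_smul_eq_iff, co0_neg, hax, neg_neg]
    rw [e, co0_neg, hbx, neg_neg]
  · intro F _ _ hF x hx
    obtain ⟨a, ha, hax⟩ := reach352 ((hm gv gw).mp hx)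
    obtain ⟨e⟩ := nonempty_iso (F := F) hF
    have k1 : (g⁻¹ * a) • pV = v := by
      rw [mul_smul, (mem_hs.mp ha).1, inv_smul_eq_iff, gv]
    have k2 : (g⁻¹ * a) • pY = w := by rw [mul_smul, hs_smul_pY ha, inv_smul_eq_iff, gw]
    have k3 : (g⁻¹ * a) • pR = -x := by
      rw [mul_smul, hax, inv_smul_eq_iff, co0_neg]
    set q := g⁻¹ * a with hq
    have k4 : q • pX = -w - v := by
      rw [show pX = -pY - pV from by rw [pY_eq]; abel, co0_sub, co0_neg, k1, k2]
    have hS : MulAction.stabilizer Co0 v ⊓ MulAction.stabilizer Co0 w ⊓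
        MulAction.stabilizer Co0 x = S0.map (MulAut.conj q).toMonoidHom := by
      ext k
      rw [Subgroup.mem_map_equiv, mem_S0]
      simp only [Subgroup.mem_inf, MulAction.mem_stabilizer_iff, MulAut.conj_symm_apply,
        mul_smul, inv_smul_eq_iff, k1, k3, k4]
      constructor
      · rintro ⟨⟨h1, h2⟩, h3⟩
        exact ⟨h1, by rw [co0_sub, co0_neg, h1, h2], by rw [co0_neg, h3]⟩
      · rintro ⟨h1, h2, h3⟩
        rw [co0_sub, co0_neg, h1, sub_left_inj, neg_inj] at h2
        rw [co0_neg, neg_inj] at h3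
        exact ⟨⟨h1, h2⟩, h3⟩
    exact ⟨(MulEquiv.subgroupCongr hS).trans
      ((S0.equivMapOfInjective _ (MulAut.conj _).injective).symm.trans e)⟩

end Cfsg.Agent.HSUnitary
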