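import Cfsg.Agent.Sporadic.LeechWord

/-! An involution fixing the standard pair of type 3 vectors, without fixed points on its 100 vectors. -/

set_option autoImplicit false
set_option linter.style.longLine false

namespace Cfsg.Agent.LeechHS

open Cfsg.Agent.LeechWord

/-- The word of the involution. -/
def wordInvol : List St := [
    .perm [0, 20, 8, 11, 5, 21, 10, 17, 18, 6, 16, 4, 9, 23, 3, 14, 2, 12, 1, 7, 22, 15, 19, 13],
    .xi,
    .perm [18, 2, 3, 1, 10, 15, 9, 11, 17, 12, 21, 13, 16, 22, 6, 14, 23, 4, 8, 5, 7, 20, 19, 0],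
    .xi,
    .perm [0, 12, 21, 5, 14, 13, 8, 17, 3, 11, 2, 1, 22, 10, 19, 6, 20, 7, 23, 18, 9, 4, 16, 15],
    .xi,
    .perm [18, 2, 3, 1, 10, 15, 9, 11, 17, 12, 21, 13, 16, 22, 6, 14, 23, 4, 8, 5, 7, 20, 19, 0],
    .xi,
    .perm [0, 12, 21, 5, 14, 13, 8, 17, 3, 11, 2, 1, 22, 10, 19, 6, 20, 7, 23, 18, 9, 4, 16, 15],
    .xi,
    .perm [18, 2, 3, 1, 10, 15, 9, 11, 17, 12, 21, 13, 16, 22, 6, 14, 23, 4, 8, 5, 7, 20, 19, 0],
    .xi,
    .perm [0, 23, 20, 19, 1, 14, 11, 18, 21, 22, 8, 5, 7, 15, 6, 4, 2, 17, 3, 16, 12, 13, 9, 10]]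

end Cfsg.Agent.LeechHS
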