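/-
An involution fixing a pair of type 3 vectors and none of its 100 vectors.
-/
import Cfsg.Agent.Sporadic.LeechHS
import Cfsg.Agent.Sporadic.LeechHSInvolData

set_option autoImplicit false

namespace Cfsg.Agent.LeechHS

open scoped Pointwise
open Cfsg Cfsg.Agent.Leech Cfsg.Agent.LeechWord Cfsg.Agent.LeechPair
open Cfsg.Agent.M24Geo (idx pt ofMask)

set_option maxRecDepth 20000 in
theorem invol_ok : wordInvol.all St.ok = true ∧
    ([(listU, listU), (listA, listA)].all fun e => actW wordInvol e.1 == e.2) = true ∧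
    (genVecs.all fun x => actW (wordInvol ++ wordInvol) (toL x) == toL x) = true ∧
    (actW wordInvol listX == listX) = false ∧
    ((((M24Geo.wordList 8).filter fun k => k.testBit 0 && k.testBit 1).all fun k =>
      !(actW wordInvol (toL (evenForm (ofMask k) ∅)) == toL (evenForm (ofMask k) ∅))) = true) ∧
    ((List.range' 2 22).all fun i =>
      !(actW wordInvol (toL (oddForm ∅ (pt i))) == toL (oddForm ∅ (pt i)))) = true := by
  decide +kernel

theorem gen_mem : ∀ x ∈ genVecs, x ∈ leechLattice := fun x hx => by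
  have h := List.all_eq_true.mp genVecs_check x hx
  rw [Bool.and_eq_true] at h
  exact mem_of_inLeechB h.1

theorem appW_append : ∀ (A B : List St) (x : GolayPt → ℤ), appW (A ++ B) x = appW B (appW A x)
  | [], _, _ => rfl
  | _ :: A, B, x => appW_append A B _

/-- An involution fixing the standard pair and none of its 100 vectors. -/
theorem exists_invol0 : ∃ g : Co0, g • U5 = U5 ∧ g • W0 = W0 ∧ orderOf g = 2 ∧
    ∀ x ∈ pts U5 W0, g • x ≠ x := by
  obtain ⟨hW, hfix, hgen, hX, hE, hO⟩ := invol_ok
  obtain ⟨g, hg⟩ := exists_word hW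
  have hl : ∀ l : List ℤ, ∀ y : leechLattice, y.1 = ofL l →
      (g • y).1 = ofL (actW wordInvol l) := fun l y hy => by rw [hg, hy, appW_ofL]
  simp only [List.all_cons, List.all_nil, Bool.and_true, Bool.and_eq_true, beq_iff_eq] at hfix
  have hU : g • U5 = U5 := Subtype.ext (by
    rw [hl listU U5 listU_eq, hfix.1]; exact listU_eq.symm)
  have hA : g • A0 = A0 := Subtype.ext (by rw [hl listA A0 rfl, hfix.2]; rfl)
  have hne : ∀ x : leechLattice, ∀ f : GolayPt → ℤ, x.1 = f →
      (!(actW wordInvol (toL f) == toL f)) = true → g • x ≠ x := by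
    intro x f hf h e
    rw [Bool.not_eq_true', beq_eq_false_iff_ne] at h
    refine h ?_
    have e1 := congrArg Subtype.val e
    rw [hl (toL f) x (by rw [ofL_toL, hf]), hf] at e1
    have e2 := congrArg toL e1
    have idem : ∀ W : List St, ∀ x : GolayPt → ℤ, toL (ofL (actW W (toL x))) = actW W (toL x) := by
      intro W
      induction W with
      | nil => intro x; rw [actW, ofL_toL]
      | cons s W ih => intro x; rw [actW]; exact ih _
    rwa [idem] at e2
  have hfp : ∀ x ∈ pts U5 W0, g • x ≠ x := by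
    intro x hx
    rcases pts0_cases hx with rfl | ⟨o, ho, hn, h1, he⟩ | ⟨j, hn, h1, he⟩
    · intro e
      have e1 := congrArg Subtype.val e
      rw [hl listX X0 rfl] at e1
      refine beq_eq_false_iff_ne.mp hX ?_
      have e2 := congrArg toL e1
      rw [show toL (ofL (actW wordInvol listX)) = actW wordInvol listX by decide +kernel,
        show toL X0.1 = listX by decide +kernel] at e2
      exact e2
    · obtain ⟨k, hk, rfl⟩ := M24Geo.mem_wordsOfWeight_iff.mp ho
      refine hne x _ he (List.all_eq_true.mp hE k (List.mem_filter.mpr ⟨M24Geo.mem_wordList hk, ?_⟩))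
      have e0 : idx (pt 0) = 0 := rfl
      have e1 : idx (pt 1) = 1 := M24Geo.idx_pt 1 (by norm_num)
      simp only [none_eq, M24Geo.mem_ofMask, e0, e1] at hn h1
      simp [hn, h1]
    · refine hne x _ he ?_
      have hi : idx j ∈ List.range' 2 22 := by
        have h24 := M24Geo.idx_lt j
        have : 2 ≤ idx j := by
          by_contra hlt
          have hh : ∀ i < 2, pt i = none ∨ pt i = pt 1 := by decide +kernel
          rcases hh (idx j) (by omega) with e | e <;> rw [M24Geo.pt_idx] at e
          exacts [hn e, h1 e]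
        rw [List.mem_range'_1]; omega
      have := List.all_eq_true.mp hO _ hi
      rwa [M24Geo.pt_idx] at this
  refine ⟨g, hU, by rw [W0, co0_sub, hA, hU], ?_, hfp⟩
  refine orderOf_eq_prime ?_ ?_
  · rw [sq]
    let K : AddSubgroup (GolayPt → ℤ) :=
      { carrier := {y | ∃ v : leechLattice, v.1 = y ∧ (g * g) • v = v}
        zero_mem' := ⟨0, rfl, by
          have := co0_add (g * g) 0 0
          rw [add_zero] at this
          simpa using this⟩
        add_mem' := by
          rintro a b ⟨v, rfl, hv⟩ ⟨w, rfl, hw⟩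
          exact ⟨v + w, rfl, by rw [co0_add, hv, hw]⟩
        neg_mem' := by
          rintro a ⟨v, rfl, hv⟩
          exact ⟨-v, rfl, by rw [co0_neg, hv]⟩ }
    have hK : leechLattice ≤ K := leechLattice_le_of_gens fun x hx => by
      refine ⟨⟨x, gen_mem x hx⟩, rfl, Subtype.ext ?_⟩
      rw [mul_smul, hg, hg, ← appW_append]
      show appW _ x = x
      conv_lhs => rw [← ofL_toL x, appW_ofL]
      rw [show actW (wordInvol ++ wordInvol) (toL x) = toL x by
        simpa using List.all_eq_true.mp hgen x hx, ofL_toL]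
    refine Subtype.ext (Equiv.ext fun v => ?_)
    obtain ⟨w, hw, hgw⟩ := hK v.2
    obtain rfl : w = v := Subtype.ext hw
    exact hgw
  · rintro rfl
    exact hfp X0 X0_mem (one_smul _ _)

/-- An involution fixing a pair and none of its 100 vectors. -/
theorem exists_invol {v w : leechLattice} (hv : sqNorm (v : GolayPt → ℤ) = 48)
    (hw : sqNorm (w : GolayPt → ℤ) = 48)
    (hvw : dotInt (v : GolayPt → ℤ) (w : GolayPt → ℤ) = -32) :
    ∃ g : Co0, g • v = v ∧ g • w = w ∧ orderOf g = 2 ∧ ∀ x ∈ pts v w, g • x ≠ x := by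
  obtain ⟨k, k1, k2⟩ := exists_pair_move v w U5 W0 hv hw hvw pair_mem.1 pair_mem.2.1 pair_mem.2.2
  obtain ⟨g, g1, g2, g3, g4⟩ := exists_invol0
  refine ⟨k⁻¹ * g * k, by rw [mul_smul, mul_smul, k1, g1, ← k1, inv_smul_smul],
    by rw [mul_smul, mul_smul, k2, g2, ← k2, inv_smul_smul], ?_, fun x hx e => ?_⟩
  · rw [show k⁻¹ * g * k = MulAut.conj k⁻¹ g by simp [MulAut.conj_apply],
      MulEquiv.orderOf_eq, g3]
  · refine g4 (k • x) (by rw [← k1, ← k2, mem_pts_smul]; exact hx) ?_
    rw [mul_smul, mul_smul, inv_smul_eq_iff] at e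
    exact e

end Cfsg.Agent.LeechHS
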