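/-
Classes modulo 2 of short vectors in an even lattice without roots in rank 24
(first two steps of Conway's characterisation of the Leech lattice).
-/
import Mathlib

set_option autoImplicit false

namespace Cfsg.Agent.EvenLat45

open Matrix

variable (B : Matrix (Fin 24) (Fin 24) ℤ)

/-- The quadratic form. -/
def q (x : Fin 24 → ℤ) : ℤ := x ⬝ᵥ (B *ᵥ x)

/-- The bilinear form. -/
def b (x y : Fin 24 → ℤ) : ℤ := x ⬝ᵥ (B *ᵥ y)

variable {B}

theorem b_comm (hs : B.IsSymm) (x y : Fin 24 → ℤ) : b B x y = b B y x := by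
  unfold b
  rw [dotProduct_mulVec, ← mulVec_transpose, hs.eq, dotProduct_comm]

theorem q_add (hs : B.IsSymm) (x y : Fin 24 → ℤ) : q B (x + y) = q B x + 2 * b B x y + q B y := by
  have := b_comm hs x y
  simp only [q, b, mulVec_add, add_dotProduct, dotProduct_add] at this ⊢
  omega

theorem q_sub (hs : B.IsSymm) (x y : Fin 24 → ℤ) : q B (x - y) = q B x - 2 * b B x y + q B y := by
  have := b_comm hs x y
  simp only [q, b, mulVec_sub, sub_dotProduct, dotProduct_sub] at this ⊢
  omega

theorem q_two_mul (z : Fin 24 → ℤ) : q B ((2 : ℤ) • z) = 4 * q B z := by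
  simp only [q, mulVec_smul, smul_dotProduct, dotProduct_smul, smul_eq_mul]
  ring

theorem q_neg (x : Fin 24 → ℤ) : q B (-x) = q B x := by
  simp [q, mulVec_neg]

variable (hs : B.IsSymm) (hpos : ∀ x : Fin 24 → ℤ, x ≠ 0 → 0 < x ⬝ᵥ (B *ᵥ x))
  (heven : ∀ x : Fin 24 → ℤ, (2 : ℤ) ∣ x ⬝ᵥ (B *ᵥ x))
  (h2 : ∀ x : Fin 24 → ℤ, x ⬝ᵥ (B *ᵥ x) ≠ 2)

include hpos heven h2 in
theorem four_le {x : Fin 24 → ℤ} (hx : x ≠ 0) : 4 ≤ q B x := by
  have h1 := hpos x hx
  have h3 := heven x
  have h4 := h2 x
  show 4 ≤ x ⬝ᵥ (B *ᵥ x)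
  omega

include hs hpos heven h2 in
theorem short_congr {x y : Fin 24 → ℤ} (hx : q B x ≤ 8) (hy : q B y ≤ 8)
    (hc : ∀ i, (2 : ℤ) ∣ (x - y) i) :
    y = x ∨ y = -x ∨ (q B x = 8 ∧ q B y = 8 ∧ b B x y = 0) := by
  by_cases h1 : y = x
  · exact Or.inl h1
  by_cases h3 : y = -x
  · exact Or.inr (Or.inl h3)
  choose z hz using hc
  have hsub : x - y = (2 : ℤ) • z := funext fun i => by simp [hz i]
  have hadd : x + y = (2 : ℤ) • (z + y) := funext fun i => by
    have := hz i
    simp only [Pi.sub_apply] at this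
    simp only [Pi.add_apply, Pi.smul_apply, smul_eq_mul]
    omega
  have hz0 : z ≠ 0 := by
    intro h
    rw [h, smul_zero, sub_eq_zero] at hsub
    exact h1 hsub.symm
  have hw0 : z + y ≠ 0 := by
    intro h
    rw [h, smul_zero] at hadd
    exact h3 (eq_neg_of_add_eq_zero_right hadd)
  have e1 := q_sub hs x y
  have e2 := q_add hs x y
  rw [hsub, q_two_mul] at e1
  rw [hadd, q_two_mul] at e2
  have := four_le hpos heven h2 hz0
  have := four_le hpos heven h2 hw0
  exact Or.inr (Or.inr ⟨by omega, by omega, by omega⟩)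

/-- Reduction modulo 2. -/
def red (x : Fin 24 → ℤ) : Fin 24 → ZMod 2 := fun i => (x i : ZMod 2)

theorem red_eq_iff (x y : Fin 24 → ℤ) : red x = red y ↔ ∀ i, (2 : ℤ) ∣ (x - y) i := by
  simp only [funext_iff, red, Pi.sub_apply]
  refine forall_congr' fun i => ?_
  rw [ZMod.intCast_eq_intCast_iff_dvd_sub]
  rw [show ((2 : ℕ) : ℤ) = 2 from rfl, ← dvd_neg, neg_sub]

/-- First nonzero coordinate positive. -/
def Positive (x : Fin 24 → ℤ) : Prop := ∃ i, 0 < x i ∧ ∀ j < i, x j = 0

theorem positive_or_neg {x : Fin 24 → ℤ} (hx : x ≠ 0) : Positive x ∨ Positive (-x) := by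
  obtain ⟨i, hi, hmin⟩ := Finset.exists_minimalFor id (Finset.univ.filter fun i => x i ≠ 0) (by
    obtain ⟨i, hi⟩ := Function.ne_iff.1 hx
    exact ⟨i, by simpa using hi⟩)
  have hlt : ∀ j < i, x j = 0 := fun j hj => by
    by_contra h
    exact absurd (hmin (j := j) (by simpa using h) hj.le) (not_le.2 hj)
  simp only [Finset.mem_filter, Finset.mem_univ, true_and] at hi
  rcases lt_or_gt_of_ne hi with h | h
  · exact Or.inr ⟨i, by simpa using h, fun j hj => by simp [hlt j hj]⟩
  · exact Or.inl ⟨i, h, hlt⟩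

theorem not_positive_both {x : Fin 24 → ℤ} (h : Positive x) : ¬ Positive (-x) := by
  rintro ⟨j, hj, hj'⟩
  obtain ⟨i, hi, hi'⟩ := h
  simp only [Pi.neg_apply] at hj hj'
  rcases lt_trichotomy i j with h | rfl | h
  · have := hj' i h; omega
  · omega
  · have := hi' j h; omega

include hs hpos heven h2 in
theorem fibre_le {n : ℤ} (hn : n ≤ 8) (hfin : {x : Fin 24 → ℤ | q B x = n}.Finite) (hn0 : n ≠ 0)
    (r : Fin 24 → ZMod 2) :
    (hfin.toFinset.filter fun x => red x = r).card ≤ if n = 8 then 48 else 2 := by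
  classical
  set F := hfin.toFinset.filter fun x => red x = r with hF
  have hmem : ∀ x ∈ F, q B x = n ∧ red x = r := fun x hx => by simpa [hF] using hx
  let P := F.filter Positive
  have hsub : F ⊆ P ∪ P.image (fun x => -x) := by
    intro x hx
    obtain ⟨hxq, hxr⟩ := hmem x hx
    have hx0 : x ≠ 0 := fun h => hn0 (by rw [← hxq, h]; simp [q])
    rcases positive_or_neg hx0 with h | h
    · exact Finset.mem_union_left _ (Finset.mem_filter.2 ⟨hx, h⟩)
    · refine Finset.mem_union_right _ (Finset.mem_image.2 ⟨-x, Finset.mem_filter.2 ⟨?_, h⟩, neg_neg x⟩)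
      simp only [hF, Finset.mem_filter, Set.Finite.mem_toFinset]
      refine ⟨(q_neg x).trans hxq, ?_⟩
      rw [← hxr, red_eq_iff]
      intro i
      simp only [Pi.sub_apply, Pi.neg_apply]
      omega
  have horth : ∀ x ∈ P, ∀ y ∈ P, x ≠ y → n = 8 ∧ b B x y = 0 := by
    intro x hx y hy hxy
    obtain ⟨hxq, hxr⟩ := hmem x (Finset.mem_filter.1 hx).1
    obtain ⟨hyq, hyr⟩ := hmem y (Finset.mem_filter.1 hy).1
    rcases short_congr hs hpos heven h2 (by omega) (by omega)
      ((red_eq_iff x y).1 (hxr.trans hyr.symm)) with h | h | ⟨h, -, h'⟩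
    · exact absurd h.symm hxy
    · exact absurd (h ▸ (Finset.mem_filter.1 hy).2)
        (not_positive_both (Finset.mem_filter.1 hx).2)
    · exact ⟨hxq ▸ h, h'⟩
  have hle : F.card ≤ 2 * P.card := by
    refine le_trans (Finset.card_le_card hsub) (le_trans (Finset.card_union_le _ _) ?_)
    have := Finset.card_image_le (s := P) (f := fun x => -x)
    omega
  split_ifs with h8
  · have hli : LinearIndependent ℤ (fun x : P => (x : Fin 24 → ℤ)) := by
      rw [Fintype.linearIndependent_iff]
      intro g hg x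
      have h := congrArg (fun v => b B (x : Fin 24 → ℤ) v) hg
      simp only [b, mulVec_sum, mulVec_smul, dotProduct_sum, dotProduct_smul, mulVec_zero,
        dotProduct_zero] at h
      rw [Finset.sum_eq_single x] at h
      · have hxq := (hmem x (Finset.mem_filter.1 x.2).1).1
        have : g x * n = 0 := by rw [← hxq]; simpa [q] using h
        exact (mul_eq_zero.1 this).resolve_right hn0
      · intro y _ hyx
        have := (horth x x.2 y y.2 (fun h => hyx (Subtype.ext h.symm))).2
        simp only [b] at this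
        simp [this]
      · simp
    have := hli.fintype_card_le_finrank
    rw [Fintype.card_coe, Module.finrank_fin_fun] at this
    omega
  · have : P.card ≤ 1 := Finset.card_le_one.2 fun x hx y hy => by
      by_contra hxy
      exact h8 (horth x hx y hy hxy).1
    omega

include hs hpos heven h2 in
theorem ncard_class (h4 : {x : Fin 24 → ℤ | q B x = 4}.ncard = 196560)
    (h6 : {x : Fin 24 → ℤ | q B x = 6}.ncard = 16773120)
    (h8 : {x : Fin 24 → ℤ | q B x = 8}.ncard = 398034000) (x : Fin 24 → ℤ) (hx : q B x = 8) :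
    {y : Fin 24 → ℤ | q B y = 8 ∧ ∀ i, (2 : ℤ) ∣ (x - y) i}.ncard = 48 := by
  classical
  have f4 := Set.finite_of_ncard_ne_zero (s := {x : Fin 24 → ℤ | q B x = 4}) (by omega)
  have f6 := Set.finite_of_ncard_ne_zero (s := {x : Fin 24 → ℤ | q B x = 6}) (by omega)
  have f8 := Set.finite_of_ncard_ne_zero (s := {x : Fin 24 → ℤ | q B x = 8}) (by omega)
  rw [Set.ncard_eq_toFinset_card _ f4] at h4
  rw [Set.ncard_eq_toFinset_card _ f6] at h6
  rw [Set.ncard_eq_toFinset_card _ f8] at h8
  have c4 : 196560 ≤ 2 * (f4.toFinset.image red).card := h4 ▸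
    Finset.card_le_mul_card_image _ 2 fun r _ => by
      simpa using fibre_le hs hpos heven h2 (by norm_num) f4 (by norm_num) r
  have c6 : 16773120 ≤ 2 * (f6.toFinset.image red).card := h6 ▸
    Finset.card_le_mul_card_image _ 2 fun r _ => by
      simpa using fibre_le hs hpos heven h2 (by norm_num) f6 (by norm_num) r
  have key : ∀ {u v : Fin 24 → ℤ}, q B u ≤ 8 → q B v ≤ 8 → red u = red v → q B u = q B v := by
    intro u v hu hv h
    rcases short_congr hs hpos heven h2 hu hv ((red_eq_iff u v).1 h) with h | h | ⟨h, h', -⟩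
    · rw [h]
    · rw [h, q_neg]
    · rw [h, h']
  have d46 : Disjoint (f4.toFinset.image red) (f6.toFinset.image red) := by
    simp only [Finset.disjoint_left, Finset.mem_image, Set.Finite.mem_toFinset]
    rintro _ ⟨u, hu, rfl⟩ ⟨v, hv, hvu⟩
    simp only [Set.mem_ofPred_eq] at hu hv
    have := key (u := v) (v := u) (by omega) (by omega) hvu
    omega
  have d8 : Disjoint (f4.toFinset.image red ∪ f6.toFinset.image red) (f8.toFinset.image red) := by
    simp only [Finset.disjoint_left, Finset.mem_union, Finset.mem_image, Set.Finite.mem_toFinset]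
    rintro _ (⟨u, hu, rfl⟩ | ⟨u, hu, rfl⟩) ⟨v, hv, hvu⟩ <;>
    · simp only [Set.mem_ofPred_eq] at hu hv
      have := key (u := v) (v := u) (by omega) (by omega) hvu
      omega
  have d0 : red 0 ∉ f4.toFinset.image red ∪ f6.toFinset.image red ∪ f8.toFinset.image red := by
    simp only [Finset.mem_union, Finset.mem_image, Set.Finite.mem_toFinset]
    have hq0 : q B 0 = 0 := by simp [q]
    rintro ((⟨u, hu, h⟩ | ⟨u, hu, h⟩) | ⟨u, hu, h⟩) <;>
    · simp only [Set.mem_ofPred_eq] at hu
      have := key (by omega) (by omega) h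
      omega
  have htot := Finset.card_le_univ
    (insert (red 0) (f4.toFinset.image red ∪ f6.toFinset.image red ∪ f8.toFinset.image red))
  rw [Finset.card_insert_of_notMem d0, Finset.card_union_of_disjoint d8,
    Finset.card_union_of_disjoint d46, Fintype.card_fun, ZMod.card, Fintype.card_fin] at htot
  norm_num at htot
  have bound : ∀ r, (f8.toFinset.filter fun z => red z = r).card ≤ 48 := fun r => by
    simpa using fibre_le hs hpos heven h2 le_rfl f8 (by norm_num) r
  have hsum := Finset.card_eq_sum_card_image red f8.toFinset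
  have hxmem : red x ∈ f8.toFinset.image red := Finset.mem_image_of_mem red (by simpa using hx)
  rw [← Finset.add_sum_erase _ _ hxmem] at hsum
  have hrest : ∑ r ∈ (f8.toFinset.image red).erase (red x),
      (f8.toFinset.filter fun z => red z = r).card ≤ ((f8.toFinset.image red).erase (red x)).card * 48 :=
    le_trans (Finset.sum_le_sum fun r _ => bound r) (le_of_eq (by rw [Finset.sum_const, smul_eq_mul]))
  rw [Finset.card_erase_of_mem hxmem] at hrest
  have hb := bound (red x)
  have hfib : (f8.toFinset.filter fun z => red z = red x).card = 48 := by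
    omega
  rw [← hfib, ← Set.ncard_coe_finset]
  congr 1
  ext y
  simp only [Finset.coe_filter, Set.Finite.mem_toFinset, Set.mem_ofPred_eq]
  rw [eq_comm (a := red y), red_eq_iff]

end Cfsg.Agent.EvenLat45
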