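/-
The hexacode over a field with four elements and its monomial automorphism group.
-/
import Mathlib
import Cfsg.Prelude.Def_SporadicCombinatorics

set_option autoImplicit false
set_option linter.deprecated false
set_option linter.unusedVariables false
set_option linter.unusedSectionVars false

namespace Cfsg.Agent.Hexa45

open Cfsg

variable {F : Type*} [Field F] (ω : F)

/-- The elements `0, 1, ω, ω + 1`. -/
def el : Fin 4 → F := ![0, 1, ω, ω + 1]

/-- Addition on indices. -/
def addI (a b : Fin 4) : Fin 4 :=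
  (![![0, 1, 2, 3], ![1, 0, 3, 2], ![2, 3, 0, 1], ![3, 2, 1, 0]] : Fin 4 → Fin 4 → Fin 4) a b

/-- Multiplication on indices. -/
def mulI (a b : Fin 4) : Fin 4 :=
  (![![0, 0, 0, 0], ![0, 1, 2, 3], ![0, 2, 3, 1], ![0, 3, 1, 2]] : Fin 4 → Fin 4 → Fin 4) a b

/-- The standing hypotheses. -/
structure Hyp [Fintype F] : Prop where
  card : Fintype.card F = 4
  root : ω ^ 2 + ω + 1 = 0

variable {ω} [Fintype F]

theorem Hyp.two (h : Hyp ω) : (2 : F) = 0 := by
  have h4 : ((Fintype.card F : ℕ) : F) = 0 := Nat.cast_card_eq_zero F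
  rw [h.card] at h4
  have : (2 : F) * 2 = 0 := by exact_mod_cast h4
  simpa using this

theorem Hyp.el_add (h : Hyp ω) : ∀ a b, el ω (addI a b) = el ω a + el ω b := by
  have h2 := h.two
  intro a b
  fin_cases a <;> fin_cases b <;> simp [el, addI] <;> grind

theorem Hyp.el_mul (h : Hyp ω) : ∀ a b, el ω (mulI a b) = el ω a * el ω b := by
  have h2 := h.two
  have hr := h.root
  intro a b
  fin_cases a <;> fin_cases b <;> simp [el, mulI] <;> grind

theorem Hyp.el_bijective (h : Hyp ω) : Function.Bijective (el ω) := by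
  rw [Fintype.bijective_iff_injective_and_card]
  refine ⟨fun a b hab => ?_, by rw [Fintype.card_fin, h.card]⟩
  by_contra hne
  have h2 := h.two
  have hr := h.root
  fin_cases a <;> fin_cases b <;> simp [el] at hne hab <;> grind

theorem Hyp.el_zero (_h : Hyp ω) : el ω 0 = 0 := rfl

theorem Hyp.el_eq_zero (h : Hyp ω) {a : Fin 4} : el ω a = 0 ↔ a = 0 :=
  ⟨fun e => h.el_bijective.1 (e.trans h.el_zero.symm), fun e => e ▸ h.el_zero⟩

/-- A systematic basis, on indices. -/
def gI : Fin 3 → Fin 6 → Fin 4 := ![![1, 0, 0, 1, 3, 2], ![0, 1, 0, 1, 2, 3], ![0, 0, 1, 1, 1, 1]]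

/-- The index vector with given first three entries. -/
def linI (a : Fin 3 → Fin 4) : Fin 6 → Fin 4 := fun i =>
  addI (addI (mulI (a 0) (gI 0 i)) (mulI (a 1) (gI 1 i))) (mulI (a 2) (gI 2 i))

/-- A word from its indices. -/
def wd (w : Fin 6 → Fin 4) : Fin 6 → F := fun i => el ω (w i)

/-- The defining generators, on indices. -/
def defI : Fin 3 → Fin 6 → Fin 4 :=
  ![![2, 3, 3, 2, 3, 2], ![3, 2, 2, 3, 3, 2], ![3, 2, 3, 2, 2, 3]]

theorem Hyp.wd_linI (h : Hyp ω) (a : Fin 3 → Fin 4) :
    wd (ω := ω) (linI a) = el ω (a 0) • wd (ω := ω) (gI 0) + el ω (a 1) • wd (ω := ω) (gI 1) +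
      el ω (a 2) • wd (ω := ω) (gI 2) := by
  funext i
  simp only [wd, linI, h.el_add, h.el_mul, Pi.add_apply, Pi.smul_apply, smul_eq_mul]

theorem defI_eq : ∀ k i, defI k i = linI (fun j => defI k (j.castLE (by norm_num))) i := by
  decide

theorem gI_eq : ∀ k i,
    gI k i = addI (addI (mulI ((![![2, 3, 0], ![3, 3, 1], ![0, 1, 1]] : Fin 3 → Fin 3 → Fin 4) k 0)
      (defI 0 i)) (mulI ((![![2, 3, 0], ![3, 3, 1], ![0, 1, 1]] : Fin 3 → Fin 3 → Fin 4) k 1)
      (defI 1 i))) (mulI ((![![2, 3, 0], ![3, 3, 1], ![0, 1, 1]] : Fin 3 → Fin 3 → Fin 4) k 2)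
      (defI 2 i)) := by
  decide

theorem Hyp.hexacode_eq (h : Hyp ω) :
    hexacode F ω = Submodule.span F (Set.range fun k => wd (ω := ω) (gI k)) := by
  have h2 := h.two
  have hw : ω ^ 2 = ω + 1 := by linear_combination h.root - (ω + 1) * h2
  have hdef : ∀ k, (![![ω, ω ^ 2, ω ^ 2, ω, ω ^ 2, ω], ![ω ^ 2, ω, ω, ω ^ 2, ω ^ 2, ω],
      ![ω ^ 2, ω, ω ^ 2, ω, ω, ω ^ 2]] : Fin 3 → Fin 6 → F) k = wd (ω := ω) (defI k) := by
    intro k
    funext i
    fin_cases k <;> fin_cases i <;> simp [wd, el, defI, hw]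
  apply le_antisymm
  · rw [hexacode, Submodule.span_le]
    have key : ∀ k, wd (ω := ω) (defI k) ∈
        Submodule.span F (Set.range fun k => wd (ω := ω) (gI k)) := by
      intro k
      have e : defI k = linI (fun j => defI k (j.castLE (by norm_num))) := funext (defI_eq k)
      rw [e, h.wd_linI]
      refine Submodule.add_mem _ (Submodule.add_mem _ ?_ ?_) ?_ <;>
        exact Submodule.smul_mem _ _ (Submodule.subset_span ⟨_, rfl⟩)
    intro x hx
    rcases hx with rfl | rfl | rfl
    · have := key 0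
      rw [← hdef 0] at this
      exact this
    · have := key 1
      rw [← hdef 1] at this
      exact this
    · have := key 2
      rw [← hdef 2] at this
      exact this
  · rw [Submodule.span_le]
    rintro _ ⟨k, rfl⟩
    have key : ∀ k, wd (ω := ω) (defI k) ∈ hexacode F ω := fun k => by
      rw [← hdef k]
      refine Submodule.subset_span ?_
      fin_cases k <;> simp
    show wd (ω := ω) (gI k) ∈ hexacode F ω
    have e : wd (ω := ω) (gI k) =
        el ω ((![![2, 3, 0], ![3, 3, 1], ![0, 1, 1]] : Fin 3 → Fin 3 → Fin 4) k 0) •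
          wd (ω := ω) (defI 0) +
        el ω ((![![2, 3, 0], ![3, 3, 1], ![0, 1, 1]] : Fin 3 → Fin 3 → Fin 4) k 1) •
          wd (ω := ω) (defI 1) +
        el ω ((![![2, 3, 0], ![3, 3, 1], ![0, 1, 1]] : Fin 3 → Fin 3 → Fin 4) k 2) •
          wd (ω := ω) (defI 2) := by
      funext i
      simp only [wd, Pi.add_apply, Pi.smul_apply, smul_eq_mul, ← h.el_mul, ← h.el_add]
      rw [← gI_eq]
    rw [e]
    exact Submodule.add_mem _ (Submodule.add_mem _ (Submodule.smul_mem _ _ (key 0))
      (Submodule.smul_mem _ _ (key 1))) (Submodule.smul_mem _ _ (key 2))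

theorem Hyp.exists_coeff (h : Hyp ω) {x : Fin 6 → F} :
    x ∈ hexacode F ω ↔ ∃ a : Fin 3 → Fin 4, wd (ω := ω) (linI a) = x := by
  rw [h.hexacode_eq, Submodule.mem_span_range_iff_exists_fun]
  constructor
  · rintro ⟨c, rfl⟩
    choose a ha using fun k => h.el_bijective.2 (c k)
    refine ⟨a, ?_⟩
    rw [h.wd_linI, Fin.sum_univ_three, ha, ha, ha]
  · rintro ⟨a, rfl⟩
    exact ⟨fun k => el ω (a k), by rw [h.wd_linI, Fin.sum_univ_three]⟩

theorem linI_first : ∀ a : Fin 3 → Fin 4, ∀ j : Fin 3, linI a (j.castLE (by norm_num)) = a j := by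
  decide +kernel

/-- The three digits of a number below 64. -/
def dig (k : Fin 64) : Fin 3 → Fin 4 :=
  ![Fin.ofNat 4 k.val, Fin.ofNat 4 (k.val / 4), Fin.ofNat 4 (k.val / 16)]

theorem dig_bijective : Function.Bijective dig := by
  rw [Fintype.bijective_iff_injective_and_card]
  refine ⟨?_, by simp⟩
  have : ∀ k : Fin 64, k.val = (dig k 0).val + 4 * (dig k 1).val + 16 * (dig k 2).val := by decide
  intro a b hab
  exact Fin.ext (by rw [this a, this b, hab])

theorem Hyp.word_bijective (h : Hyp ω) :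
    Function.Bijective fun k : Fin 64 => (⟨wd (ω := ω) (linI (dig k)),
      h.exists_coeff.2 ⟨_, rfl⟩⟩ : hexacode F ω) := by
  refine ⟨fun a b hab => dig_bijective.1 ?_, fun x => ?_⟩
  · have e : wd (ω := ω) (linI (dig a)) = wd (ω := ω) (linI (dig b)) := congrArg Subtype.val hab
    funext j
    rw [← linI_first (dig a) j, ← linI_first (dig b) j]
    exact h.el_bijective.1 (congrFun e _)
  · obtain ⟨a, ha⟩ := h.exists_coeff.1 x.2
    obtain ⟨k, rfl⟩ := dig_bijective.2 a
    exact ⟨k, Subtype.ext ha⟩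

theorem weight_check : ∀ k : Fin 64,
    ((Finset.univ.filter fun i => linI (dig k) i ≠ 0).card = 0 ∧ k = 0) ∨
      (Finset.univ.filter fun i => linI (dig k) i ≠ 0).card = 4 ∨
      (Finset.univ.filter fun i => linI (dig k) i ≠ 0).card = 6 := by
  decide +kernel

theorem count_check :
    (Finset.univ.filter fun k : Fin 64 =>
      (Finset.univ.filter fun i => linI (dig k) i ≠ 0).card = 4).card = 45 ∧
    (Finset.univ.filter fun k : Fin 64 =>
      (Finset.univ.filter fun i => linI (dig k) i ≠ 0).card = 6).card = 18 := by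
  decide +kernel

theorem Hyp.filter_wd [DecidableEq F] (h : Hyp ω) (w : Fin 6 → Fin 4) :
    (Finset.univ.filter fun i => wd (ω := ω) w i ≠ 0) = Finset.univ.filter fun i => w i ≠ 0 :=
  Finset.filter_congr fun i _ => not_congr h.el_eq_zero

theorem Hyp.weights [DecidableEq F] (h : Hyp ω) {x : Fin 6 → F} (hx : x ∈ hexacode F ω)
    (h0 : x ≠ 0) : (Finset.univ.filter fun i => x i ≠ 0).card = 4 ∨
      (Finset.univ.filter fun i => x i ≠ 0).card = 6 := by
  obtain ⟨k, hk⟩ := h.word_bijective.2 ⟨x, hx⟩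
  have e : wd (ω := ω) (linI (dig k)) = x := congrArg Subtype.val hk
  subst e
  rw [h.filter_wd]
  refine (weight_check k).resolve_left fun ⟨_, hk0⟩ => h0 ?_
  subst hk0
  funext i
  have : ∀ i, linI (dig 0) i = 0 := by decide
  rw [wd, this i]
  rfl

theorem Hyp.ncard_weight [DecidableEq F] (h : Hyp ω) (n : ℕ) :
    {x : Fin 6 → F | x ∈ hexacode F ω ∧ (Finset.univ.filter fun i => x i ≠ 0).card = n}.ncard =
      (Finset.univ.filter fun k : Fin 64 =>
        (Finset.univ.filter fun i => linI (dig k) i ≠ 0).card = n).card := by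
  rw [← Set.ncard_coe_finset, ← Set.ncard_image_of_injective _
    (Subtype.val_injective.comp h.word_bijective.1)]
  congr 1
  ext x
  simp only [Finset.coe_filter, Finset.mem_univ, true_and, Set.mem_image, Set.mem_ofPred_eq,
    Function.comp_apply]
  constructor
  · rintro ⟨hx, hn⟩
    obtain ⟨k, hk⟩ := h.word_bijective.2 ⟨x, hx⟩
    have e : wd (ω := ω) (linI (dig k)) = x := congrArg Subtype.val hk
    exact ⟨k, by rw [← h.filter_wd, e]; exact hn, e⟩
  · rintro ⟨k, hn, rfl⟩
    exact ⟨h.exists_coeff.2 ⟨_, rfl⟩, by rw [h.filter_wd]; exact hn⟩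

/-! ### Monomial automorphisms -/

/-- A monomial map preserves the hexacode. -/
def Preserves (ω : F) (σ : Equiv.Perm (Fin 6)) (c : Fin 6 → Fˣ) : Prop :=
  ∀ x ∈ hexacode F ω, monomialMap σ c x ∈ hexacode F ω

/-- The monomial image of a basis vector, on indices. -/
def imgI (σ : Equiv.Perm (Fin 6)) (e : Fin 6 → Fin 4) (k : Fin 3) : Fin 6 → Fin 4 :=
  fun i => mulI (e i) (gI k (σ.symm i))

theorem Hyp.preserves_iff (h : Hyp ω) {σ : Equiv.Perm (Fin 6)} {c : Fin 6 → Fˣ}
    {e : Fin 6 → Fin 4} (hce : ∀ i, (c i : F) = el ω (e i)) :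
    Preserves ω σ c ↔ ∀ k i, imgI σ e k i =
      linI (fun j => imgI σ e k (j.castLE (by norm_num))) i := by
  have img : ∀ k, monomialMap σ c (wd (ω := ω) (gI k)) = wd (ω := ω) (imgI σ e k) := fun k =>
    funext fun i => by simp [monomialMap, wd, imgI, h.el_mul, hce]
  constructor
  · intro hp k i
    have hk : wd (ω := ω) (gI k) ∈ hexacode F ω := by
      rw [h.hexacode_eq]; exact Submodule.subset_span ⟨k, rfl⟩
    have := hp _ hk
    rw [img, h.exists_coeff] at this
    obtain ⟨a, ha⟩ := this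
    have e1 : linI a = imgI σ e k := funext fun i => h.el_bijective.1 (congrFun ha i)
    rw [← e1]
    congr 1
    funext j
    exact (linI_first a j).symm
  · intro hp x hx
    rw [h.hexacode_eq] at hx
    induction hx using Submodule.span_induction with
    | mem y hy =>
      obtain ⟨k, rfl⟩ := hy
      rw [img, show imgI σ e k = linI (fun j => imgI σ e k (j.castLE (by norm_num))) from
        funext (hp k)]
      exact h.exists_coeff.2 ⟨_, rfl⟩
    | zero =>
      have : monomialMap σ c (0 : Fin 6 → F) = 0 := funext fun i => by simp [monomialMap]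
      rw [this]; exact zero_mem _
    | add y z _ _ hy hz =>
      have : monomialMap σ c (y + z) = monomialMap σ c y + monomialMap σ c z :=
        funext fun i => by simp [monomialMap, mul_add]
      rw [this]; exact add_mem hy hz
    | smul a y _ hy =>
      have : monomialMap σ c (a • y) = a • monomialMap σ c y :=
        funext fun i => by simp [monomialMap, mul_left_comm]
      rw [this]; exact Submodule.smul_mem _ _ hy

theorem Hyp.exists_index (h : Hyp ω) (c : Fin 6 → Fˣ) :
    ∃ e : Fin 6 → Fin 4, (∀ i, e i ≠ 0) ∧ ∀ i, (c i : F) = el ω (e i) := by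
  choose e he using fun i => h.el_bijective.2 (c i : F)
  exact ⟨e, fun i h0 => (c i).ne_zero (by rw [← he i, h0]; exact h.el_zero), fun i => (he i).symm⟩

theorem Hyp.preserves_of_indices (h : Hyp ω) {σ : Equiv.Perm (Fin 6)} (e : Fin 6 → Fin 4)
    (he : ∀ i, e i ≠ 0)
    (hp : ∀ k i, imgI σ e k i = linI (fun j => imgI σ e k (j.castLE (by norm_num))) i) :
    ∃ c, Preserves ω σ c :=
  ⟨fun i => Units.mk0 (el ω (e i)) (fun h0 => he i (h.el_eq_zero.1 h0)),
    (h.preserves_iff fun _ => rfl).2 hp⟩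

theorem monomialMap_mul (σ τ : Equiv.Perm (Fin 6)) (c d : Fin 6 → Fˣ) (x : Fin 6 → F) :
    monomialMap σ c (monomialMap τ d x) = monomialMap (σ * τ) (fun i => c i * d (σ.symm i)) x := by
  funext i
  simp [monomialMap, mul_assoc, Equiv.Perm.mul_def]

/-- The coordinate permutations occurring, as a submonoid. -/
def permPart (ω : F) : Submonoid (Equiv.Perm (Fin 6)) where
  carrier := {σ | ∃ c, Preserves ω σ c}
  one_mem' := ⟨1, fun x hx => by
    convert hx using 1
    funext i
    simp [monomialMap, Equiv.Perm.one_def]⟩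
  mul_mem' := by
    rintro σ τ ⟨c, hc⟩ ⟨d, hd⟩
    exact ⟨_, fun x hx => by rw [← monomialMap_mul]; exact hc _ (hd x hx)⟩

theorem Hyp.scalar (h : Hyp ω) {c : Fin 6 → Fˣ} (hc : Preserves ω 1 c) (i j : Fin 6) :
    c i = c j := by
  obtain ⟨e, he, hce⟩ := h.exists_index c
  have hp := (h.preserves_iff hce).1 hc
  have key : ∀ k : Fin 3, ∀ i : Fin 6, 3 ≤ i.val → e i = e (k.castLE (by norm_num)) := by
    intro k i hi
    have h1 := hp k i
    have h2 : (fun j : Fin 3 => imgI 1 e k (j.castLE (by norm_num))) =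
        fun j => if j = k then e (k.castLE (by norm_num)) else 0 := by
      funext l
      have : ∀ a : Fin 4, ∀ l k : Fin 3,
          mulI a (gI k ((1 : Equiv.Perm (Fin 6)).symm (l.castLE (by norm_num)))) =
            if l = k then a else 0 := by decide
      simp only [imgI, this]
      split_ifs with hlk <;> simp [hlk]
    rw [h2] at h1
    have h3 : ∀ a : Fin 4, ∀ k : Fin 3, ∀ b : Fin 4, ∀ i : Fin 6, 3 ≤ i.val →
        mulI b (gI k ((1 : Equiv.Perm (Fin 6)).symm i)) =
          linI (fun j => if j = k then a else 0) i → b = a := by decide +kernel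
    exact h3 _ k _ i hi h1
  have all : ∀ l, e l = e 3 := by
    intro l
    by_cases hl : 3 ≤ l.val
    · rw [key 0 l hl, ← key 0 3 le_rfl]
    · have := key ⟨l.val, not_le.1 hl⟩ 3 le_rfl
      rw [this]
      rfl
  exact Units.ext (by rw [hce, hce, all i, all j])

theorem Hyp.swap_not_mem (h : Hyp ω) : Equiv.swap (0 : Fin 6) 1 ∉ permPart ω := by
  rintro ⟨c, hc⟩
  obtain ⟨e, he, hce⟩ := h.exists_index c
  have hp := (h.preserves_iff hce).1 hc
  let f : Fin 3 → Fin 4 := ![e 1, e 0, e 2]
  have hf : ∀ k : Fin 3, (fun j : Fin 3 => imgI (Equiv.swap 0 1) e k (j.castLE (by norm_num))) =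
      fun j => if j = (![1, 0, 2] : Fin 3 → Fin 3) k then f k else 0 := by
    intro k
    funext l
    have : ∀ a b c : Fin 4, ∀ l k : Fin 3,
        mulI ((![a, b, c] : Fin 3 → Fin 4) l)
          (gI k ((Equiv.swap (0 : Fin 6) 1).symm (l.castLE (by norm_num)))) =
        if l = (![1, 0, 2] : Fin 3 → Fin 3) k then
          (![b, a, c] : Fin 3 → Fin 4) k else 0 := by decide +kernel
    have h0 : ∀ l : Fin 3, e (l.castLE (by norm_num)) = (![e 0, e 1, e 2] : Fin 3 → Fin 4) l := by
      intro l; fin_cases l <;> rfl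
    simp only [imgI, h0, this]
    rfl
  have h02 := fun i => (congrArg (fun g => linI g i) (hf 0)) ▸ hp 0 i
  have h22 := fun i => (congrArg (fun g => linI g i) (hf 2)) ▸ hp 2 i
  have fin : ∀ a c d3 d4 : Fin 4, a ≠ 0 → c ≠ 0 →
      mulI d3 (gI 2 ((Equiv.swap (0 : Fin 6) 1).symm 3)) =
        linI (fun j => if j = 2 then c else 0) 3 →
      mulI d4 (gI 2 ((Equiv.swap (0 : Fin 6) 1).symm 4)) =
        linI (fun j => if j = 2 then c else 0) 4 →
      mulI d3 (gI 0 ((Equiv.swap (0 : Fin 6) 1).symm 3)) =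
        linI (fun j => if j = 1 then a else 0) 3 →
      mulI d4 (gI 0 ((Equiv.swap (0 : Fin 6) 1).symm 4)) =
        linI (fun j => if j = 1 then a else 0) 4 → False := by decide +kernel
  exact fin (e 1) (e 2) (e 3) (e 4) (he 1) (he 2) (h22 3) (h22 4) (h02 3) (h02 4)

theorem Hyp.gen_mem (h : Hyp ω) (i : Fin 5) :
    Equiv.swap (0 : Fin 6) 1 * Equiv.swap i.castSucc i.succ ∈ permPart ω := by
  have wit : ∀ i : Fin 5, i ≠ 0 →
      let e : Fin 6 → Fin 4 := (![![1, 1, 1, 1, 1, 1], ![1, 1, 1, 1, 3, 2], ![1, 1, 1, 1, 1, 1],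
        ![1, 2, 3, 3, 3, 3], ![1, 1, 1, 1, 1, 1]] : Fin 5 → Fin 6 → Fin 4) i
      (∀ j, e j ≠ 0) ∧ ∀ k j, imgI (Equiv.swap (0 : Fin 6) 1 * Equiv.swap i.castSucc i.succ) e k j =
        linI (fun l => imgI (Equiv.swap (0 : Fin 6) 1 * Equiv.swap i.castSucc i.succ) e k
          (l.castLE (by norm_num))) j := by
    decide +kernel
  by_cases hi : i = 0
  · subst hi
    rw [show ((0 : Fin 5).castSucc : Fin 6) = 0 from rfl,
      show ((0 : Fin 5).succ : Fin 6) = 1 from rfl, Equiv.swap_mul_self]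
    exact one_mem _
  · obtain ⟨h1, h2⟩ := wit i hi
    exact h.preserves_of_indices _ h1 h2

theorem Hyp.gen_mem' (h : Hyp ω) (i : Fin 5) :
    Equiv.swap i.castSucc i.succ * Equiv.swap (0 : Fin 6) 1 ∈ permPart ω := by
  set g := Equiv.swap (0 : Fin 6) 1 * Equiv.swap i.castSucc i.succ with hg
  have hinv : Equiv.swap i.castSucc i.succ * Equiv.swap (0 : Fin 6) 1 = g⁻¹ := by
    rw [hg, mul_inv_rev, Equiv.swap_inv, Equiv.swap_inv]
  rw [hinv]
  obtain ⟨n, hn⟩ := (isOfFinOrder_of_finite g).mem_powers_iff_mem_zpowers.2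
    (Subgroup.inv_mem _ (Subgroup.mem_zpowers g))
  simp only at hn
  rw [← hn]
  exact pow_mem (h.gen_mem i) n

theorem Hyp.mem_permPart_iff (h : Hyp ω) (σ : Equiv.Perm (Fin 6)) :
    σ ∈ permPart ω ↔ σ ∈ alternatingGroup (Fin 6) := by
  have key : ∀ σ : Equiv.Perm (Fin 6),
      (Equiv.Perm.sign σ = 1 ∧ σ ∈ permPart ω) ∨
        (Equiv.Perm.sign σ = -1 ∧ Equiv.swap (0 : Fin 6) 1 * σ ∈ permPart ω) := by
    intro σ
    have hσ : σ ∈ Submonoid.closure (Set.range fun i : Fin 5 => Equiv.swap i.castSucc i.succ) := by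
      rw [Equiv.Perm.mclosure_swap_castSucc_succ]; trivial
    induction hσ using Submonoid.closure_induction_left with
    | one => exact Or.inl ⟨map_one _, one_mem _⟩
    | mul_left x hx y _ ih =>
      obtain ⟨i, rfl⟩ := hx
      have hs : Equiv.Perm.sign (Equiv.swap i.castSucc i.succ) = -1 :=
        Equiv.Perm.sign_swap (Fin.castSucc_lt_succ (i := i)).ne
      rcases ih with ⟨hy, hy'⟩ | ⟨hy, hy'⟩
      · refine Or.inr ⟨by rw [map_mul, hs, hy, mul_one], ?_⟩
        rw [← mul_assoc]
        exact mul_mem (h.gen_mem i) hy'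
      · refine Or.inl ⟨by rw [map_mul, hs, hy]; decide, ?_⟩
        have := mul_mem (h.gen_mem' i) hy'
        rwa [mul_assoc, ← mul_assoc (Equiv.swap (0 : Fin 6) 1), Equiv.swap_mul_self, one_mul] at this
  rw [Equiv.Perm.mem_alternatingGroup]
  refine ⟨fun hmem => ?_, fun hs => ?_⟩
  · rcases key σ with ⟨hs, -⟩ | ⟨-, hm⟩
    · exact hs
    · exfalso
      apply h.swap_not_mem
      have hi : σ⁻¹ ∈ permPart ω := by
        obtain ⟨n, hn⟩ := (isOfFinOrder_of_finite σ).mem_powers_iff_mem_zpowers.2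
          (Subgroup.inv_mem _ (Subgroup.mem_zpowers σ))
        simp only at hn
        rw [← hn]
        exact pow_mem hmem n
      simpa using mul_mem hm hi
  · rcases key σ with ⟨-, hm⟩ | ⟨hs', -⟩
    · exact hm
    · rw [hs] at hs'
      exact absurd hs' (by decide)

theorem Hyp.card_monomial (h : Hyp ω) :
    Nat.card {f : Equiv.Perm (Fin 6) × (Fin 6 → Fˣ) //
      ∀ x ∈ hexacode F ω, monomialMap f.1 f.2 x ∈ hexacode F ω} = 1080 := by
  classical
  choose e he using fun σ : alternatingGroup (Fin 6) => (h.mem_permPart_iff _).2 σ.2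
  let Z : alternatingGroup (Fin 6) × Fˣ → {f : Equiv.Perm (Fin 6) × (Fin 6 → Fˣ) //
      ∀ x ∈ hexacode F ω, monomialMap f.1 f.2 x ∈ hexacode F ω} := fun a =>
    ⟨((a.1 : Equiv.Perm (Fin 6)), fun i => a.2 * e a.1 i), fun x hx => by
      have hm : monomialMap (a.1 : Equiv.Perm (Fin 6)) (fun i => a.2 * e a.1 i) x =
          (a.2 : F) • monomialMap (a.1 : Equiv.Perm (Fin 6)) (e a.1) x := by
        funext i
        simp [monomialMap, mul_assoc]
      rw [hm]
      exact Submodule.smul_mem _ _ (he a.1 x hx)⟩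
  have hZ : Function.Bijective Z := by
    refine ⟨fun a b hab => ?_, fun f => ?_⟩
    · have h' := congrArg Subtype.val hab
      simp only [Z, Prod.mk.injEq] at h'
      have h1 : a.1 = b.1 := Subtype.ext h'.1
      refine Prod.ext h1 ?_
      have h2 := congrFun h'.2 0
      simp only [← h1] at h2
      exact mul_right_cancel h2
    · let σ : alternatingGroup (Fin 6) := ⟨f.1.1, (h.mem_permPart_iff _).1 ⟨f.1.2, f.2⟩⟩
      let d : Fin 6 → Fˣ := fun i => f.1.2 i * (e σ i)⁻¹
      have hd : Preserves ω 1 d := by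
        intro x hx
        obtain ⟨y, hy, rfl⟩ : ∃ y ∈ hexacode F ω, monomialMap f.1.1 (e σ) y = x := by
          let g : hexacode F ω → hexacode F ω := fun y => ⟨monomialMap f.1.1 (e σ) y, he σ y y.2⟩
          have hg : Function.Injective g := by
            intro y z hyz
            have h' := congrArg Subtype.val hyz
            refine Subtype.ext (funext fun i => ?_)
            have := congrFun h' (f.1.1 i)
            simpa [g, monomialMap] using this
          obtain ⟨y, hy⟩ := Finite.surjective_of_injective hg ⟨x, hx⟩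
          exact ⟨y, y.2, congrArg Subtype.val hy⟩
        have hm : monomialMap 1 d (monomialMap f.1.1 (e σ) y) = monomialMap f.1.1 f.1.2 y := by
          rw [monomialMap_mul, one_mul]
          congr 1
          funext i
          simp [d, Equiv.Perm.one_def]
        rw [hm]
        exact f.2 y hy
      refine ⟨(σ, d 0), Subtype.ext (Prod.ext rfl (funext fun i => ?_))⟩
      show d 0 * e σ i = f.1.2 i
      rw [h.scalar hd 0 i]
      simp [d]
  have hA : Nat.card (alternatingGroup (Fin 6)) = 360 := by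
    have := two_mul_nat_card_alternatingGroup (α := Fin 6)
    rw [Nat.card_eq_fintype_card (α := Equiv.Perm (Fin 6)), Fintype.card_perm, Fintype.card_fin,
      show Nat.factorial 6 = 720 by rfl] at this
    omega
  rw [← Nat.card_eq_of_bijective Z hZ, Nat.card_prod, hA, Nat.card_units,
    Nat.card_eq_fintype_card, h.card]

end Cfsg.Agent.Hexa45
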