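/-
Intersection numbers of a Steiner system S(5, 6, 12) relative to a block.
-/
import Mathlib
import Cfsg.Prelude.Def_Sporadic_a
import Cfsg.Agent.Steiner.Count

set_option autoImplicit false

namespace Cfsg.Agent.LeechTriangle12

open Finset Cfsg.Agent.SteinerCount

variable {α : Type*} [Fintype α] [DecidableEq α] {B : Set (Finset α)}

/-- The number of blocks meeting `b` exactly in `T`. -/
noncomputable def mult (B : Set (Finset α)) (b T : Finset α) : ℕ :=
  ((blocks B).filter fun c => b ∩ c = T).card

theorem split (b s : Finset α) (hs : s ⊆ b) :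
    ((blocks B).filter fun c => s ⊆ c).card =
      ∑ j ∈ range ((b \ s).card + 1), ∑ R ∈ (b \ s).powersetCard j, mult B b (s ∪ R) := by
  rw [← Finset.sum_powerset]
  rw [Finset.card_eq_sum_card_fiberwise (f := fun c => (b ∩ c) \ s) (t := (b \ s).powerset)]
  · refine Finset.sum_congr rfl fun R hR => ?_
    rw [Finset.mem_powerset] at hR
    have hd : Disjoint R s := Finset.disjoint_of_subset_left hR Finset.sdiff_disjoint
    unfold mult
    congr 1
    ext c
    simp only [Finset.mem_filter]
    constructor
    · rintro ⟨⟨hc, hsc⟩, rfl⟩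
      exact ⟨hc, (Finset.union_sdiff_of_subset (Finset.subset_inter hs hsc)).symm⟩
    · rintro ⟨hc, he⟩
      refine ⟨⟨hc, fun x hx => ?_⟩, ?_⟩
      · have : x ∈ b ∩ c := he ▸ Finset.mem_union_left R hx
        exact (Finset.mem_inter.1 this).2
      · rw [he, Finset.union_sdiff_cancel_left hd.symm]
  · intro c _
    simp only [Finset.coe_powerset, Set.mem_preimage, Finset.coe_sdiff, Set.mem_powerset_iff]
    intro x hx
    simp only [Finset.coe_sdiff, Finset.coe_inter, Set.mem_sdiff, Set.mem_inter_iff] at hx ⊢
    exact ⟨hx.1.1, hx.2⟩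

/-- The number of blocks meeting a block exactly in a given subset, by its size. -/
def num : ℕ → ℕ
  | 2 => 3
  | 3 => 2
  | 4 => 3
  | 6 => 1
  | _ => 0

theorem mult_eq (hα : Fintype.card α = 12) (hB : Cfsg.IsSteinerSystem 5 6 B) {b : Finset α}
    (hb : b ∈ B) {T : Finset α} (hT : T ⊆ b) (h1 : 1 ≤ T.card) : mult B b T = num T.card := by
  have hb6 : b.card = 6 := hB.1 b hb
  have hT6 : T.card ≤ 6 := hb6 ▸ Finset.card_le_card hT
  induction hn : 6 - T.card using Nat.strong_induction_on generalizing T with
  | _ n ih =>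
    by_cases h5 : 5 ≤ T.card
    · -- a block containing five points of `b` is `b`
      obtain ⟨u, huT, hu⟩ := Finset.exists_subset_card_eq h5
      have key : ∀ c ∈ B, b ∩ c = T → c = b := fun c hc he =>
        (hB.2 u hu).unique ⟨hc, huT.trans (he ▸ Finset.inter_subset_right)⟩
          ⟨hb, huT.trans hT⟩
      by_cases h6 : T.card = 6
      · have hTb : T = b := Finset.eq_of_subset_of_card_le hT (by omega)
        rw [mult, h6, show num 6 = 1 from rfl, Finset.card_eq_one]
        refine ⟨b, ?_⟩
        ext c
        simp only [Finset.mem_filter, mem_blocks, Finset.mem_singleton]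
        exact ⟨fun h => key c h.1 h.2, fun h => by rw [h, Finset.inter_self, hTb]; exact ⟨hb, rfl⟩⟩
      · have hnum : num T.card = 0 := by rw [show T.card = 5 by omega]; rfl
        rw [mult, hnum, Finset.card_eq_zero, Finset.filter_eq_empty_iff]
        intro c hc he
        rw [key c (mem_blocks.1 hc) he, Finset.inter_self] at he
        exact h6 (he ▸ hb6)
    · have htot := blocks_through 5 6 hB T (by omega)
      rw [split b T hT, Finset.sum_range_succ'] at htot
      have hR : (b \ T).card = 6 - T.card := by rw [Finset.card_sdiff_of_subset hT, hb6]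
      have hrest : ∀ j ∈ range (b \ T).card, ∑ R ∈ (b \ T).powersetCard (j + 1), mult B b (T ∪ R) =
          (6 - T.card).choose (j + 1) * num (T.card + (j + 1)) := by
        intro j _
        rw [Finset.sum_congr rfl (g := fun _ => num (T.card + (j + 1))), Finset.sum_const,
          Finset.card_powersetCard, hR, smul_eq_mul]
        intro R hR'
        rw [Finset.mem_powersetCard] at hR'
        have hd : Disjoint T R :=
          Finset.disjoint_of_subset_right hR'.1 Finset.disjoint_sdiff
        have hc : (T ∪ R).card = T.card + (j + 1) := by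
          rw [Finset.card_union_of_disjoint hd, hR'.2]
        have hsub : T ∪ R ⊆ b := Finset.union_subset hT (hR'.1.trans Finset.sdiff_subset)
        rw [← hc]
        exact ih (6 - (T ∪ R).card) (by omega) hsub (by omega) (hb6 ▸ Finset.card_le_card hsub) rfl
      rw [Finset.sum_congr rfl hrest, hα, hR] at htot
      simp only [Finset.powersetCard_zero, Finset.sum_singleton, Finset.union_empty] at htot
      have hlo : T.card = 1 ∨ T.card = 2 ∨ T.card = 3 ∨ T.card = 4 := by omega
      rcases hlo with h | h | h | h <;>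
        · rw [h] at htot ⊢
          simp only [Finset.sum_range_succ, Finset.sum_range_zero, num] at htot ⊢
          norm_num [Nat.choose] at htot ⊢
          omega

theorem triangle (hα : Fintype.card α = 12) (hB : Cfsg.IsSteinerSystem 5 6 B) (b : Finset α)
    (hb : b ∈ B) :
    (∀ c ∈ B, c ≠ b → (b ∩ c).card = 0 ∨ (b ∩ c).card = 2 ∨ (b ∩ c).card = 3 ∨ (b ∩ c).card = 4) ∧
      ∀ s ⊆ b, (s.card = 2 → {c : Finset α | c ∈ B ∧ b ∩ c = s}.ncard = 3) ∧
        (s.card = 3 → {c : Finset α | c ∈ B ∧ b ∩ c = s}.ncard = 2) ∧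
        (s.card = 4 → {c : Finset α | c ∈ B ∧ b ∩ c = s}.ncard = 3) := by
  refine ⟨fun c hc hne => ?_, fun s hs => ?_⟩
  · by_cases h1 : 1 ≤ (b ∩ c).card
    · have hm := mult_eq hα hB hb (Finset.inter_subset_left (s₂ := c)) h1
      have hpos : 0 < mult B b (b ∩ c) :=
        Finset.card_pos.2 ⟨c, Finset.mem_filter.2 ⟨mem_blocks.2 hc, rfl⟩⟩
      have hle : (b ∩ c).card ≤ 6 := hB.1 b hb ▸ Finset.card_le_card Finset.inter_subset_left
      rw [hm] at hpos
      have h56 : (b ∩ c).card ≠ 6 := by
        intro h6
        have hbc : b ∩ c = b :=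
          Finset.eq_of_subset_of_card_le Finset.inter_subset_left (by rw [h6, hB.1 b hb])
        exact hne (Finset.eq_of_subset_of_card_le (Finset.inter_eq_left.1 hbc)
          (by rw [hB.1 b hb, hB.1 c hc])).symm
      generalize (b ∩ c).card = m at *
      interval_cases m <;> simp_all [num]
    · exact Or.inl (by omega)
  · have key : ∀ k, 1 ≤ k → s.card = k → {c : Finset α | c ∈ B ∧ b ∩ c = s}.ncard = num k := by
      intro k hk h
      rw [ncard_blocks B fun c => b ∩ c = s]
      exact (mult_eq hα hB hb hs (h ▸ hk)).trans (h ▸ rfl)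
    exact ⟨key 2 (by norm_num), key 3 (by norm_num), key 4 (by norm_num)⟩

end Cfsg.Agent.LeechTriangle12
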