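/-
The ternary code of length 12: generator matrix, weights, self-orthogonality, the Steiner system
of hexads.
-/
import Mathlib
import Cfsg.Prelude.Def_SporadicCombinatorics
import Cfsg.Agent.Golay.Octads

set_option autoImplicit false

namespace Cfsg.Agent.Ternary12

open Cfsg

/-- Position `(i, r)` has number `3 i + r`. -/
def pIdx (p : ArrayPt) : ℕ := 3 * p.1.val + p.2.val

/-- The position with a given number. -/
def pPt (n : ℕ) : ArrayPt := (Fin.ofNat 4 (n / 3), (n : ZMod 3))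

theorem pPt_pIdx : ∀ p : ArrayPt, pPt (pIdx p) = p := by decide

theorem pIdx_lt : ∀ p : ArrayPt, pIdx p < 12 := by decide

theorem pIdx_pPt {n : ℕ} (h : n < 12) : pIdx (pPt n) = n := by
  interval_cases n <;> decide

theorem pIdx_injective : Function.Injective pIdx :=
  Function.LeftInverse.injective pPt_pIdx

/-- A word from the list of its entries. -/
def ofList (l : List ℕ) : ArrayPt → ZMod 3 := fun p => (l.getD (pIdx p) 0 : ZMod 3)

/-- The basis. -/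
def rowL : Fin 6 → List ℕ := ![
  [2, 2, 2, 1, 1, 1, 0, 0, 0, 0, 0, 0], [0, 1, 2, 1, 2, 0, 2, 1, 0, 0, 0, 0],
  [2, 1, 0, 2, 1, 0, 2, 0, 1, 0, 0, 0], [2, 1, 1, 1, 0, 0, 1, 0, 0, 1, 0, 0],
  [2, 0, 2, 2, 2, 0, 1, 0, 0, 0, 1, 0], [1, 1, 2, 0, 1, 0, 1, 0, 0, 0, 0, 1]]

/-- The six free positions. -/
def free : Fin 6 → ArrayPt := ![(1, 2), (2, 1), (2, 2), (3, 0), (3, 1), (3, 2)]

/-- The code word with given values on the free positions. -/
def lin (v : Fin 6 → ZMod 3) : ArrayPt → ZMod 3 := fun p => ∑ i, v i * ofList (rowL i) p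

theorem lin_eq_sum (v : Fin 6 → ZMod 3) : lin v = ∑ i, v i • ofList (rowL i) := by
  funext p
  simp [lin, Finset.sum_apply]

theorem sum_three (f : ZMod 3 → ZMod 3) : ∑ r, f r = f 0 + f 1 + f 2 := Fin.sum_univ_three f

theorem mem_tetracode {t : Fin 4 → ZMod 3} :
    t ∈ tetracode ↔ ∃ a b : ZMod 3, a • (![0, 1, 1, 1] : Fin 4 → ZMod 3) + b • ![1, 0, 1, 2] = t :=
  Submodule.mem_span_pair

theorem rows_word : ∀ i : Fin 6, ∃ s : ZMod 3,
    (∀ j : Fin 4, ∑ r : ZMod 3, ofList (rowL i) (j, r) = -s) ∧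
    ∀ a b : ZMod 3, ∑ j : Fin 4, ofList (rowL i)
      (j, (a • (![0, 1, 1, 1] : Fin 4 → ZMod 3) + b • (![1, 0, 1, 2] : Fin 4 → ZMod 3) : Fin 4 → ZMod 3) j) = s := by
  decide +kernel

theorem row_mem (i : Fin 6) : ofList (rowL i) ∈ ternaryGolayCode := by
  obtain ⟨s, h1, h2⟩ := rows_word i
  refine ⟨s, h1, fun t ht => ?_⟩
  obtain ⟨a, b, rfl⟩ := mem_tetracode.1 ht
  exact h2 a b

theorem lin_mem (v : Fin 6 → ZMod 3) : lin v ∈ ternaryGolayCode := by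
  rw [lin_eq_sum]
  exact Submodule.sum_mem _ fun i _ => Submodule.smul_mem _ _ (row_mem i)

theorem lin_free : ∀ i j : Fin 6, ofList (rowL i) (free j) = if i = j then 1 else 0 := by decide

theorem eq_lin {x : ArrayPt → ZMod 3} (hx : x ∈ ternaryGolayCode) : x = lin (fun i => x (free i)) := by
  obtain ⟨s, hc, ht⟩ := hx
  have T : ∀ a b : ZMod 3, ∑ j : Fin 4, x
      (j, (a • (![0, 1, 1, 1] : Fin 4 → ZMod 3) + b • (![1, 0, 1, 2] : Fin 4 → ZMod 3) : Fin 4 → ZMod 3) j) = s :=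
    fun a b => ht _ (mem_tetracode.2 ⟨a, b, rfl⟩)
  have c0 := hc 0; have c1 := hc 1; have c2 := hc 2; have c3 := hc 3
  rw [sum_three] at c0 c1 c2 c3
  have t00 : x ((0 : Fin 4), (0 : ZMod 3)) + x ((1 : Fin 4), (0 : ZMod 3)) + x ((2 : Fin 4), (0 : ZMod 3)) + x ((3 : Fin 4), (0 : ZMod 3)) = s := by
    have h := T 0 0
    rw [Fin.sum_univ_four] at h
    exact h
  have t01 : x ((0 : Fin 4), (1 : ZMod 3)) + x ((1 : Fin 4), (0 : ZMod 3)) + x ((2 : Fin 4), (1 : ZMod 3)) + x ((3 : Fin 4), (2 : ZMod 3)) = s := by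
    have h := T 0 1
    rw [Fin.sum_univ_four] at h
    exact h
  have t02 : x ((0 : Fin 4), (2 : ZMod 3)) + x ((1 : Fin 4), (0 : ZMod 3)) + x ((2 : Fin 4), (2 : ZMod 3)) + x ((3 : Fin 4), (1 : ZMod 3)) = s := by
    have h := T 0 2
    rw [Fin.sum_univ_four] at h
    exact h
  have t10 : x ((0 : Fin 4), (0 : ZMod 3)) + x ((1 : Fin 4), (1 : ZMod 3)) + x ((2 : Fin 4), (1 : ZMod 3)) + x ((3 : Fin 4), (1 : ZMod 3)) = s := by
    have h := T 1 0
    rw [Fin.sum_univ_four] at h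
    exact h
  have t11 : x ((0 : Fin 4), (1 : ZMod 3)) + x ((1 : Fin 4), (1 : ZMod 3)) + x ((2 : Fin 4), (2 : ZMod 3)) + x ((3 : Fin 4), (0 : ZMod 3)) = s := by
    have h := T 1 1
    rw [Fin.sum_univ_four] at h
    exact h
  have t12 : x ((0 : Fin 4), (2 : ZMod 3)) + x ((1 : Fin 4), (1 : ZMod 3)) + x ((2 : Fin 4), (0 : ZMod 3)) + x ((3 : Fin 4), (2 : ZMod 3)) = s := by
    have h := T 1 2
    rw [Fin.sum_univ_four] at h
    exact h
  have t20 : x ((0 : Fin 4), (0 : ZMod 3)) + x ((1 : Fin 4), (2 : ZMod 3)) + x ((2 : Fin 4), (2 : ZMod 3)) + x ((3 : Fin 4), (2 : ZMod 3)) = s := by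
    have h := T 2 0
    rw [Fin.sum_univ_four] at h
    exact h
  have t21 : x ((0 : Fin 4), (1 : ZMod 3)) + x ((1 : Fin 4), (2 : ZMod 3)) + x ((2 : Fin 4), (0 : ZMod 3)) + x ((3 : Fin 4), (1 : ZMod 3)) = s := by
    have h := T 2 1
    rw [Fin.sum_univ_four] at h
    exact h
  have t22 : x ((0 : Fin 4), (2 : ZMod 3)) + x ((1 : Fin 4), (2 : ZMod 3)) + x ((2 : Fin 4), (1 : ZMod 3)) + x ((3 : Fin 4), (0 : ZMod 3)) = s := by
    have h := T 2 2
    rw [Fin.sum_univ_four] at h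
    exact h
  have e0 : x ((0 : Fin 4), (0 : ZMod 3)) = 2 * x ((1 : Fin 4), (2 : ZMod 3)) + 2 * x ((2 : Fin 4), (2 : ZMod 3)) + 2 * x ((3 : Fin 4), (0 : ZMod 3)) + 2 * x ((3 : Fin 4), (1 : ZMod 3)) + 1 * x ((3 : Fin 4), (2 : ZMod 3)) := by
    linear_combination (norm := (ring_nf; reduce_mod_char)) 1 * (c1 - c0) + 2 * (c2 - c0) + 1 * (t00 + c0) + 2 * (t01 + c0) + 2 * (t02 + c0) + 2 * (t10 + c0)
  have e1 : x ((0 : Fin 4), (1 : ZMod 3)) = 2 * x ((1 : Fin 4), (2 : ZMod 3)) + 1 * x ((2 : Fin 4), (1 : ZMod 3)) + 1 * x ((2 : Fin 4), (2 : ZMod 3)) + 1 * x ((3 : Fin 4), (0 : ZMod 3)) + 1 * x ((3 : Fin 4), (2 : ZMod 3)) := by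
    linear_combination (norm := (ring_nf; reduce_mod_char)) 1 * (c1 - c0) + 1 * (c2 - c0) + 2 * (t00 + c0) + 2 * (t01 + c0) + 1 * (t02 + c0) + 2 * (t10 + c0)
  have e2 : x ((0 : Fin 4), (2 : ZMod 3)) = 2 * x ((1 : Fin 4), (2 : ZMod 3)) + 2 * x ((2 : Fin 4), (1 : ZMod 3)) + 1 * x ((3 : Fin 4), (0 : ZMod 3)) + 2 * x ((3 : Fin 4), (1 : ZMod 3)) + 2 * x ((3 : Fin 4), (2 : ZMod 3)) := by
    linear_combination (norm := (ring_nf; reduce_mod_char)) 1 * (c1 - c0) + 1 * (c2 - c0) + 2 * (t00 + c0) + 1 * (t01 + c0) + 2 * (t02 + c0) + 2 * (t10 + c0)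
  have e3 : x ((1 : Fin 4), (0 : ZMod 3)) = 1 * x ((1 : Fin 4), (2 : ZMod 3)) + 1 * x ((2 : Fin 4), (1 : ZMod 3)) + 2 * x ((2 : Fin 4), (2 : ZMod 3)) + 1 * x ((3 : Fin 4), (0 : ZMod 3)) + 2 * x ((3 : Fin 4), (1 : ZMod 3)) := by
    linear_combination (norm := (ring_nf; reduce_mod_char)) 2 * (c1 - c0) + 1 * (c2 - c0) + 2 * (t00 + c0) + 1 * (t10 + c0)
  have e4 : x ((1 : Fin 4), (1 : ZMod 3)) = 1 * x ((1 : Fin 4), (2 : ZMod 3)) + 2 * x ((2 : Fin 4), (1 : ZMod 3)) + 1 * x ((2 : Fin 4), (2 : ZMod 3)) + 2 * x ((3 : Fin 4), (1 : ZMod 3)) + 1 * x ((3 : Fin 4), (2 : ZMod 3)) := by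
    linear_combination (norm := (ring_nf; reduce_mod_char)) 2 * (c1 - c0) + 2 * (t01 + c0) + 2 * (t02 + c0) + 2 * (t10 + c0)
  have e6 : x ((2 : Fin 4), (0 : ZMod 3)) = 2 * x ((2 : Fin 4), (1 : ZMod 3)) + 2 * x ((2 : Fin 4), (2 : ZMod 3)) + 1 * x ((3 : Fin 4), (0 : ZMod 3)) + 1 * x ((3 : Fin 4), (1 : ZMod 3)) + 1 * x ((3 : Fin 4), (2 : ZMod 3)) := by
    linear_combination (norm := (ring_nf; reduce_mod_char)) 2 * (c2 - c0) + 2 * (t00 + c0) + 2 * (t01 + c0) + 2 * (t02 + c0)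
  funext p
  obtain ⟨n, hn, rfl⟩ : ∃ n < 12, pPt n = p := ⟨pIdx p, pIdx_lt p, pPt_pIdx p⟩
  interval_cases n
  · show x ((0 : Fin 4), (0 : ZMod 3)) = lin _ ((0 : Fin 4), (0 : ZMod 3))
    have h : ∀ i : Fin 6, ofList (rowL i) ((0 : Fin 4), (0 : ZMod 3)) = (![2, 0, 2, 2, 2, 1] : Fin 6 → ZMod 3) i := by
      decide
    rw [lin, e0]
    simp only [Fin.sum_univ_six, h, free, Matrix.cons_val_zero, Matrix.cons_val_one, Matrix.cons_val]
    ring
  · show x ((0 : Fin 4), (1 : ZMod 3)) = lin _ ((0 : Fin 4), (1 : ZMod 3))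
    have h : ∀ i : Fin 6, ofList (rowL i) ((0 : Fin 4), (1 : ZMod 3)) = (![2, 1, 1, 1, 0, 1] : Fin 6 → ZMod 3) i := by
      decide
    rw [lin, e1]
    simp only [Fin.sum_univ_six, h, free, Matrix.cons_val_zero, Matrix.cons_val_one, Matrix.cons_val]
    ring
  · show x ((0 : Fin 4), (2 : ZMod 3)) = lin _ ((0 : Fin 4), (2 : ZMod 3))
    have h : ∀ i : Fin 6, ofList (rowL i) ((0 : Fin 4), (2 : ZMod 3)) = (![2, 2, 0, 1, 2, 2] : Fin 6 → ZMod 3) i := by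
      decide
    rw [lin, e2]
    simp only [Fin.sum_univ_six, h, free, Matrix.cons_val_zero, Matrix.cons_val_one, Matrix.cons_val]
    ring
  · show x ((1 : Fin 4), (0 : ZMod 3)) = lin _ ((1 : Fin 4), (0 : ZMod 3))
    have h : ∀ i : Fin 6, ofList (rowL i) ((1 : Fin 4), (0 : ZMod 3)) = (![1, 1, 2, 1, 2, 0] : Fin 6 → ZMod 3) i := by
      decide
    rw [lin, e3]
    simp only [Fin.sum_univ_six, h, free, Matrix.cons_val_zero, Matrix.cons_val_one, Matrix.cons_val]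
    ring
  · show x ((1 : Fin 4), (1 : ZMod 3)) = lin _ ((1 : Fin 4), (1 : ZMod 3))
    have h : ∀ i : Fin 6, ofList (rowL i) ((1 : Fin 4), (1 : ZMod 3)) = (![1, 2, 1, 0, 2, 1] : Fin 6 → ZMod 3) i := by
      decide
    rw [lin, e4]
    simp only [Fin.sum_univ_six, h, free, Matrix.cons_val_zero, Matrix.cons_val_one, Matrix.cons_val]
    ring
  · show x ((1 : Fin 4), (2 : ZMod 3)) = lin _ ((1 : Fin 4), (2 : ZMod 3))
    simp [lin, lin_free, show ((1 : Fin 4), (2 : ZMod 3)) = free 0 from rfl]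
  · show x ((2 : Fin 4), (0 : ZMod 3)) = lin _ ((2 : Fin 4), (0 : ZMod 3))
    have h : ∀ i : Fin 6, ofList (rowL i) ((2 : Fin 4), (0 : ZMod 3)) = (![0, 2, 2, 1, 1, 1] : Fin 6 → ZMod 3) i := by
      decide
    rw [lin, e6]
    simp only [Fin.sum_univ_six, h, free, Matrix.cons_val_zero, Matrix.cons_val_one, Matrix.cons_val]
    ring
  · show x ((2 : Fin 4), (1 : ZMod 3)) = lin _ ((2 : Fin 4), (1 : ZMod 3))
    simp [lin, lin_free, show ((2 : Fin 4), (1 : ZMod 3)) = free 1 from rfl]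
  · show x ((2 : Fin 4), (2 : ZMod 3)) = lin _ ((2 : Fin 4), (2 : ZMod 3))
    simp [lin, lin_free, show ((2 : Fin 4), (2 : ZMod 3)) = free 2 from rfl]
  · show x ((3 : Fin 4), (0 : ZMod 3)) = lin _ ((3 : Fin 4), (0 : ZMod 3))
    simp [lin, lin_free, show ((3 : Fin 4), (0 : ZMod 3)) = free 3 from rfl]
  · show x ((3 : Fin 4), (1 : ZMod 3)) = lin _ ((3 : Fin 4), (1 : ZMod 3))
    simp [lin, lin_free, show ((3 : Fin 4), (1 : ZMod 3)) = free 4 from rfl]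
  · show x ((3 : Fin 4), (2 : ZMod 3)) = lin _ ((3 : Fin 4), (2 : ZMod 3))
    simp [lin, lin_free, show ((3 : Fin 4), (2 : ZMod 3)) = free 5 from rfl]

theorem mem_iff {x : ArrayPt → ZMod 3} :
    x ∈ ternaryGolayCode ↔ x = lin (fun i => x (free i)) :=
  ⟨eq_lin, fun h => h ▸ lin_mem _⟩

theorem lin_injective : Function.Injective lin := by
  intro v w h
  funext j
  have := congrFun h (free j)
  simpa [lin, lin_free] using this

end Cfsg.Agent.Ternary12
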