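/-
Weights of the ternary code of length 12 and the Steiner system of its hexads.
-/
import Mathlib
import Cfsg.Agent.Sporadic.TernaryCode

set_option autoImplicit false
set_option linter.style.longLine false

namespace Cfsg.Agent.Ternary12

open Cfsg

/-- The six ternary digits of a number. -/
def digits (k : ℕ) : Fin 6 → ZMod 3 := fun i => ((k / 3 ^ (i : ℕ) % 3 : ℕ) : ZMod 3)

theorem digits_check : ∀ k : Fin 729, (k : ℕ) =
    (digits k 0).val + 3 * (digits k 1).val + 9 * (digits k 2).val + 27 * (digits k 3).val +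
      81 * (digits k 4).val + 243 * (digits k 5).val := by
  decide +kernel

theorem digits_bijective : Function.Bijective fun k : Fin 729 => digits k := by
  rw [Fintype.bijective_iff_injective_and_card]
  refine ⟨fun a b (h : digits a = digits b) => Fin.ext ?_, by simp⟩
  rw [digits_check a, digits_check b, h]

/-- The code word of number `k`. -/
def word (k : Fin 729) : ArrayPt → ZMod 3 := lin (digits k)

theorem word_injective : Function.Injective word :=
  lin_injective.comp digits_bijective.injective

theorem exists_word {x : ArrayPt → ZMod 3} (hx : x ∈ ternaryGolayCode) : ∃ k, word k = x := by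
  obtain ⟨k, hk⟩ := digits_bijective.2 (fun i => x (free i))
  exact ⟨k, by rw [word]; simp only at hk; rw [hk]; exact (eq_lin hx).symm⟩

theorem word_mem (k : Fin 729) : word k ∈ ternaryGolayCode := lin_mem _

theorem card_code : Nat.card ternaryGolayCode = 729 := by
  have h : Function.Bijective fun k : Fin 729 => (⟨word k, word_mem k⟩ : ternaryGolayCode) :=
    ⟨fun a b h => word_injective (congrArg Subtype.val h),
      fun x => (exists_word x.2).imp fun k hk => Subtype.ext hk⟩
  rw [← Nat.card_eq_of_bijective _ h, Nat.card_fin]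

/-- The set of positions of a bit mask. -/
def setOf' (m : ℕ) : Finset ArrayPt := Finset.univ.filter fun p => m.testBit (pIdx p) = true

theorem setOf'_bijective : Function.Bijective fun m : Fin 4096 => setOf' m := by
  rw [Fintype.bijective_iff_injective_and_card]
  refine ⟨fun a b h => Fin.ext (Nat.eq_of_testBit_eq fun i => ?_), by simp⟩
  by_cases hi : i < 12
  · have := Finset.ext_iff.1 h (pPt i)
    simp only [setOf', Finset.mem_filter, Finset.mem_univ, true_and, pIdx_pPt hi] at this
    exact Bool.eq_iff_iff.2 this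
  · have hlt : ∀ c : Fin 4096, (c : ℕ).testBit i = false := fun c => Nat.testBit_lt_two_pow
      (lt_of_lt_of_le c.isLt (le_trans (le_of_eq (by norm_num : (4096 : ℕ) = 2 ^ 12))
        (Nat.pow_le_pow_right two_pos (not_lt.1 hi))))
    rw [hlt a, hlt b]

/-- The 132 hexads as bit masks. -/
def blockList : List ℕ := [63, 222, 237, 243, 347, 366, 373, 413, 427, 438, 455, 504, 591, 630, 633, 667, 679, 700, 725, 746, 791, 813, 826, 860, 867, 910, 945, 969, 978, 996, 1117, 1127, 1146, 1175, 1198, 1209, 1227, 1268, 1295, 1331, 1340, 1366, 1385, 1434, 1445, 1484, 1489, 1506, 1566, 1579, 1589, 1619, 1644, 1677, 1714, 1734, 1752, 1761, 1817, 1830, 1861, 1866, 1904, 1923, 1940, 1960, 2135, 2155, 2172, 2191, 2229, 2234, 2265, 2278, 2334, 2343, 2361, 2381, 2418, 2451, 2476, 2506, 2516, 2529, 2589, 2606, 2611, 2650, 2661, 2710, 2729, 2755, 2764, 2800, 2827, 2868, 2886, 2897, 2920, 2949, 2968, 2978, 3099, 3117, 3126, 3150, 3185, 3228, 3235, 3269, 3282, 3304, 3349, 3370, 3395, 3416, 3428, 3462, 3465, 3504, 3591, 3640, 3657, 3668, 3682,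 3722, 3729, 3748, 3852, 3858, 3873, 4032]

/-- For each hexad, a word having it as support. -/
def witList : List ℕ := [1, 3, 4, 5, 9, 11, 10, 15, 16, 17, 12, 14, 27, 29, 28, 30, 31, 32, 33, 35, 36, 38, 37, 45, 46, 51, 53, 39, 48, 43, 81, 82, 83, 84, 86, 85, 87, 89, 90, 92, 91, 99, 101, 105, 106, 102, 96, 94, 135, 136, 137, 108, 109, 114, 115, 141, 138, 113, 126, 128, 144, 117, 154, 156, 120, 152, 243, 245, 244, 246, 248, 247, 249, 250, 252, 253, 254, 261, 263, 267, 269, 258, 255, 265, 297, 299, 298, 270, 272, 276, 277, 300, 273, 305, 288, 289, 315, 279, 307, 312, 318, 284, 405, 406, 407, 324, 325, 330, 332, 411, 327, 410, 342, 343, 414, 423, 335, 426, 336, 421, 351, 353, 378, 459, 433, 465, 435, 382, 441, 387, 479, 375]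

/-- Entry `n` of the word of number `k`. -/
def valN (k n : ℕ) : ℕ :=
  (k % 3 * (rowL 0).getD n 0 + k / 3 % 3 * (rowL 1).getD n 0 + k / 9 % 3 * (rowL 2).getD n 0 +
    k / 27 % 3 * (rowL 3).getD n 0 + k / 81 % 3 * (rowL 4).getD n 0 +
    k / 243 % 3 * (rowL 5).getD n 0) % 3

/-- The mask of the support of the word of number `k`. -/
def maskN (k : ℕ) : ℕ := (List.range 12).foldl (fun m n => if valN k n == 0 then m else m + 2 ^ n) 0

theorem word_apply (k : Fin 729) (p : ArrayPt) : word k p = (valN k (pIdx p) : ZMod 3) := by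
  simp [word, lin, Fin.sum_univ_six, digits, valN, ofList, ZMod.natCast_mod]

theorem maskN_testBit : ∀ k : Fin 729, ∀ n : Fin 12,
    (maskN k).testBit n = (valN k n != 0) := by
  decide +kernel

theorem support_word (k : Fin 729) : ternarySupport (word k) = setOf' (maskN k) := by
  ext p
  simp only [ternarySupport, setOf', Finset.mem_filter, Finset.mem_univ, true_and, word_apply,
    show (maskN k).testBit (pIdx p) = _ from maskN_testBit k ⟨pIdx p, pIdx_lt p⟩]
  rw [bne_iff_ne, ne_eq, ne_eq, not_iff_not, ZMod.natCast_eq_zero_iff]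
  constructor
  · exact fun h => Nat.eq_zero_of_dvd_of_lt h (Nat.mod_lt _ three_pos)
  · rintro h; rw [h]; exact dvd_zero 3

theorem mask_facts : ∀ k : Fin 729,
    ((setOf' (maskN k)).card = 0 → k = 0) ∧
      ((setOf' (maskN k)).card = 0 ∨ (setOf' (maskN k)).card = 6 ∨
        (setOf' (maskN k)).card = 9 ∨ (setOf' (maskN k)).card = 12) ∧
      ((setOf' (maskN k)).card = 6 → maskN k ∈ blockList) := by
  decide +kernel

theorem word_zero : word 0 = 0 := by decide +kernel

theorem weights {x : ArrayPt → ZMod 3} (hx : x ∈ ternaryGolayCode) (h0 : x ≠ 0) :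
    (ternarySupport x).card = 6 ∨ (ternarySupport x).card = 9 ∨ (ternarySupport x).card = 12 := by
  obtain ⟨k, rfl⟩ := exists_word hx
  obtain ⟨h1, h2, -⟩ := mask_facts k
  rw [support_word]
  exact h2.resolve_left fun h => h0 (by rw [h1 h, word_zero])

theorem count_facts :
    (Finset.univ.filter fun k : Fin 729 => (setOf' (maskN k)).card = 6).card = 264 ∧
    (Finset.univ.filter fun k : Fin 729 => (setOf' (maskN k)).card = 9).card = 440 ∧
    (Finset.univ.filter fun k : Fin 729 => (setOf' (maskN k)).card = 12).card = 24 := by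
  decide +kernel

theorem ncard_weight (n : ℕ) :
    {x : ArrayPt → ZMod 3 | x ∈ ternaryGolayCode ∧ (ternarySupport x).card = n}.ncard =
      (Finset.univ.filter fun k : Fin 729 => (setOf' (maskN k)).card = n).card := by
  simp only [← support_word]
  rw [← Set.ncard_coe_finset, ← Set.ncard_image_of_injective _ word_injective]
  congr 1
  ext x
  simp only [Finset.coe_filter, Finset.mem_univ, true_and, Set.mem_image, Set.mem_ofPred_eq]
  constructor
  · rintro ⟨hx, hn⟩
    obtain ⟨k, rfl⟩ := exists_word hx
    exact ⟨k, hn, rfl⟩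
  · rintro ⟨k, hk, rfl⟩
    exact ⟨word_mem k, hk⟩

theorem rows_orth : ∀ i j : Fin 6, ∑ p, ofList (rowL i) p * ofList (rowL j) p = 0 := by
  decide +kernel

theorem self_orth {x y : ArrayPt → ZMod 3} (hx : x ∈ ternaryGolayCode)
    (hy : y ∈ ternaryGolayCode) : ∑ p, x p * y p = 0 := by
  rw [eq_lin hx, eq_lin hy]
  simp only [lin, Finset.sum_mul, Finset.mul_sum]
  rw [Finset.sum_comm]
  refine Finset.sum_eq_zero fun i _ => ?_
  rw [Finset.sum_comm]
  refine Finset.sum_eq_zero fun j _ => ?_
  have h : ∀ p : ArrayPt, x (free j) * ofList (rowL j) p * (y (free i) * ofList (rowL i) p) =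
      x (free j) * y (free i) * (ofList (rowL j) p * ofList (rowL i) p) := fun p => by ring
  rw [Finset.sum_congr rfl fun p _ => h p, ← Finset.mul_sum, rows_orth, mul_zero]

/-- The hexads of the code. -/
def hexads : Set (Finset ArrayPt) :=
  {h : Finset ArrayPt | ∃ x ∈ ternaryGolayCode, ternarySupport x = h ∧ h.card = 6}

theorem blockList_wit : List.map maskN witList = blockList ∧ (∀ k ∈ witList, k < 729) ∧
    ∀ b ∈ blockList, b < 4096 ∧ (setOf' b).card = 6 := by
  decide +kernel

theorem hexads_eq : hexads = setOf' '' {b | b ∈ blockList} := by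
  ext h
  constructor
  · rintro ⟨x, hx, rfl, hc⟩
    obtain ⟨k, rfl⟩ := exists_word hx
    rw [support_word] at hc ⊢
    exact ⟨_, (mask_facts k).2.2 hc, rfl⟩
  · rintro ⟨b, hb, rfl⟩
    obtain ⟨hmap, hlt, hall⟩ := blockList_wit
    have hc := (hall b hb).2
    have hb' := hb
    simp only [Set.mem_ofPred_eq, ← hmap, List.mem_map] at hb'
    obtain ⟨k, hk, rfl⟩ := hb'
    exact ⟨word ⟨k, hlt k hk⟩, word_mem _, support_word _, hc⟩

theorem blockList_inj : ∀ b ∈ blockList, ∀ c ∈ blockList, setOf' b = setOf' c → b = c := by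
  intro b hb c hc h
  have := @setOf'_bijective.1 ⟨b, (blockList_wit.2.2 b hb).1⟩ ⟨c, (blockList_wit.2.2 c hc).1⟩ h
  exact congrArg Fin.val this

theorem ncard_hexads : hexads.ncard = 132 := by
  have hi : Set.InjOn setOf' {b | b ∈ blockList} := fun b hb c hc h => blockList_inj b hb c hc h
  rw [hexads_eq, hi.ncard_image,
    show {b | b ∈ blockList} = (blockList.toFinset : Set ℕ) from by ext; simp,
    Set.ncard_coe_finset]
  decide +kernel

/-- Two words of weight 6 whose supports share five points have the same support. -/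
theorem support_sep {x y : ArrayPt → ZMod 3} (hx : x ∈ ternaryGolayCode)
    (hy : y ∈ ternaryGolayCode) (hcx : (ternarySupport x).card = 6)
    (hcy : (ternarySupport y).card = 6) (h5 : 5 ≤ (ternarySupport x ∩ ternarySupport y).card) :
    ternarySupport x = ternarySupport y := by
  classical
  set I := ternarySupport x ∩ ternarySupport y with hI
  have hsplit := Finset.card_filter_add_card_filter_not (s := I) (fun p => x p = y p)
  obtain ⟨s, hs, hs3⟩ : ∃ s : ZMod 3, s ≠ 0 ∧ 3 ≤ (I.filter fun p => x p = s * y p).card := by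
    by_cases h3 : 3 ≤ (I.filter fun p => x p = y p).card
    · exact ⟨1, one_ne_zero, by simpa using h3⟩
    · refine ⟨-1, by decide, ?_⟩
      have e : I.filter (fun p => ¬ x p = y p) = I.filter (fun p => x p = -1 * y p) := by
        refine Finset.filter_congr fun p hp => ?_
        simp only [hI, ternarySupport, Finset.mem_inter, Finset.mem_filter, Finset.mem_univ,
          true_and] at hp
        have : ∀ a b : ZMod 3, a ≠ 0 → b ≠ 0 → (¬ a = b ↔ a = -1 * b) := by decide
        exact this _ _ hp.1 hp.2
      rw [← e]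
      omega
  have hz : x - s • y ∈ ternaryGolayCode := Submodule.sub_mem _ hx (Submodule.smul_mem _ _ hy)
  have hsub : ternarySupport (x - s • y) ⊆
      (ternarySupport x ∪ ternarySupport y) \ I.filter (fun p => x p = s * y p) := by
    intro p hp
    simp only [ternarySupport, Finset.mem_filter, Finset.mem_univ, true_and, Pi.sub_apply,
      Pi.smul_apply, smul_eq_mul] at hp
    refine Finset.mem_sdiff.2 ⟨?_, fun h => hp (sub_eq_zero.2 (Finset.mem_filter.1 h).2)⟩
    simp only [ternarySupport, Finset.mem_union, Finset.mem_filter, Finset.mem_univ, true_and]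
    by_contra h
    push Not at h
    exact hp (by rw [h.1, h.2, mul_zero, sub_zero])
  have hle := Finset.card_le_card hsub
  have hfsub : I.filter (fun p => x p = s * y p) ⊆ ternarySupport x ∪ ternarySupport y :=
    fun p hp => Finset.mem_union_left _ (Finset.mem_inter.1 (Finset.mem_filter.1 hp).1).1
  rw [Finset.card_sdiff_of_subset hfsub] at hle
  have hu := Finset.card_union_add_card_inter (ternarySupport x) (ternarySupport y)
  rw [← hI] at hu
  have h0 : x - s • y = 0 := by
    by_contra h
    rcases weights hz h with h | h | h <;> omega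
  rw [sub_eq_zero] at h0
  ext p
  simp [h0, ternarySupport, hs]

theorem hexads_steiner : IsSteinerSystem 5 6 hexads := by
  refine Cfsg.Agent.Golay.isSteinerSystem_of_count ?_ ?_ ?_
  · rintro h ⟨x, -, -, hc⟩; exact hc
  · rintro h ⟨x, hx, rfl, hcx⟩ h' ⟨y, hy, rfl, hcy⟩ hne
    by_contra h5
    exact hne (support_sep hx hy hcx hcy (not_lt.1 h5))
  · rw [ncard_hexads]
    decide

end Cfsg.Agent.Ternary12
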